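import Mathlib
import Cfsg.Prelude.Def_Characters
import Cfsg.Prelude.Def_Blocks
import Cfsg.Agent.Lib.Helper3.Char
import Cfsg.Agent.Lib.Helper3.CharCore
import Cfsg.Agent.Lib.Helper3.CharInt
import Cfsg.Agent.Lib.Helper3.BlkLocal
import Cfsg.Agent.Lib.Helper3.BlkMat
import Cfsg.Agent.Lib.Helper3.BlkOsima
import Cfsg.Agent.Lib.Helper3.BlkOrth
import Cfsg.Agent.Lib.Helper3.BlkOrth2
import Cfsg.Agent.Lib.Helper3.BlkOrth4
import Cfsg.Agent.Lib.Helper3.BlkCover
import Cfsg.Agent.Lib.Helper3.BlkMinMax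
import Cfsg.Agent.Lib.Helper3.BlkBrauer
import Cfsg.Agent.Lib.Helper3.BlkLam
import Cfsg.Agent.Lib.Helper3.BlkBr
import Cfsg.Agent.Lib.Helper3.BlkFirst
import Cfsg.Agent.Lib.Helper3.CharInd
import Cfsg.Agent.Lib.Helper3.CharArith
import Cfsg.Agent.Lib.Helper3.CharNormal
import Cfsg.Agent.Lib.Helper3.BlkClif
import Cfsg.Agent.S0923
import Cfsg.Agent.S0174

open Cfsg
open Cfsg.Agent.Lib.Helper3.Char Cfsg.Agent.Lib.Helper3.CharCore Cfsg.Agent.Lib.Helper3.CharInt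
open Cfsg.Agent.Lib.Helper3.BlkLocal Cfsg.Agent.Lib.Helper3.BlkMat
open Cfsg.Agent.Lib.Helper3.BlkOsima Cfsg.Agent.Lib.Helper3.BlkOrth
open Cfsg.Agent.Lib.Helper3.BlkOrth2 Cfsg.Agent.Lib.Helper3.BlkOrth4
open Cfsg.Agent.Lib.Helper3.BlkCover Cfsg.Agent.Lib.Helper3.BlkMinMax
open Cfsg.Agent.Lib.Helper3.BlkBrauer Cfsg.Agent.Lib.Helper3.BlkLam
open Cfsg.Agent.Lib.Helper3.BlkBr Cfsg.Agent.Lib.Helper3.BlkFirst Cfsg.Agent.Lib.Helper3.BlkClif
open Cfsg.Agent.Lib.Helper3.CharInd Cfsg.Agent.Lib.Helper3.CharArith Cfsg.Agent.Lib.Helper3.CharNormal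
open scoped ComplexConjugate

universe u

namespace Cfsg.Agent.Lib.Helper3.BlkClif2

theorem ginv_sum {G : Type u} [Group G] (N : Subgroup G) [Fintype N] [hN : N.Normal]
    (f F : N → ℂ)
    (hf : ∀ (x : G) (n : N), f ⟨x * n * x⁻¹, hN.conj_mem n n.2 x⟩ = f n)
    (C : ConjClasses G) (r : N) (hr : ConjClasses.mk (r : G) = C) [DecidableEq (ConjClasses G)]
    [DecidablePred (fun n : N => IsConj (r : G) (n : G))] :
    ∑ n ∈ Finset.univ.filter (fun n : N => ConjClasses.mk (n : G) = C), f n * F n =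
      f r * ∑ n : N, (if IsConj (r : G) (n : G) then F n else 0) := by
  rw [Finset.sum_filter, Finset.mul_sum]
  refine Finset.sum_congr rfl (fun n _ => ?_)
  have h1 : ConjClasses.mk (n : G) = C ↔ IsConj (r : G) (n : G) := by
    rw [← hr, ConjClasses.mk_eq_mk_iff_isConj]
    exact ⟨fun h => h.symm, fun h => h.symm⟩
  by_cases hc : IsConj (r : G) (n : G)
  · rw [if_pos (h1.mpr hc), if_pos hc]
    obtain ⟨c, hc'⟩ := isConj_iff.mp hc
    have h2 : n = ⟨c * r * c⁻¹, hN.conj_mem r r.2 c⟩ := Subtype.ext hc'.symm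
    have h3 : f n = f r := by
      rw [h2]
      exact hf c r
    rw [h3]
  · rw [if_neg (fun h => hc (h1.mp h)), if_neg hc, mul_zero]

theorem exists_cj_sameBlock {M : Ideal AlgInt} (hMp : M.IsPrime) {G : Type u} [Group G]
    [Fintype G] (N : Subgroup G) [hN : N.Normal] [Fintype N] (ψ θ : Cfsg.IrrCharacter N)
    (h : ∀ n : N, MemLocalIdeal M (Cfsg.inducedCentralChar N (ψ : N → ℂ) (n : G) -
      Cfsg.inducedCentralChar N (θ : N → ℂ) (n : G))) :
    ∃ g : G, Cfsg.SameBlock M (cj N hN (ψ : N → ℂ) g) (θ : N → ℂ) := by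
  classical
  have _fi : Fintype (Cfsg.IrrCharacter N) := Fintype.ofFinite _
  have _fc : Fintype (ConjClasses G) := Fintype.ofFinite _
  by_contra hcon
  obtain ⟨A, hA⟩ : ∃ A : Set (Cfsg.IrrCharacter N), A = {η : Cfsg.IrrCharacter N |
      ∃ g : G, Cfsg.SameBlock M (cj N hN (η : N → ℂ) g) (θ : N → ℂ)} := ⟨_, rfl⟩
  have hAclosed : ∀ χ ∈ A, ∀ η : Cfsg.IrrCharacter N,
      Cfsg.SameBlock M (χ : N → ℂ) (η : N → ℂ) → η ∈ A := by
    intro χ hχ η hsb
    rw [hA] at hχ ⊢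
    obtain ⟨g, hg⟩ := hχ
    exact ⟨g, sb_trans hMp (sb_cj N hN η χ g (sb_symm hsb)) hg⟩
  have hAinv : ∀ (x : G) (η : Cfsg.IrrCharacter N), cjI N hN x η ∈ A ↔ η ∈ A := by
    intro x η
    rw [hA]
    constructor
    · rintro ⟨g, hg⟩
      refine ⟨x * g, ?_⟩
      rw [cjI_val, cj_mul] at hg
      exact hg
    · rintro ⟨g, hg⟩
      refine ⟨x⁻¹ * g, ?_⟩
      rw [cjI_val, cj_mul, mul_inv_cancel_left]
      exact hg
  obtain ⟨u, hu⟩ : ∃ u : Cfsg.IrrCharacter N → ℂ,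
      u = fun η : Cfsg.IrrCharacter N => if η ∈ A then (1 : ℂ) else 0 := ⟨_, rfl⟩
  have huZ : u ∈ Zring M hMp N := by
    rw [hu]
    exact union_mem hMp A hAclosed
  have hθA : θ ∈ A := by
    rw [hA]
    exact ⟨1, by rw [cj_one]; exact sb_refl hMp _⟩
  have hψA : ψ ∉ A := by
    rw [hA]
    exact hcon
  have huθ : u θ = 1 := by
    rw [hu]
    exact if_pos hθA
  have huψ : u ψ = 0 := by
    rw [hu]
    exact if_neg hψA
  have hfinv : ∀ (x : G) (n : N), cfOf u ⟨x * n * x⁻¹, hN.conj_mem n n.2 x⟩ = cfOf u n := by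
    intro x n
    unfold cfOf
    congr 1
    rw [← Equiv.sum_comp (cjEquiv N hN x) (fun η : Cfsg.IrrCharacter N =>
      u η * ((η : N → ℂ) 1 * conj ((η : N → ℂ) n)))]
    refine Finset.sum_congr rfl (fun η _ => ?_)
    rw [cjEquiv_apply]
    have h1 : u (cjI N hN x η) = u η := by
      rw [hu]
      by_cases hη : η ∈ A
      · exact (if_pos ((hAinv x η).mpr hη)).trans (if_pos hη).symm
      · exact (if_neg (fun h => hη ((hAinv x η).mp h))).trans (if_neg hη).symm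
    have h2 : ((cjI N hN x η : Cfsg.IrrCharacter N) : N → ℂ) 1 = (η : N → ℂ) 1 :=
      congrArg (η : N → ℂ) (Subtype.ext (by simp))
    have h3 : ((cjI N hN x η : Cfsg.IrrCharacter N) : N → ℂ) n =
        (η : N → ℂ) ⟨x * n * x⁻¹, hN.conj_mem n n.2 x⟩ := rfl
    rw [h1, h2, h3]
  have hkey : MemLocalIdeal M (u ψ - u θ) := by
    rw [← U_cfOf u ψ, ← U_cfOf u θ]
    have e : (∑ g : N, cfOf u g * (ψ : N → ℂ) g) / (ψ : N → ℂ) 1 -
        (∑ g : N, cfOf u g * (θ : N → ℂ) g) / (θ : N → ℂ) 1 =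
        ∑ n : N, cfOf u n * ((ψ : N → ℂ) n / (ψ : N → ℂ) 1 - (θ : N → ℂ) n / (θ : N → ℂ) 1) := by
      rw [Finset.sum_div, Finset.sum_div, ← Finset.sum_sub_distrib]
      refine Finset.sum_congr rfl (fun n _ => ?_)
      ring
    rw [e, ← Finset.sum_fiberwise (Finset.univ : Finset N) (fun n : N => ConjClasses.mk (n : G))
      (fun n : N => cfOf u n *
        ((ψ : N → ℂ) n / (ψ : N → ℂ) 1 - (θ : N → ℂ) n / (θ : N → ℂ) 1))]
    apply li_sum hMp
    intro C _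
    by_cases hex : ∃ r : N, ConjClasses.mk (r : G) = C
    · obtain ⟨r, hr⟩ := hex
      rw [ginv_sum N (cfOf u) _ hfinv C r hr]
      apply li_mul_left hMp (cfOf_lr hMp huZ r)
      have h1 := h r
      have hind : ∀ η : Cfsg.IrrCharacter N, Cfsg.inducedCentralChar N (η : N → ℂ) (r : G) =
          ∑ h : N, (if IsConj (r : G) (h : G) then (η : N → ℂ) h / (η : N → ℂ) 1 else 0) := by
        intro η
        unfold Cfsg.inducedCentralChar
        rw [finsum_mem_ite]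
        refine Finset.sum_congr rfl (fun h _ => ?_)
        by_cases hc : IsConj (r : G) (h : G)
        · rw [if_pos hc, if_pos (by exact hc)]
        · rw [if_neg hc, if_neg (by exact hc)]
      rw [hind, hind, ← Finset.sum_sub_distrib] at h1
      convert h1 using 1
      refine Finset.sum_congr rfl (fun n _ => ?_)
      split_ifs <;> simp
    · rw [Finset.sum_eq_zero]
      · exact li_zero hMp
      · intro n hn
        exact absurd ⟨n, (Finset.mem_filter.mp hn).2⟩ hex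
  rw [huθ, huψ, zero_sub] at hkey
  have h2 := li_neg hkey
  rw [neg_neg] at h2
  exact not_li_one hMp h2

end Cfsg.Agent.Lib.Helper3.BlkClif2
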