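import Mathlib
import Cfsg.Prelude.Def_Characters
import Cfsg.Agent.Lib.Helper3.Char
import Cfsg.Agent.Lib.Helper3.CharCore
import Cfsg.Agent.Lib.Helper3.CharInd
import Cfsg.Agent.Lib.Helper3.CharTrans
import Cfsg.Agent.S0190

open Cfsg
open Cfsg.Agent.Lib.Helper3.Char Cfsg.Agent.Lib.Helper3.CharCore Cfsg.Agent.Lib.Helper3.CharInd
open Cfsg.Agent.Lib.Helper3.CharTrans
open scoped ComplexConjugate

namespace Cfsg.Agent.Lib.Helper3.CharPermInd

theorem extendByZero_mul {G : Type*} [Group G] (H : Subgroup G) (φ : H → ℂ) (ψ : G → ℂ)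
    (y : G) : Cfsg.extendByZero H φ y * ψ y = Cfsg.extendByZero H (fun h : H => φ h * ψ h) y := by
  by_cases hy : y ∈ H
  · rw [extendByZero_mem H φ hy, extendByZero_mem H _ hy]
  · rw [extendByZero_not_mem H φ hy, extendByZero_not_mem H _ hy, zero_mul]

theorem ind_mul {G : Type*} [Group G] [Fintype G] (H : Subgroup G) (φ : H → ℂ) (ψ : G → ℂ)
    (hψ : Cfsg.IsClassFunction G ψ) :
    Cfsg.indFun H φ * ψ = Cfsg.indFun H (fun h : H => φ h * ψ h) := by
  funext g
  show Cfsg.indFun H φ g * ψ g = _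
  unfold Cfsg.indFun
  rw [mul_assoc, Finset.sum_mul]
  congr 1
  apply Finset.sum_congr rfl
  intro x _
  have h1 : ψ g = ψ (x⁻¹ * g * x) := by
    have h2 := hψ g x⁻¹
    rw [inv_inv] at h2
    exact h2.symm
  rw [h1, extendByZero_mul]

theorem extendByZero_add {G : Type*} [Group G] (H : Subgroup G) (f g : H → ℂ) (y : G) :
    Cfsg.extendByZero H (f + g) y = Cfsg.extendByZero H f y + Cfsg.extendByZero H g y := by
  by_cases hy : y ∈ H
  · rw [extendByZero_mem H _ hy, extendByZero_mem H _ hy, extendByZero_mem H _ hy]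
    rfl
  · rw [extendByZero_not_mem H _ hy, extendByZero_not_mem H _ hy, extendByZero_not_mem H _ hy,
      add_zero]

theorem extendByZero_smul {G : Type*} [Group G] (H : Subgroup G) (c : ℂ) (f : H → ℂ) (y : G) :
    Cfsg.extendByZero H (c • f) y = c * Cfsg.extendByZero H f y := by
  by_cases hy : y ∈ H
  · rw [extendByZero_mem H _ hy, extendByZero_mem H _ hy]
    rfl
  · rw [extendByZero_not_mem H _ hy, extendByZero_not_mem H _ hy, mul_zero]

theorem indFun_add {G : Type*} [Group G] [Fintype G] (H : Subgroup G) (f g : H → ℂ) :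
    Cfsg.indFun H (f + g) = Cfsg.indFun H f + Cfsg.indFun H g := by
  funext y
  show Cfsg.indFun H (f + g) y = Cfsg.indFun H f y + Cfsg.indFun H g y
  unfold Cfsg.indFun
  rw [Finset.sum_congr rfl (fun x _ => extendByZero_add H f g (x⁻¹ * y * x)),
    Finset.sum_add_distrib, mul_add]

theorem indFun_smul {G : Type*} [Group G] [Fintype G] (H : Subgroup G) (c : ℂ) (f : H → ℂ) :
    Cfsg.indFun H (c • f) = c • Cfsg.indFun H f := by
  funext y
  show Cfsg.indFun H (c • f) y = c * Cfsg.indFun H f y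
  unfold Cfsg.indFun
  rw [Finset.sum_congr rfl (fun x _ => extendByZero_smul H c f (x⁻¹ * y * x)),
    ← Finset.mul_sum]
  ring

theorem indFun_zero {G : Type*} [Group G] [Fintype G] (H : Subgroup G) :
    Cfsg.indFun H (0 : H → ℂ) = 0 := by
  have h := indFun_smul H 0 (0 : H → ℂ)
  rw [zero_smul, zero_smul] at h
  exact h

theorem indFun_list_sum {G : Type*} [Group G] [Fintype G] (H : Subgroup G)
    (l : List (H → ℂ)) : Cfsg.indFun H l.sum = (l.map (Cfsg.indFun H)).sum := by
  induction l with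
  | nil => exact indFun_zero H
  | cons a t ih => rw [List.sum_cons, List.map_cons, List.sum_cons, indFun_add, ih]

theorem indFun_finset_sum {G : Type*} [Group G] [Fintype G] (H : Subgroup G) {ι : Type*}
    (s : Finset ι) (f : ι → H → ℂ) :
    Cfsg.indFun H (∑ i ∈ s, f i) = ∑ i ∈ s, Cfsg.indFun H (f i) := by
  classical
  induction s using Finset.induction_on with
  | empty => simpa using indFun_zero H
  | insert a s ha ih => rw [Finset.sum_insert ha, Finset.sum_insert ha, indFun_add, ih]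

theorem ind_one_congr {Q : Type*} [Group Q] [Fintype Q] (U V : Subgroup Q) (h : U = V) :
    Cfsg.indFun U (fun _ => 1) = Cfsg.indFun V (fun _ => 1) := by
  subst h
  rfl

theorem ind_one_eq_fixed {G : Type*} [Group G] [Fintype G] (K : Subgroup G) :
    Cfsg.indFun K (fun _ => 1) = fun g : G => (Nat.card (MulAction.fixedBy (G ⧸ K) g) : ℂ) := by
  have h := Cfsg.Agent.S0190.result (G := G) (G ⧸ K) ((1 : G) : G ⧸ K)
  rw [ind_one_congr _ _ (MulAction.stabilizer_quotient K)] at h
  exact h.symm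

theorem perm_decomp {H : Type*} [Group H] [Fintype H] (X : Type*) [MulAction H X] [Finite X] :
    ∃ l : List (Subgroup H), (fun h : H => (Nat.card (MulAction.fixedBy X h) : ℂ)) =
      (l.map fun U => Cfsg.indFun U (fun _ => (1 : ℂ))).sum := by
  classical
  have _o : Fintype (MulAction.orbitRel.Quotient H X) := Fintype.ofFinite _
  have hex : ∀ ω : MulAction.orbitRel.Quotient H X, ∃ U : Subgroup H,
      (fun h : H => (Nat.card (MulAction.fixedBy ω.orbit h) : ℂ)) =
        Cfsg.indFun U (fun _ => 1) := by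
    intro ω
    obtain ⟨x, hx⟩ := MulAction.orbitRel.Quotient.nonempty_orbit ω
    exact ⟨MulAction.stabilizer H (⟨x, hx⟩ : ω.orbit),
      Cfsg.Agent.S0190.result ω.orbit ⟨x, hx⟩⟩
  choose U hU using hex
  refine ⟨(Finset.univ : Finset (MulAction.orbitRel.Quotient H X)).toList.map U, ?_⟩
  rw [List.map_map, Finset.sum_map_toList]
  funext h
  rw [Finset.sum_apply]
  have h2 : ∀ ω : MulAction.orbitRel.Quotient H X,
      ((fun U => Cfsg.indFun U (fun _ => (1 : ℂ))) ∘ U) ω h =
        (Nat.card (MulAction.fixedBy ω.orbit h) : ℂ) := fun ω => (congrFun (hU ω) h).symm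
  rw [Finset.sum_congr rfl (fun ω _ => h2 ω), ← Nat.cast_sum]
  congr 1
  rw [← Nat.card_sigma]
  apply Nat.card_congr
  refine Equiv.ofBijective (fun x => ⟨Quotient.mk'' x.1,
    ⟨⟨x.1, MulAction.orbitRel.Quotient.mem_orbit.mpr rfl⟩, Subtype.ext x.2⟩⟩) ⟨?_, ?_⟩
  · intro x y hxy
    apply Subtype.ext
    have h3 := congrArg (fun s : (Σ ω : MulAction.orbitRel.Quotient H X,
      MulAction.fixedBy ω.orbit h) => ((s.2 : s.1.orbit) : X)) hxy
    exact h3
  · rintro ⟨ω, ⟨⟨x, hx⟩, hfix⟩⟩
    have h4 := MulAction.orbitRel.Quotient.mem_orbit.mp hx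
    subst h4
    exact ⟨⟨x, congrArg Subtype.val hfix⟩, rfl⟩

theorem prod_perm {G : Type*} [Group G] [Fintype G] (H K : Subgroup G) :
    ∃ l : List (Subgroup G), (∀ U ∈ l, U ≤ H) ∧
      Cfsg.indFun H (fun _ => 1) * Cfsg.indFun K (fun _ => 1) =
        (l.map fun U => Cfsg.indFun U (fun _ => (1 : ℂ))).sum := by
  classical
  have _h : Fintype H := Fintype.ofFinite _
  have hcf : Cfsg.IsClassFunction G (Cfsg.indFun K (fun _ => 1)) := indFun_classFun K _
  rw [ind_mul H _ _ hcf]
  obtain ⟨l, hl⟩ := perm_decomp (H := H) (G ⧸ K)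
  have h1 : (fun h : H => (1 : ℂ) * Cfsg.indFun K (fun _ => 1) h) =
      (l.map fun U => Cfsg.indFun U (fun _ => (1 : ℂ))).sum := by
    rw [← hl, ind_one_eq_fixed K]
    funext h
    rw [one_mul]
    rfl
  rw [h1, indFun_list_sum, List.map_map]
  refine ⟨l.map (fun U => U.map H.subtype), ?_, ?_⟩
  · intro U hU
    obtain ⟨U', -, rfl⟩ := List.mem_map.mp hU
    rintro _ ⟨u, -, rfl⟩
    exact u.2
  · rw [List.map_map]
    congr 1
    apply List.map_congr_left
    intro U _
    show Cfsg.indFun H (Cfsg.indFun U (fun _ => (1 : ℂ))) = Cfsg.indFun (U.map H.subtype) (fun _ => 1)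
    rw [ind_trans]
    rfl

end Cfsg.Agent.Lib.Helper3.CharPermInd
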