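import Mathlib
import Cfsg.Prelude.Def_Characters
import Cfsg.Agent.Lib.Helper3.Char
import Cfsg.Agent.Lib.Helper3.CharCore
import Cfsg.Agent.Lib.Helper3.CharInd
import Cfsg.Agent.Lib.Helper3.CharTrans
import Cfsg.Agent.Lib.Helper3.CharPermInd

open Cfsg
open Cfsg.Agent.Lib.Helper3.Char Cfsg.Agent.Lib.Helper3.CharCore Cfsg.Agent.Lib.Helper3.CharInd
open Cfsg.Agent.Lib.Helper3.CharTrans Cfsg.Agent.Lib.Helper3.CharPermInd
open scoped ComplexConjugate

namespace Cfsg.Agent.Lib.Helper3.CharBrauer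

def QE (p : ℕ) {G : Type*} [Group G] (H : Subgroup G) : Prop :=
  ∃ C : Subgroup G, C ≤ H ∧ H ≤ Subgroup.normalizer (C : Set G) ∧ IsCyclic C ∧
    Nat.Coprime (Nat.card C) p ∧ ∃ k : ℕ, C.relIndex H = p ^ k

theorem QE_sub {p : ℕ} (hp : p.Prime) {G : Type*} [Group G] [Finite G] {H U : Subgroup G}
    (hH : QE p H) (hU : U ≤ H) : QE p U := by
  obtain ⟨C, hCH, hHN, hcyc, hcop, k, hk⟩ := hH
  refine ⟨C ⊓ U, inf_le_right, ?_, ?_, ?_, ?_⟩
  · intro u hu
    have hn := hHN (hU hu)
    rw [Subgroup.mem_normalizer_iff] at hn ⊢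
    intro h
    rw [Subgroup.mem_inf, Subgroup.mem_inf, ← hn h]
    constructor
    · rintro ⟨h1, h2⟩
      exact ⟨h1, mul_mem (mul_mem hu h2) (inv_mem hu)⟩
    · rintro ⟨h1, h2⟩
      refine ⟨h1, ?_⟩
      have h3 := mul_mem (mul_mem (inv_mem hu) h2) hu
      have e : u⁻¹ * (u * h * u⁻¹) * u = h := by group
      rw [e] at h3
      exact h3
  · have h1 : IsCyclic ((C ⊓ U).subgroupOf C) := inferInstance
    exact isCyclic_of_surjective (Subgroup.subgroupOfEquivOfLe (inf_le_left : C ⊓ U ≤ C)).toMonoidHom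
      (Subgroup.subgroupOfEquivOfLe (inf_le_left : C ⊓ U ≤ C)).surjective
  · exact Nat.Coprime.coprime_dvd_left (Subgroup.card_dvd_of_le inf_le_left) hcop
  · have hn : (C.subgroupOf H).Normal :=
      (Subgroup.normal_subgroupOf_iff_le_normalizer hCH).mpr hHN
    have h1 : (C.subgroupOf H).relIndex (U.subgroupOf H) ∣ (C.subgroupOf H).index :=
      Subgroup.relIndex_dvd_index_of_normal _ _
    rw [Subgroup.relIndex_subgroupOf hU] at h1
    have h2 : (C.subgroupOf H).index = p ^ k := hk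
    rw [h2] at h1
    obtain ⟨j, -, hj⟩ := (Nat.dvd_prime_pow hp).mp h1
    exact ⟨j, by rw [Subgroup.inf_relIndex_right, hj]⟩

def InR (p : ℕ) {G : Type*} [Group G] [Fintype G] (f : G → ℂ) : Prop :=
  ∃ l : List (Subgroup G × ℤ), (∀ t ∈ l, QE p t.1) ∧
    f = (l.map fun t => (t.2 : ℂ) • Cfsg.indFun t.1 (fun _ => (1 : ℂ))).sum

theorem InR_zero (p : ℕ) {G : Type*} [Group G] [Fintype G] : InR p (0 : G → ℂ) :=
  ⟨[], fun _ h => absurd h List.not_mem_nil, rfl⟩

theorem InR_add {p : ℕ} {G : Type*} [Group G] [Fintype G] {f g : G → ℂ} (hf : InR p f)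
    (hg : InR p g) : InR p (f + g) := by
  obtain ⟨l₁, h1, rfl⟩ := hf
  obtain ⟨l₂, h2, rfl⟩ := hg
  refine ⟨l₁ ++ l₂, ?_, ?_⟩
  · intro t ht
    rcases List.mem_append.mp ht with h | h
    · exact h1 t h
    · exact h2 t h
  · rw [List.map_append, List.sum_append]

theorem InR_zsmul {p : ℕ} {G : Type*} [Group G] [Fintype G] {f : G → ℂ} (c : ℤ)
    (hf : InR p f) : InR p ((c : ℂ) • f) := by
  obtain ⟨l, h1, rfl⟩ := hf
  refine ⟨l.map (fun t => (t.1, c * t.2)), ?_, ?_⟩
  · intro t ht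
    obtain ⟨s, hs, rfl⟩ := List.mem_map.mp ht
    exact h1 s hs
  · rw [List.map_map]
    clear h1
    induction l with
    | nil => simp
    | cons a t ih =>
      rw [List.map_cons, List.sum_cons, List.map_cons, List.sum_cons, smul_add, ih]
      congr 1
      show (c : ℂ) • ((a.2 : ℂ) • _) = (((c * a.2 : ℤ)) : ℂ) • _
      rw [smul_smul]
      push_cast
      rfl

theorem InR_gen {p : ℕ} {G : Type*} [Group G] [Fintype G] {U : Subgroup G} (hU : QE p U) :
    InR p (Cfsg.indFun U (fun _ => (1 : ℂ))) := by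
  refine ⟨[(U, 1)], ?_, ?_⟩
  · intro t ht
    rw [List.mem_singleton] at ht
    rw [ht]
    exact hU
  · simp

theorem InR_list {p : ℕ} {G : Type*} [Group G] [Fintype G] (l : List (Subgroup G))
    (hl : ∀ U ∈ l, QE p U) :
    InR p (l.map fun U => Cfsg.indFun U (fun _ => (1 : ℂ))).sum := by
  induction l with
  | nil => exact InR_zero p
  | cons a t ih =>
    rw [List.map_cons, List.sum_cons]
    exact InR_add (InR_gen (hl a List.mem_cons_self))
      (ih (fun U hU => hl U (List.mem_cons_of_mem _ hU)))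

theorem InR_mul {p : ℕ} (hp : p.Prime) {G : Type*} [Group G] [Fintype G] {f g : G → ℂ}
    (hf : InR p f) (hg : InR p g) : InR p (f * g) := by
  have hgen : ∀ (U V : Subgroup G), QE p U →
      InR p (Cfsg.indFun U (fun _ => (1 : ℂ)) * Cfsg.indFun V (fun _ => (1 : ℂ))) := by
    intro U V hU
    obtain ⟨l, hl, hprod⟩ := prod_perm U V
    rw [hprod]
    exact InR_list l (fun W hW => QE_sub hp hU (hl W hW))
  have hgen2 : ∀ (U : Subgroup G), QE p U → ∀ g : G → ℂ, InR p g →
      InR p (Cfsg.indFun U (fun _ => (1 : ℂ)) * g) := by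
    intro U hU g hg
    obtain ⟨l, h1, rfl⟩ := hg
    clear h1
    induction l with
    | nil =>
      rw [List.map_nil, List.sum_nil, mul_zero]
      exact InR_zero p
    | cons a t ih =>
      rw [List.map_cons, List.sum_cons, mul_add]
      refine InR_add ?_ ih
      rw [mul_smul_comm]
      exact InR_zsmul _ (hgen U a.1 hU)
  obtain ⟨l, h1, rfl⟩ := hf
  induction l with
  | nil =>
    rw [List.map_nil, List.sum_nil, zero_mul]
    exact InR_zero p
  | cons a t ih =>
    rw [List.map_cons, List.sum_cons, add_mul]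
    refine InR_add ?_ (ih (fun s hs => h1 s (List.mem_cons_of_mem _ hs)))
    rw [smul_mul_assoc]
    exact InR_zsmul _ (hgen2 a.1 (h1 a List.mem_cons_self) g hg)

theorem InR_coeff {p : ℕ} {G : Type*} [Group G] [Fintype G] [Fintype (Subgroup G)]
    {f : G → ℂ} (hf : InR p f) :
    ∃ a : Subgroup G → ℤ, (∀ H, a H ≠ 0 → QE p H) ∧
      f = ∑ H : Subgroup G, (a H : ℂ) • Cfsg.indFun H (fun _ => (1 : ℂ)) := by
  classical
  obtain ⟨l, h1, rfl⟩ := hf
  induction l with
  | nil =>
    refine ⟨fun _ => 0, fun H h => absurd rfl h, ?_⟩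
    simp
  | cons t l ih =>
    obtain ⟨a, ha1, ha2⟩ := ih (fun s hs => h1 s (List.mem_cons_of_mem _ hs))
    refine ⟨fun H => a H + if H = t.1 then t.2 else 0, ?_, ?_⟩
    · intro H hH
      by_cases hHt : H = t.1
      · rw [hHt]
        exact h1 t List.mem_cons_self
      · apply ha1
        intro h0
        apply hH
        simp only [h0, if_neg hHt, add_zero]
    · rw [List.map_cons, List.sum_cons, ha2, add_comm]
      have h3 : ∀ H : Subgroup G, (((a H + if H = t.1 then t.2 else 0 : ℤ)) : ℂ) •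
          Cfsg.indFun H (fun _ => (1 : ℂ)) =
          (a H : ℂ) • Cfsg.indFun H (fun _ => (1 : ℂ)) +
            (if H = t.1 then (t.2 : ℂ) • Cfsg.indFun t.1 (fun _ => (1 : ℂ)) else 0) := by
        intro H
        by_cases hHt : H = t.1
        · simp only [if_pos hHt]
          push_cast
          rw [add_smul, hHt]
        · simp only [if_neg hHt]
          simp
      rw [Finset.sum_congr rfl (fun H _ => h3 H), Finset.sum_add_distrib,
        Finset.sum_ite_eq' Finset.univ t.1, if_pos (Finset.mem_univ _)]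

theorem solomon_local {p : ℕ} (hp : p.Prime) {G : Type*} [Group G] [Fintype G]
    (hex : ∀ x : G, ∃ H : Subgroup G, QE p H ∧ ∃ n : ℕ,
      Cfsg.indFun H (fun _ => 1) x = (n : ℂ) ∧ ¬ p ∣ n) :
    ∃ m : ℤ, ¬ (p : ℤ) ∣ m ∧ InR p (fun _ : G => (m : ℂ)) := by
  classical
  have hP : ∀ S : Finset G, ∃ (m : ℤ) (f : G → ℂ), InR p f ∧ ¬ (p : ℤ) ∣ m ∧
      ∀ x ∈ S, f x = (m : ℂ) := by
    intro S
    induction S using Finset.induction_on with
    | empty =>
      refine ⟨1, 0, InR_zero p, ?_, fun x hx => absurd hx (Finset.notMem_empty x)⟩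
      intro h
      have h1 := Int.natAbs_dvd_natAbs.mpr h
      simp only [Int.natAbs_natCast, Int.natAbs_one, Nat.dvd_one] at h1
      exact hp.ne_one h1
    | insert y S hy ih =>
      obtain ⟨m, f, hf, hm, hfS⟩ := ih
      obtain ⟨H, hH, n, hn, hpn⟩ := hex y
      have hg := InR_gen hH
      refine ⟨-(m * n), f * Cfsg.indFun H (fun _ => (1 : ℂ)) + (((-(n : ℤ)) : ℤ) : ℂ) • f +
        (((-m : ℤ)) : ℂ) • Cfsg.indFun H (fun _ => (1 : ℂ)),
        InR_add (InR_add (InR_mul hp hf hg) (InR_zsmul _ hf)) (InR_zsmul _ hg), ?_, ?_⟩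
      · intro h
        rw [dvd_neg] at h
        rcases (Int.prime_iff_natAbs_prime.mpr (by simpa using hp)).dvd_or_dvd h with h1 | h1
        · exact hm h1
        · exact hpn (Int.natCast_dvd_natCast.mp h1)
      · intro x hx
        simp only [Pi.add_apply, Pi.mul_apply, Pi.smul_apply, smul_eq_mul]
        rcases Finset.mem_insert.mp hx with rfl | hxS
        · rw [hn]
          push_cast
          ring
        · rw [hfS x hxS]
          push_cast
          ring
  obtain ⟨m, f, hf, hm, hfS⟩ := hP Finset.univ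
  refine ⟨m, hm, ?_⟩
  have h1 : (fun _ : G => (m : ℂ)) = f := by
    funext x
    exact (hfS x (Finset.mem_univ x)).symm
  rw [h1]
  exact hf

end Cfsg.Agent.Lib.Helper3.CharBrauer
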