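import Mathlib
import Cfsg.Prelude.Def_Characters
import Cfsg.Agent.Lib.Helper3.Char
import Cfsg.Agent.Lib.Helper3.CharArith
import Cfsg.Agent.Lib.Helper3.CharLinear

set_option autoImplicit false

namespace Cfsg.Agent.Lib.Helper3.CharLin

open Cfsg.Agent.Lib.Helper3.Char Cfsg.Agent.Lib.Helper3.CharArith
  Cfsg.Agent.Lib.Helper3.CharLinear

universe v

theorem transfer_normal {G : Type*} [Group G] [Finite G] (N H : Subgroup G) [hN : N.Normal]
    (hNH : N ≤ H) (ν : H →* ℂˣ)
    (hinv : ∀ (g n : G) (h1 : n ∈ H) (h2 : g⁻¹ * n * g ∈ H), n ∈ N →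
      ν ⟨g⁻¹ * n * g, h2⟩ = ν ⟨n, h1⟩) (n : G) (hn : n ∈ N) :
    MonoidHom.transfer ν n = (ν ⟨n, hNH hn⟩) ^ H.index := by
  classical
  let T : H.LeftTransversal := default
  have key : ∀ (x : G) (hx : x ∈ H) (t : G), x = t⁻¹ * n * t → ν ⟨x, hx⟩ = ν ⟨n, hNH hn⟩ := by
    intro x hx t hxt
    subst hxt
    exact hinv t n (hNH hn) hx hn
  rw [MonoidHom.transfer_def ν T n]
  dsimp only [Subgroup.leftTransversals.diff]
  refine (Finset.prod_congr rfl (g := fun _ => ν ⟨n, hNH hn⟩) (fun q _ => ?_)).trans ?_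
  · have hq : n⁻¹ • q = q := by
      induction q using QuotientGroup.induction_on with
      | H x =>
        show ((n⁻¹ * x : G) : G ⧸ H) = (x : G ⧸ H)
        rw [QuotientGroup.eq]
        have h1 : (n⁻¹ * x)⁻¹ * x = x⁻¹ * n * x := by group
        rw [h1]
        have h2 := hN.conj_mem n hn x⁻¹
        rw [inv_inv] at h2
        exact hNH h2
    have hβ : ((n • T).2.leftQuotientEquiv q : G) = n * (T.2.leftQuotientEquiv q : G) := by
      rw [Subgroup.smul_apply_eq_smul_apply_inv_smul, hq, smul_eq_mul]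
    exact key _ _ (T.2.leftQuotientEquiv q : G) (by rw [hβ, mul_assoc])
  · letI := H.fintypeQuotientOfFiniteIndex
    rw [Finset.prod_const, Finset.card_univ, ← Nat.card_eq_fintype_card, ← Subgroup.index_eq_card]

theorem one_mem_of_coprime (S : AddSubgroup ℤ) :
    ∀ o : ℕ, 0 < o → (o : ℤ) ∈ S →
      (∀ p : ℕ, p.Prime → p ∣ o → ∃ m : ℕ, (m : ℤ) ∈ S ∧ Nat.Coprime m p) → (1 : ℤ) ∈ S := by
  intro o
  induction o using Nat.strong_induction_on with
  | _ o ih =>
    intro ho hoS h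
    by_cases ho1 : o = 1
    · subst ho1
      exact_mod_cast hoS
    · obtain ⟨p, hp, hpo⟩ := Nat.exists_prime_and_dvd ho1
      obtain ⟨m, hmS, hmp⟩ := h p hp hpo
      have hg : ((Nat.gcd o m : ℕ) : ℤ) ∈ S := by
        rw [Nat.gcd_eq_gcd_ab]
        apply S.add_mem
        · have := S.zsmul_mem hoS (Nat.gcdA o m)
          rw [smul_eq_mul, mul_comm] at this
          exact this
        · have := S.zsmul_mem hmS (Nat.gcdB o m)
          rw [smul_eq_mul, mul_comm] at this
          exact this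
      have hgpos : 0 < Nat.gcd o m := Nat.gcd_pos_of_pos_left m ho
      have hgdvd : Nat.gcd o m ∣ o := Nat.gcd_dvd_left o m
      have hglt : Nat.gcd o m < o := by
        apply lt_of_le_of_ne (Nat.le_of_dvd ho hgdvd)
        intro heq
        have h1 : o ∣ m := by
          rw [← heq]
          exact Nat.gcd_dvd_right o m
        have h2 : p ∣ m := dvd_trans hpo h1
        have h3 : p ∣ Nat.gcd m p := Nat.dvd_gcd h2 (dvd_refl p)
        rw [hmp] at h3
        exact hp.one_lt.ne' (Nat.dvd_one.mp h3)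
      exact ih (Nat.gcd o m) hglt hgpos hg (fun q hq hqg => h q hq (dvd_trans hqg hgdvd))

def funOf (G : Type v) [Group G] : (G →* ℂˣ) →* (G → ℂ) :=
  ((Units.coeHom ℂ).compLeft G).comp (MonoidHom.coeFn G ℂˣ)

theorem funOf_apply {G : Type v} [Group G] (μ : G →* ℂˣ) :
    funOf G μ = fun g => (μ g : ℂ) := rfl

theorem funOf_injective (G : Type v) [Group G] : Function.Injective (funOf G) := by
  intro a b hab
  ext g
  exact congrFun hab g

theorem orderOf_funOf {G : Type v} [Group G] (μ : G →* ℂˣ) :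
    orderOf (fun g => (μ g : ℂ)) = orderOf μ :=
  orderOf_injective (funOf G) (funOf_injective G) μ

theorem char_of_hom {G : Type v} [Group G] [Finite G] (μ : G →* ℂˣ) :
    Cfsg.IsCharacter G (fun g => (μ g : ℂ)) ∧ (fun g => (μ g : ℂ)) 1 = 1 := by
  have _i : Fintype G := Fintype.ofFinite G
  refine ⟨isCharacter_of_irr (isIrr_of_hom μ), ?_⟩
  show ((μ 1 : ℂˣ) : ℂ) = 1
  rw [map_one, Units.val_one]

theorem pow_index_trivial {G : Type v} [Group G] (N : Subgroup G) [hN : N.Normal]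
    (M : G →* ℂˣ) (hM : ∀ n ∈ N, M n = 1) : M ^ N.index = 1 := by
  ext g
  rw [MonoidHom.pow_apply, ← map_pow, hM _ (N.pow_index_mem g)]
  rfl

end Cfsg.Agent.Lib.Helper3.CharLin
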