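import Mathlib
import Cfsg.Prelude.Def_Characters
import Cfsg.Agent.Lib.Helper3.Char
import Cfsg.Agent.Lib.Helper3.CharCore
import Cfsg.Agent.Lib.Helper3.CharInd
import Cfsg.Agent.Lib.Helper3.CharArith
import Cfsg.Agent.Lib.Helper3.CharAb
import Cfsg.Agent.Lib.Helper3.CharStab
import Cfsg.Agent.Lib.Helper3.CharProj
import Cfsg.Agent.Lib.Helper3.CharCliff
import Cfsg.Agent.Lib.Helper3.CharLinear
import Cfsg.Agent.Lib.Helper3.CharTrans
import Cfsg.Agent.Lib.Helper3.CharMono
import Cfsg.Agent.Lib.Helper3.CharPermInd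
import Cfsg.Agent.Lib.Helper3.CharBrauer
import Cfsg.Agent.S0148
import Cfsg.Agent.S0873

open Cfsg
open Cfsg.Agent.Lib.Helper3.Char Cfsg.Agent.Lib.Helper3.CharCore Cfsg.Agent.Lib.Helper3.CharInd
open Cfsg.Agent.Lib.Helper3.CharArith Cfsg.Agent.Lib.Helper3.CharAb
open Cfsg.Agent.Lib.Helper3.CharStab Cfsg.Agent.Lib.Helper3.CharProj
open Cfsg.Agent.Lib.Helper3.CharCliff Cfsg.Agent.Lib.Helper3.CharLinear
open Cfsg.Agent.Lib.Helper3.CharTrans Cfsg.Agent.Lib.Helper3.CharMono
open Cfsg.Agent.Lib.Helper3.CharPermInd Cfsg.Agent.Lib.Helper3.CharBrauer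
open scoped ComplexConjugate

universe u

namespace Cfsg.Agent.Lib.Helper3.CharBrauer2

theorem elem_equiv {p : ℕ} {A B : Type*} [Group A] [Group B] (e : A ≃* B)
    (h : Cfsg.IsElementary p A) : Cfsg.IsElementary p B := by
  obtain ⟨x, hx, hcop, k, hk⟩ := h
  refine ⟨e x, ?_, ?_, k, ?_⟩
  · rw [Subgroup.mem_center_iff] at hx ⊢
    intro b
    obtain ⟨a, rfl⟩ := e.surjective b
    rw [← map_mul, ← map_mul, hx a]
  · rw [MulEquiv.orderOf_eq]
    exact hcop
  · have h1 : Subgroup.zpowers (e x) = (Subgroup.zpowers x).map (e : A →* B) := by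
      rw [MonoidHom.map_zpowers]
      rfl
    rw [h1, Subgroup.index_map_equiv]
    exact hk

def InE (p : ℕ) {G : Type*} [Group G] [Fintype G] (f : G → ℂ) : Prop :=
  ∃ l : List ((E : Subgroup G) × ((E → ℂ) × ℤ)),
    (∀ t ∈ l, Cfsg.IsElementary p t.1 ∧ Cfsg.IsCharacter t.1 t.2.1) ∧
    f = (l.map fun t => (t.2.2 : ℂ) • Cfsg.indFun t.1 t.2.1).sum

theorem InE_zero (p : ℕ) {G : Type*} [Group G] [Fintype G] : InE p (0 : G → ℂ) :=
  ⟨[], fun _ h => absurd h List.not_mem_nil, rfl⟩

theorem InE_add {p : ℕ} {G : Type*} [Group G] [Fintype G] {f g : G → ℂ} (hf : InE p f)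
    (hg : InE p g) : InE p (f + g) := by
  obtain ⟨l₁, h1, rfl⟩ := hf
  obtain ⟨l₂, h2, rfl⟩ := hg
  refine ⟨l₁ ++ l₂, ?_, ?_⟩
  · intro t ht
    rcases List.mem_append.mp ht with h | h
    · exact h1 t h
    · exact h2 t h
  · rw [List.map_append, List.sum_append]

theorem InE_zsmul {p : ℕ} {G : Type*} [Group G] [Fintype G] {f : G → ℂ} (c : ℤ)
    (hf : InE p f) : InE p ((c : ℂ) • f) := by
  obtain ⟨l, h1, rfl⟩ := hf
  refine ⟨l.map (fun t => ⟨t.1, (t.2.1, c * t.2.2)⟩), ?_, ?_⟩
  · intro t ht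
    obtain ⟨s, hs, rfl⟩ := List.mem_map.mp ht
    exact h1 s hs
  · rw [List.map_map]
    clear h1
    induction l with
    | nil => simp
    | cons a t ih =>
      rw [List.map_cons, List.sum_cons, List.map_cons, List.sum_cons, smul_add, ih]
      congr 1
      show (c : ℂ) • ((a.2.2 : ℂ) • _) = (((c * a.2.2 : ℤ)) : ℂ) • _
      rw [smul_smul]
      push_cast
      rfl

theorem InE_gen {p : ℕ} {G : Type*} [Group G] [Fintype G] (E : Subgroup G) (φ : E → ℂ)
    (hE : Cfsg.IsElementary p E) (hφ : Cfsg.IsCharacter E φ) : InE p (Cfsg.indFun E φ) := by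
  refine ⟨[⟨E, (φ, 1)⟩], ?_, ?_⟩
  · intro t ht
    rw [List.mem_singleton] at ht
    rw [ht]
    exact ⟨hE, hφ⟩
  · simp

theorem InE_list_sum {p : ℕ} {G : Type*} [Group G] [Fintype G] (l : List (G → ℂ))
    (hl : ∀ f ∈ l, InE p f) : InE p l.sum := by
  induction l with
  | nil => exact InE_zero p
  | cons a t ih =>
    rw [List.sum_cons]
    exact InE_add (hl a List.mem_cons_self) (ih (fun f hf => hl f (List.mem_cons_of_mem _ hf)))

theorem InE_finset_sum {p : ℕ} {G : Type*} [Group G] [Fintype G] {ι : Type*} (s : Finset ι)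
    (f : ι → G → ℂ) (hf : ∀ i ∈ s, InE p (f i)) : InE p (∑ i ∈ s, f i) := by
  classical
  induction s using Finset.induction_on with
  | empty =>
    rw [Finset.sum_empty]
    exact InE_zero p
  | insert a s ha ih =>
    rw [Finset.sum_insert ha]
    exact InE_add (hf a (Finset.mem_insert_self a s))
      (ih (fun i hi => hf i (Finset.mem_insert_of_mem hi)))

theorem InE_mul_char {p : ℕ} {G : Type*} [Group G] [Fintype G] {f χ : G → ℂ} (hf : InE p f)
    (hχ : Cfsg.IsCharacter G χ) : InE p (f * χ) := by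
  obtain ⟨l, h1, rfl⟩ := hf
  refine ⟨l.map (fun t => ⟨t.1, (fun e : t.1 => t.2.1 e * χ e, t.2.2)⟩), ?_, ?_⟩
  · intro t ht
    obtain ⟨s, hs, rfl⟩ := List.mem_map.mp ht
    have h2 := isCharacter_mul (h1 s hs).2 (comp_isCharacter s.1.subtype hχ)
    exact ⟨(h1 s hs).1, h2⟩
  · rw [List.map_map]
    clear h1
    induction l with
    | nil => simp
    | cons a t ih =>
      rw [List.map_cons, List.sum_cons, List.map_cons, List.sum_cons, add_mul, ih]
      congr 1
      show (a.2.2 : ℂ) • Cfsg.indFun a.1 a.2.1 * χ =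
        (a.2.2 : ℂ) • Cfsg.indFun a.1 (fun e : a.1 => a.2.1 e * χ e)
      rw [smul_mul_assoc, ind_mul a.1 a.2.1 χ (char_classFun hχ)]

theorem InE_ind {p : ℕ} {G : Type*} [Group G] [Fintype G] (T : Subgroup G) [Fintype T]
    {f : T → ℂ} (hf : InE p f) : InE p (Cfsg.indFun T f) := by
  obtain ⟨l, h1, rfl⟩ := hf
  refine ⟨l.map (fun t => ⟨t.1.map T.subtype,
    (t.2.1 ∘ (t.1.equivMapOfInjective T.subtype T.subtype_injective).symm, t.2.2)⟩), ?_, ?_⟩
  · intro t ht
    obtain ⟨s, hs, rfl⟩ := List.mem_map.mp ht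
    exact ⟨elem_equiv (s.1.equivMapOfInjective T.subtype T.subtype_injective) (h1 s hs).1,
      map_char T s.1 (h1 s hs).2⟩
  · rw [List.map_map, indFun_list_sum, List.map_map]
    congr 1
    apply List.map_congr_left
    intro t _
    show Cfsg.indFun T ((t.2.2 : ℂ) • Cfsg.indFun t.1 t.2.1) =
      (t.2.2 : ℂ) • Cfsg.indFun (t.1.map T.subtype) (t.2.1 ∘ _)
    rw [indFun_smul, ind_trans]

theorem qe_top_of_sub {p : ℕ} {G : Type*} [Group G] [Finite G] {T : Subgroup G}
    (h : QE p T) : QE p (⊤ : Subgroup T) := by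
  obtain ⟨C, hCT, hTN, hcyc, hcop, k, hk⟩ := h
  refine ⟨C.subgroupOf T, le_top, ?_, ?_, ?_, k, ?_⟩
  · intro t _
    rw [Subgroup.mem_normalizer_iff]
    intro h
    have hn := Subgroup.mem_normalizer_iff.mp (hTN t.2) (h : G)
    rw [Subgroup.mem_subgroupOf, Subgroup.mem_subgroupOf]
    exact hn
  · exact isCyclic_of_surjective (Subgroup.subgroupOfEquivOfLe hCT).symm.toMonoidHom
      (Subgroup.subgroupOfEquivOfLe hCT).symm.surjective
  · rw [Nat.card_congr (Subgroup.subgroupOfEquivOfLe hCT).toEquiv]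
    exact hcop
  · rw [Subgroup.relIndex_top_right]
    exact hk

theorem elem_sup {p : ℕ} [Fact p.Prime] {H : Type*} [Group H] [Finite H] (Z P : Subgroup H)
    (hZcyc : IsCyclic Z) (hZcop : Nat.Coprime (Nat.card Z) p)
    (hcomm : ∀ e ∈ Z ⊔ P, ∀ z ∈ Z, e * z = z * e) (hP : IsPGroup p P) :
    Cfsg.IsElementary p ↥(Z ⊔ P) := by
  classical
  have hZE : Z ≤ Z ⊔ P := le_sup_left
  have hPE : P ≤ Z ⊔ P := le_sup_right
  obtain ⟨g, hg⟩ := hZcyc.exists_generator
  refine ⟨⟨g, hZE g.2⟩, ?_, ?_, ?_⟩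
  · rw [Subgroup.mem_center_iff]
    intro e
    apply Subtype.ext
    exact hcomm e e.2 g g.2
  · have h1 : orderOf (⟨(g : H), hZE g.2⟩ : ↥(Z ⊔ P)) = orderOf g := by
      rw [← Subgroup.orderOf_coe, ← Subgroup.orderOf_coe g]
    rw [h1]
    exact Nat.Coprime.coprime_dvd_left (orderOf_dvd_natCard _) hZcop
  · have hx : Subgroup.zpowers (⟨(g : H), hZE g.2⟩ : ↥(Z ⊔ P)) = Z.subgroupOf (Z ⊔ P) := by
      ext e
      rw [Subgroup.mem_subgroupOf]
      constructor
      · intro he
        obtain ⟨k, rfl⟩ := Subgroup.mem_zpowers_iff.mp he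
        rw [Subgroup.coe_zpow]
        exact Subgroup.zpow_mem Z g.2 k
      · intro he
        obtain ⟨k, hk⟩ := Subgroup.mem_zpowers_iff.mp (hg ⟨e, he⟩)
        rw [Subgroup.mem_zpowers_iff]
        refine ⟨k, ?_⟩
        apply Subtype.ext
        have h2 := congrArg (fun z : Z => (z : H)) hk
        rw [Subgroup.coe_zpow]
        simpa using h2
    rw [hx]
    have hnorm : (Z.subgroupOf (Z ⊔ P)).Normal := by
      constructor
      intro n hn e
      rw [Subgroup.mem_subgroupOf] at hn ⊢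
      have h1 := hcomm e e.2 n hn
      have h2 : ((e * n * e⁻¹ : ↥(Z ⊔ P)) : H) = n := by
        show (e : H) * n * (e : H)⁻¹ = n
        rw [h1, mul_inv_cancel_right]
      rw [h2]
      exact hn
    have htop : P.subgroupOf (Z ⊔ P) ⊔ Z.subgroupOf (Z ⊔ P) = ⊤ := by
      rw [← Subgroup.subgroupOf_sup hPE hZE, sup_comm, Subgroup.subgroupOf_self]
    have h3 : (Z.subgroupOf (Z ⊔ P)).index =
        (Z.subgroupOf (Z ⊔ P)).relIndex (P.subgroupOf (Z ⊔ P)) := by
      rw [← Subgroup.relIndex_top_right, ← htop, Subgroup.relIndex_sup_right]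
    rw [h3]
    have hPp : IsPGroup p (P.subgroupOf (Z ⊔ P)) := hP.comap_subtype
    exact hPp.index _

theorem inner_list_count {G : Type*} [Group G] [Fintype G] [DecidableEq (G → ℂ)] {θ : G → ℂ}
    (hθ : Cfsg.IsIrrCharacter G θ) (l : List (G → ℂ))
    (hl : ∀ ψ ∈ l, Cfsg.IsIrrCharacter G ψ) :
    Cfsg.classInner θ l.sum = (l.count θ : ℂ) := by
  induction l with
  | nil => rw [List.sum_nil, classInner_zero_right]; simp
  | cons a l ih =>
    rw [List.sum_cons, classInner_add_right, ih (fun ψ hψ => hl ψ (List.mem_cons_of_mem _ hψ)),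
      irr_orthonormal hθ (hl a List.mem_cons_self)]
    by_cases h : θ = a
    · subst h
      rw [if_pos rfl, List.count_cons_self]
      push_cast
      ring
    · rw [if_neg h, List.count_cons_of_ne (fun h' => h h'.symm), zero_add]

theorem list_partition {G : Type*} [DecidableEq (G → ℂ)] (one : G → ℂ) (l : List (G → ℂ)) :
    ∃ l' : List (G → ℂ), (∀ ξ ∈ l', ξ ∈ l ∧ ξ ≠ one) ∧
      l.sum = (l.count one : ℂ) • one + l'.sum := by
  induction l with
  | nil => exact ⟨[], fun _ h => absurd h List.not_mem_nil, by simp⟩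
  | cons a t ih =>
    obtain ⟨l', h1, h2⟩ := ih
    by_cases h : a = one
    · subst h
      refine ⟨l', fun ξ hξ => ⟨List.mem_cons_of_mem _ (h1 ξ hξ).1, (h1 ξ hξ).2⟩, ?_⟩
      rw [List.sum_cons, h2, List.count_cons_self]
      push_cast
      rw [add_smul, one_smul]
      abel
    · refine ⟨a :: l', ?_, ?_⟩
      · intro ξ hξ
        rcases List.mem_cons.mp hξ with rfl | h'
        · exact ⟨List.mem_cons_self, h⟩
        · exact ⟨List.mem_cons_of_mem _ (h1 ξ h').1, (h1 ξ h').2⟩
      · rw [List.sum_cons, h2, List.count_cons_of_ne h, List.sum_cons]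
        abel

theorem qe_constituent {p : ℕ} [Fact p.Prime] {H : Type u} [Group H] [Fintype H]
    (C : Subgroup H) (hCn : C.Normal) (hcyc : IsCyclic C) (hcop : Nat.Coprime (Nat.card C) p)
    (P : Subgroup H) (hP : IsPGroup p P) (hCP : C ⊔ P = ⊤) (ξ : H → ℂ)
    (hξ : Cfsg.IsIrrCharacter H ξ) (hne : ξ ≠ fun _ => 1)
    [Fintype ↥((C ⊓ Subgroup.centralizer (P : Set H)) ⊔ P)]
    (hcon : Cfsg.classInner (fun e : ↥((C ⊓ Subgroup.centralizer (P : Set H)) ⊔ P) => ξ e)
      (fun _ => 1) ≠ 0) :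
    ∃ (T : Subgroup H), T ≠ ⊤ ∧ ∃ η : T → ℂ, Cfsg.IsIrrCharacter T η ∧ Cfsg.indFun T η = ξ := by
  classical
  have hξc := isCharacter_of_irr hξ
  have _c : Fintype C := Fintype.ofFinite _
  have _z : Fintype ↥(C ⊓ Subgroup.centralizer (P : Set H)) := Fintype.ofFinite _
  have hZC : C ⊓ Subgroup.centralizer (P : Set H) ≤ C := inf_le_left
  have hZE : C ⊓ Subgroup.centralizer (P : Set H) ≤
      (C ⊓ Subgroup.centralizer (P : Set H)) ⊔ P := le_sup_left
  have hPE : P ≤ (C ⊓ Subgroup.centralizer (P : Set H)) ⊔ P := le_sup_right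
  have hCcomm : ∀ a b : C, a * b = b * a := by
    obtain ⟨g₀, hg₀⟩ := hcyc.exists_generator
    intro a b
    obtain ⟨i, rfl⟩ := Subgroup.mem_zpowers_iff.mp (hg₀ a)
    obtain ⟨j, rfl⟩ := Subgroup.mem_zpowers_iff.mp (hg₀ b)
    exact (Commute.zpow_zpow_self g₀ i j).eq
  have hone : ∀ (K : Subgroup H), Cfsg.IsCharacter K (fun _ => (1 : ℂ)) := fun K =>
    isCharacter_of_irr (isIrr_one K)
  have hresE : Cfsg.IsCharacter ↥((C ⊓ Subgroup.centralizer (P : Set H)) ⊔ P)
      (fun e => ξ e) := comp_isCharacter (Subgroup.subtype _) hξc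
  have hΔ := sub_isCharacter hresE (isIrr_one _) hcon
  have hΔZ : Cfsg.IsCharacter ↥(C ⊓ Subgroup.centralizer (P : Set H))
      (fun z => ξ z - 1) := comp_isCharacter (Subgroup.inclusion hZE) hΔ
  have hZ1 : Cfsg.classInner (fun z : ↥(C ⊓ Subgroup.centralizer (P : Set H)) => ξ z)
      (fun _ => 1) ≠ 0 := by
    obtain ⟨n, hn⟩ := inner_char_nat hΔZ (hone _)
    have e1 : (fun z : ↥(C ⊓ Subgroup.centralizer (P : Set H)) => ξ z) =
        (fun z : ↥(C ⊓ Subgroup.centralizer (P : Set H)) => ξ z - 1) + (fun _ => 1) := by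
      funext z
      simp
    rw [e1, classInner_add_left, hn, irr_inner_self (isIrr_one _)]
    exact_mod_cast Nat.succ_ne_zero n
  have hresC : Cfsg.IsCharacter C (fun c : C => ξ c) := comp_isCharacter C.subtype hξc
  obtain ⟨l, hl, hsum⟩ := isCharacter_decomp hresC
  have hexμ : ∃ μ ∈ l, Cfsg.classInner
      (fun z : ↥(C ⊓ Subgroup.centralizer (P : Set H)) => μ ⟨z, hZC z.2⟩) (fun _ => 1) ≠ 0 := by
    by_contra hno
    push Not at hno
    apply hZ1
    have e2 : (fun z : ↥(C ⊓ Subgroup.centralizer (P : Set H)) => ξ z) =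
        fun z : ↥(C ⊓ Subgroup.centralizer (P : Set H)) => l.sum ⟨z, hZC z.2⟩ := by
      funext z
      exact congrFun hsum ⟨z, hZC z.2⟩
    rw [e2]
    clear hsum e2 hl
    induction l with
    | nil =>
      have e3 : (fun z : ↥(C ⊓ Subgroup.centralizer (P : Set H)) =>
          ([] : List (C → ℂ)).sum ⟨z, hZC z.2⟩) = 0 := by
        funext z
        simp
      rw [e3, classInner_zero_left]
    | cons a t ih =>
      have e3 : (fun z : ↥(C ⊓ Subgroup.centralizer (P : Set H)) =>
          (a :: t).sum ⟨z, hZC z.2⟩) =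
            (fun z : ↥(C ⊓ Subgroup.centralizer (P : Set H)) => a ⟨z, hZC z.2⟩) +
            (fun z : ↥(C ⊓ Subgroup.centralizer (P : Set H)) => t.sum ⟨z, hZC z.2⟩) := by
        funext z
        simp
      rw [e3, classInner_add_left, hno a List.mem_cons_self,
        ih (fun μ hμ => hno μ (List.mem_cons_of_mem _ hμ)), add_zero]
  obtain ⟨μ, hμl, hμZ⟩ := hexμ
  have hμirr := hl μ hμl
  have hμ1 : μ 1 = 1 := abelian_linear hCcomm hμirr
  obtain ⟨ν, hν⟩ := hom_of_deg_one (isCharacter_of_irr hμirr) hμ1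
  have hμZirr : Cfsg.IsIrrCharacter ↥(C ⊓ Subgroup.centralizer (P : Set H))
      (fun z => μ ⟨z, hZC z.2⟩) := by
    have h1 := isIrr_of_hom (ν.comp (Subgroup.inclusion hZC))
    have e4 : (fun z : ↥(C ⊓ Subgroup.centralizer (P : Set H)) => μ ⟨z, hZC z.2⟩) =
        fun z => ((ν.comp (Subgroup.inclusion hZC)) z : ℂ) := by
      funext z
      rw [hν]
      rfl
    rw [e4]
    exact h1
  have hμZone : (fun z : ↥(C ⊓ Subgroup.centralizer (P : Set H)) => μ ⟨z, hZC z.2⟩) =
      fun _ => 1 := by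
    by_contra hneq
    exact hμZ (irr_inner_ne hμZirr (isIrr_one _) hneq)
  have hconμ : Cfsg.classInner (fun c : C => ξ c) μ ≠ 0 := by
    obtain ⟨m, hm, hpos⟩ := inner_list_sum hμirr l hl
    rw [← hsum] at hm
    rw [classInner_conj_symm, hm]
    simp only [map_natCast]
    exact_mod_cast (hpos hμl).ne'
  by_cases hinv : ∀ (g : H) (c : C), μ ⟨g * c * g⁻¹, hCn.conj_mem c c.2 g⟩ = μ c
  · exfalso
    have h873 := @Cfsg.Agent.S0873.result H _ _ p _ C P hCn hP hcop hCP μ
      ⟨isCharacter_of_irr hμirr, hμ1⟩ hinv (by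
        intro c hc
        exact congrFun hμZone ⟨c, ⟨c.2, hc⟩⟩)
    have h8 := Cfsg.Agent.Lib.Helper3.CharAb.inv_restrict C hCn ξ hξ μ hμirr hconμ hinv
    have hker : ∀ c ∈ C, ξ c = ξ 1 := by
      intro c hc
      have e5 := congrFun h8 ⟨c, hc⟩
      have e6 := congrFun h8 1
      rw [h873] at e5 e6
      simp only [Pi.smul_apply, smul_eq_mul, mul_one] at e5 e6
      rw [e5]
      exact e6.symm
    have _q : Fintype (H ⧸ C) := Fintype.ofFinite _
    obtain ⟨ξ', hξ', hξ'2⟩ := descend (QuotientGroup.mk' C) (QuotientGroup.mk'_surjective C) ξ hξ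
      (fun z hz => hker z ((QuotientGroup.eq_one_iff z).mp hz))
    have hsurjE : Function.Surjective ((QuotientGroup.mk' C).comp
        (Subgroup.subtype ((C ⊓ Subgroup.centralizer (P : Set H)) ⊔ P))) := by
      intro q
      obtain ⟨h, rfl⟩ := QuotientGroup.mk'_surjective C q
      have hmem : h ∈ ((C ⊔ P : Subgroup H) : Set H) := by
        rw [hCP]
        exact Set.mem_univ h
      rw [Subgroup.normal_mul] at hmem
      obtain ⟨c, hc, y, hy, rfl⟩ := Set.mem_mul.mp hmem
      refine ⟨⟨y, hPE hy⟩, ?_⟩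
      show QuotientGroup.mk' C y = QuotientGroup.mk' C (c * y)
      have hc1 : QuotientGroup.mk' C c = 1 := (QuotientGroup.eq_one_iff c).mpr hc
      rw [map_mul, hc1, one_mul]
    have hS1 := sum_comp_surj (QuotientGroup.mk' C) (QuotientGroup.mk'_surjective C) ξ'
    have hS2 := sum_comp_surj _ hsurjE ξ'
    have hSE : ∑ e : ↥((C ⊓ Subgroup.centralizer (P : Set H)) ⊔ P), ξ e ≠ 0 := by
      intro h0
      apply hcon
      unfold Cfsg.classInner
      have e7 : ∀ e : ↥((C ⊓ Subgroup.centralizer (P : Set H)) ⊔ P),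
          (fun e : ↥((C ⊓ Subgroup.centralizer (P : Set H)) ⊔ P) => ξ e) e *
            conj ((fun _ => (1 : ℂ)) e) = ξ e := by
        intro e
        simp
      rw [Finset.sum_congr rfl (fun e _ => e7 e), h0, mul_zero]
    have hSq : ∑ q : H ⧸ C, ξ' q ≠ 0 := by
      intro h0
      apply hSE
      have e8 : ∀ e : ↥((C ⊓ Subgroup.centralizer (P : Set H)) ⊔ P), ξ e =
          ξ' (((QuotientGroup.mk' C).comp
            (Subgroup.subtype ((C ⊓ Subgroup.centralizer (P : Set H)) ⊔ P))) e) := by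
        intro e
        exact (hξ'2 e).symm
      rw [Finset.sum_congr rfl (fun e _ => e8 e), hS2, h0, mul_zero]
    have hSH : ∑ h : H, ξ h ≠ 0 := by
      have e9 : ∀ h : H, ξ h = ξ' ((QuotientGroup.mk' C) h) := fun h => (hξ'2 h).symm
      rw [Finset.sum_congr rfl (fun h _ => e9 h), hS1]
      apply mul_ne_zero _ hSq
      exact_mod_cast Nat.card_pos.ne'
    apply hne
    by_contra hneq
    have h0 := irr_inner_ne hξ (isIrr_one H) hneq
    unfold Cfsg.classInner at h0
    have e10 : ∀ h : H, ξ h * conj ((fun _ => (1 : ℂ)) h) = ξ h := by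
      intro h
      simp
    rw [Finset.sum_congr rfl (fun h _ => e10 h)] at h0
    rcases mul_eq_zero.mp h0 with h1 | h1
    · have hG : (Nat.card H : ℂ) ≠ 0 := by exact_mod_cast Nat.card_pos.ne'
      exact hG (inv_eq_zero.mp h1)
    · exact hSH h1
  · obtain ⟨T, hCT, hTtop, hT, η, hη, hind, -⟩ :=
      clifford_proper C hCn ξ hξ μ hμirr hconμ hinv
    exact ⟨T, hTtop, η, hη, hind⟩

theorem qe_one {p : ℕ} [hpf : Fact p.Prime] : ∀ (n : ℕ) (H : Type u) [Group H] [Fintype H],
    Nat.card H = n → QE p (⊤ : Subgroup H) → InE p (fun _ : H => (1 : ℂ)) := by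
  intro n
  induction n using Nat.strong_induction_on with
  | _ n ih =>
    intro H _ _ hn hQE
    classical
    have hp : p.Prime := hpf.out
    have hQEtop : QE p (⊤ : Subgroup H) := hQE
    obtain ⟨C, -, hN, hcyc, hcop, k, hk⟩ := hQE
    have hCn : C.Normal := Subgroup.normalizer_eq_top_iff.mp (top_le_iff.mp hN)
    have hidx : C.index = p ^ k := by
      rw [← Subgroup.relIndex_top_right]
      exact hk
    obtain ⟨P⟩ := (inferInstance : Nonempty (Sylow p H))
    have hCP : C ⊔ (P : Subgroup H) = ⊤ := by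
      rw [← Subgroup.index_eq_one]
      have h1 : (C ⊔ (P : Subgroup H)).index ∣ p ^ k :=
        hidx ▸ Subgroup.index_dvd_of_le le_sup_left
      have h2 : (C ⊔ (P : Subgroup H)).index ∣ (P : Subgroup H).index :=
        Subgroup.index_dvd_of_le le_sup_right
      obtain ⟨j, -, hj⟩ := (Nat.dvd_prime_pow hp).mp h1
      rw [hj] at h2 ⊢
      cases j with
      | zero => rfl
      | succ j =>
        exact absurd (dvd_trans (dvd_pow_self p (Nat.succ_ne_zero j)) h2) P.not_dvd_index
    have hZC : C ⊓ Subgroup.centralizer ((P : Subgroup H) : Set H) ≤ C := inf_le_left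
    have hZcyc : IsCyclic ↥(C ⊓ Subgroup.centralizer ((P : Subgroup H) : Set H)) := by
      have h1 : IsCyclic ((C ⊓ Subgroup.centralizer ((P : Subgroup H) : Set H)).subgroupOf C) :=
        inferInstance
      exact isCyclic_of_surjective (Subgroup.subgroupOfEquivOfLe hZC).toMonoidHom
        (Subgroup.subgroupOfEquivOfLe hZC).surjective
    have hZcop : Nat.Coprime
        (Nat.card ↥(C ⊓ Subgroup.centralizer ((P : Subgroup H) : Set H))) p :=
      Nat.Coprime.coprime_dvd_left (Subgroup.card_dvd_of_le hZC) hcop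
    have hCcomm : ∀ a ∈ C, ∀ b ∈ C, a * b = b * a := by
      obtain ⟨g₀, hg₀⟩ := hcyc.exists_generator
      intro a ha b hb
      obtain ⟨i, hi⟩ := Subgroup.mem_zpowers_iff.mp (hg₀ ⟨a, ha⟩)
      obtain ⟨j, hj⟩ := Subgroup.mem_zpowers_iff.mp (hg₀ ⟨b, hb⟩)
      have h1 := congrArg Subtype.val ((Commute.zpow_zpow_self g₀ i j).eq)
      rw [hi, hj] at h1
      exact h1
    have hcomm : ∀ e ∈ (C ⊓ Subgroup.centralizer ((P : Subgroup H) : Set H)) ⊔ (P : Subgroup H),
        ∀ z ∈ C ⊓ Subgroup.centralizer ((P : Subgroup H) : Set H), e * z = z * e := by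
      intro e he z hz
      have h1 : (C ⊓ Subgroup.centralizer ((P : Subgroup H) : Set H)) ⊔ (P : Subgroup H) ≤
          Subgroup.centralizer ({z} : Set H) := by
        apply sup_le
        · intro w hw
          rw [Subgroup.mem_centralizer_iff]
          intro x hx
          rw [Set.mem_singleton_iff] at hx
          subst hx
          exact hCcomm _ (hZC hz) _ (hZC hw)
        · intro y hy
          rw [Subgroup.mem_centralizer_iff]
          intro x hx
          rw [Set.mem_singleton_iff] at hx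
          subst hx
          exact ((Subgroup.mem_centralizer_iff.mp hz.2) y hy).symm
      exact (Subgroup.mem_centralizer_iff.mp (h1 he) z rfl).symm
    have hE := elem_sup _ (P : Subgroup H) hZcyc hZcop hcomm P.isPGroup'
    have _e : Fintype
        ↥((C ⊓ Subgroup.centralizer ((P : Subgroup H) : Set H)) ⊔ (P : Subgroup H)) :=
      Fintype.ofFinite _
    have hone1 : Cfsg.IsCharacter
        ↥((C ⊓ Subgroup.centralizer ((P : Subgroup H) : Set H)) ⊔ (P : Subgroup H))
        (fun _ => (1 : ℂ)) := isCharacter_of_irr (isIrr_one _)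
    have hΘ := InE_gen _ (fun _ => (1 : ℂ)) hE hone1
    by_cases hEtop : (C ⊓ Subgroup.centralizer ((P : Subgroup H) : Set H)) ⊔ (P : Subgroup H) = ⊤
    · have h1 : Cfsg.IsElementary p ↥(⊤ : Subgroup H) := hEtop ▸ hE
      have h2 := InE_gen (⊤ : Subgroup H) (fun _ => (1 : ℂ)) h1
        (isCharacter_of_irr (isIrr_one _))
      rw [indFun_top (fun _ : H => (1 : ℂ)) (fun _ _ => rfl)] at h2
      exact h2
    · have hΘc : Cfsg.IsCharacter H (Cfsg.indFun
          ((C ⊓ Subgroup.centralizer ((P : Subgroup H) : Set H)) ⊔ (P : Subgroup H))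
          (fun _ => (1 : ℂ))) := Cfsg.Agent.S0148.result _ _ hone1
      obtain ⟨l, hl, hsum⟩ := isCharacter_decomp hΘc
      have hcount : l.count (fun _ : H => (1 : ℂ)) = 1 := by
        have h1 := inner_list_count (isIrr_one H) l hl
        rw [← hsum, frobenius' _ _ _ (fun _ _ => rfl)] at h1
        have h2 := irr_inner_self (isIrr_one
          ↥((C ⊓ Subgroup.centralizer ((P : Subgroup H) : Set H)) ⊔ (P : Subgroup H)))
        rw [h2] at h1
        exact_mod_cast h1.symm
      obtain ⟨l', hl', hpart⟩ := list_partition (fun _ : H => (1 : ℂ)) l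
      rw [hcount, Nat.cast_one, one_smul, ← hsum] at hpart
      have hfilt : ∀ ξ ∈ l', InE p ξ := by
        intro ξ hξmem
        obtain ⟨hξl, hξne⟩ := hl' ξ hξmem
        have hξ := hl ξ hξl
        have hconE : Cfsg.classInner
            (fun e : ↥((C ⊓ Subgroup.centralizer ((P : Subgroup H) : Set H)) ⊔
              (P : Subgroup H)) => ξ e) (fun _ => 1) ≠ 0 := by
          obtain ⟨m, hm, hpos⟩ := inner_list_sum hξ l hl
          rw [← hsum, frobenius' _ _ _ (char_classFun (isCharacter_of_irr hξ))] at hm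
          rw [hm]
          exact_mod_cast (hpos hξl).ne'
        obtain ⟨T, hTtop, η, hη, hind⟩ := qe_constituent C hCn hcyc hcop (P : Subgroup H)
          P.isPGroup' hCP ξ hξ hξne hconE
        have _t : Fintype T := Fintype.ofFinite _
        have hcardT : Nat.card T < n := by
          rw [← hn]
          have h1 := T.card_mul_index
          have h2 : T.index ≠ 1 := fun h => hTtop (Subgroup.index_eq_one.mp h)
          have h3 : T.index ≠ 0 := Subgroup.index_ne_zero_of_finite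
          have h4 : 0 < Nat.card T := Nat.card_pos
          have h5 : 2 ≤ T.index := by omega
          nlinarith
        have hQET : QE p (⊤ : Subgroup T) := qe_top_of_sub (QE_sub hp hQEtop le_top)
        have h6 := ih (Nat.card T) hcardT T rfl hQET
        have h7 := InE_mul_char h6 (isCharacter_of_irr hη)
        have e1 : (fun _ : T => (1 : ℂ)) * η = η := by
          funext t
          simp
        rw [e1] at h7
        have h8 := InE_ind T h7
        rw [hind] at h8
        exact h8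
      have h9 := InE_add hΘ (InE_zsmul (-1) (InE_list_sum _ hfilt))
      have e2 : (fun _ : H => (1 : ℂ)) = Cfsg.indFun
          ((C ⊓ Subgroup.centralizer ((P : Subgroup H) : Set H)) ⊔ (P : Subgroup H))
          (fun _ => (1 : ℂ)) + ((-1 : ℤ) : ℂ) • l'.sum := by
        rw [hpart]
        push_cast
        simp
      rw [e2]
      exact h9

theorem InE_of_QE {p : ℕ} [Fact p.Prime] {G : Type u} [Group G] [Fintype G] (H : Subgroup G)
    (hH : QE p H) : InE p (Cfsg.indFun H (fun _ => (1 : ℂ))) := by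
  classical
  have _h : Fintype H := Fintype.ofFinite _
  exact InE_ind H (qe_one (Nat.card H) H rfl (qe_top_of_sub hH))

end Cfsg.Agent.Lib.Helper3.CharBrauer2
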