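import Mathlib
import Cfsg.Prelude.Def_Characters
import Cfsg.Agent.Lib.Helper3.Char
import Cfsg.Agent.Lib.Helper3.CharCore
import Cfsg.Agent.Lib.Helper3.CharInd
import Cfsg.Agent.Lib.Helper3.CharArith
import Cfsg.Agent.Lib.Helper3.CharLinear
import Cfsg.Agent.Lib.Helper3.CharLin
import Cfsg.Agent.Lib.Helper3.CharTrans
import Cfsg.Agent.Lib.Helper3.CharMono
import Cfsg.Agent.Lib.Helper3.CharPermInd
import Cfsg.Agent.Lib.Helper3.CharBrauer
import Cfsg.Agent.Lib.Helper3.CharBrauer2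
import Cfsg.Agent.S0176
import Cfsg.Agent.S0874

open Cfsg
open Cfsg.Agent.Lib.Helper3.Char Cfsg.Agent.Lib.Helper3.CharCore Cfsg.Agent.Lib.Helper3.CharInd
open Cfsg.Agent.Lib.Helper3.CharArith Cfsg.Agent.Lib.Helper3.CharLinear
open Cfsg.Agent.Lib.Helper3.CharLin
open Cfsg.Agent.Lib.Helper3.CharTrans Cfsg.Agent.Lib.Helper3.CharMono
open Cfsg.Agent.Lib.Helper3.CharPermInd Cfsg.Agent.Lib.Helper3.CharBrauer
open Cfsg.Agent.Lib.Helper3.CharBrauer2
open scoped ComplexConjugate

universe u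

namespace Cfsg.Agent.Lib.Helper3.CharBrauer3

def InG {G : Type*} [Group G] [Fintype G] (f : G → ℂ) : Prop :=
  ∃ l : List ((E : Subgroup G) × ((E → ℂ) × ℤ)),
    (∀ t ∈ l, (∃ p : ℕ, p.Prime ∧ Cfsg.IsElementary p t.1) ∧ Cfsg.IsCharacter t.1 t.2.1) ∧
    f = (l.map fun t => (t.2.2 : ℂ) • Cfsg.indFun t.1 t.2.1).sum

theorem InG_zero {G : Type*} [Group G] [Fintype G] : InG (0 : G → ℂ) :=
  ⟨[], fun _ h => absurd h List.not_mem_nil, rfl⟩

theorem InG_add {G : Type*} [Group G] [Fintype G] {f g : G → ℂ} (hf : InG f)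
    (hg : InG g) : InG (f + g) := by
  obtain ⟨l₁, h1, rfl⟩ := hf
  obtain ⟨l₂, h2, rfl⟩ := hg
  refine ⟨l₁ ++ l₂, ?_, ?_⟩
  · intro t ht
    rcases List.mem_append.mp ht with h | h
    · exact h1 t h
    · exact h2 t h
  · rw [List.map_append, List.sum_append]

theorem InG_zsmul {G : Type*} [Group G] [Fintype G] {f : G → ℂ} (c : ℤ)
    (hf : InG f) : InG ((c : ℂ) • f) := by
  obtain ⟨l, h1, rfl⟩ := hf
  refine ⟨l.map (fun t => ⟨t.1, (t.2.1, c * t.2.2)⟩), ?_, ?_⟩
  · intro t ht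
    obtain ⟨s, hs, rfl⟩ := List.mem_map.mp ht
    exact h1 s hs
  · rw [List.map_map]
    clear h1
    induction l with
    | nil => simp
    | cons a t ih =>
      rw [List.map_cons, List.sum_cons, List.map_cons, List.sum_cons, smul_add, ih]
      congr 1
      show (c : ℂ) • ((a.2.2 : ℂ) • _) = (((c * a.2.2 : ℤ)) : ℂ) • _
      rw [smul_smul]
      push_cast
      rfl

theorem InG_mul_char {G : Type*} [Group G] [Fintype G] {f χ : G → ℂ} (hf : InG f)
    (hχ : Cfsg.IsCharacter G χ) : InG (f * χ) := by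
  obtain ⟨l, h1, rfl⟩ := hf
  refine ⟨l.map (fun t => ⟨t.1, (fun e : t.1 => t.2.1 e * χ e, t.2.2)⟩), ?_, ?_⟩
  · intro t ht
    obtain ⟨s, hs, rfl⟩ := List.mem_map.mp ht
    have h2 := isCharacter_mul (h1 s hs).2 (comp_isCharacter s.1.subtype hχ)
    exact ⟨(h1 s hs).1, h2⟩
  · rw [List.map_map]
    clear h1
    induction l with
    | nil => simp
    | cons a t ih =>
      rw [List.map_cons, List.sum_cons, List.map_cons, List.sum_cons, add_mul, ih]
      congr 1
      show (a.2.2 : ℂ) • Cfsg.indFun a.1 a.2.1 * χ =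
        (a.2.2 : ℂ) • Cfsg.indFun a.1 (fun e : a.1 => a.2.1 e * χ e)
      rw [smul_mul_assoc, ind_mul a.1 a.2.1 χ (char_classFun hχ)]

theorem InG_of_InE {p : ℕ} (hp : p.Prime) {G : Type*} [Group G] [Fintype G] {f : G → ℂ}
    (hf : InE p f) : InG f := by
  obtain ⟨l, h1, rfl⟩ := hf
  exact ⟨l, fun t ht => ⟨⟨p, hp, (h1 t ht).1⟩, (h1 t ht).2⟩, rfl⟩

theorem InG_const_int {G : Type u} [Group G] [Fintype G] (p : ℕ) (hp : p.Prime) :
    ∃ m : ℕ, InG (fun _ : G => ((m : ℤ) : ℂ)) ∧ Nat.Coprime m p := by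
  obtain ⟨m, l, hm, hl, hsum⟩ := Cfsg.Agent.S0874.result (G := G) p hp
  have h1 : InG (fun _ : G => (m : ℂ)) := InG_of_InE hp ⟨l, hl, hsum⟩
  refine ⟨m.natAbs, ?_, ?_⟩
  · rcases Int.natAbs_eq m with h | h
    · rw [← h]
      exact h1
    · have h2 := InG_zsmul (-1) h1
      have h3 : ((-1 : ℤ) : ℂ) • (fun _ : G => (m : ℂ)) = fun _ : G => ((m.natAbs : ℤ) : ℂ) := by
        funext g
        have h4 : ((m.natAbs : ℤ) : ℂ) = -(m : ℂ) := by
          have h5 : (m.natAbs : ℤ) = -m := by omega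
          rw [h5]
          push_cast
          rfl
        rw [h4]
        simp
      rw [h3] at h2
      exact h2
  · apply Nat.Coprime.symm
    rw [Nat.Prime.coprime_iff_not_dvd hp]
    intro h
    exact hm (Int.natCast_dvd.mpr h)

theorem InG_one {G : Type u} [Group G] [Fintype G] : InG (fun _ : G => (1 : ℂ)) := by
  let S : AddSubgroup ℤ :=
    { carrier := {m | InG (fun _ : G => (m : ℂ))}
      zero_mem' := by
        show InG (fun _ : G => ((0 : ℤ) : ℂ))
        have h : (fun _ : G => ((0 : ℤ) : ℂ)) = 0 := by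
          funext g
          simp
        rw [h]
        exact InG_zero
      add_mem' := by
        intro a b ha hb
        show InG (fun _ : G => ((a + b : ℤ) : ℂ))
        have h : (fun _ : G => ((a + b : ℤ) : ℂ)) = (fun _ : G => (a : ℂ)) + fun _ : G => (b : ℂ) := by
          funext g
          simp
        rw [h]
        exact InG_add ha hb
      neg_mem' := by
        intro a ha
        show InG (fun _ : G => ((-a : ℤ) : ℂ))
        have h : (fun _ : G => ((-a : ℤ) : ℂ)) = ((-1 : ℤ) : ℂ) • fun _ : G => (a : ℂ) := by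
          funext g
          simp
        rw [h]
        exact InG_zsmul (-1) ha }
  obtain ⟨o, ho, hcop⟩ := InG_const_int (G := G) 2 Nat.prime_two
  have ho0 : 0 < o := by
    rcases Nat.eq_zero_or_pos o with h | h
    · subst h
      simp at hcop
    · exact h
  have h1 : (1 : ℤ) ∈ S := by
    apply one_mem_of_coprime S o ho0 ho
    intro p hp _
    obtain ⟨m, hm, hmc⟩ := InG_const_int (G := G) p hp
    exact ⟨m, hm, hmc⟩
  have h2 : InG (fun _ : G => ((1 : ℤ) : ℂ)) := h1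
  simpa using h2

theorem elem_nilpotent {p : ℕ} (hp : p.Prime) {E : Type*} [Group E] [Finite E]
    (h : Cfsg.IsElementary p E) : Group.IsNilpotent E := by
  obtain ⟨x, hx, _, k, hk⟩ := h
  have _hf : Fact p.Prime := ⟨hp⟩
  have hZc : Subgroup.zpowers x ≤ Subgroup.center E := by
    rw [Subgroup.zpowers_le]
    exact hx
  have hZn : (Subgroup.zpowers x).Normal := by
    refine ⟨fun z hz g => ?_⟩
    have h1 := Subgroup.mem_center_iff.mp (hZc hz) g
    have h2 : g * z * g⁻¹ = z := by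
      rw [h1, mul_assoc, mul_inv_cancel, mul_one]
    rw [h2]
    exact hz
  have hq : IsPGroup p (E ⧸ Subgroup.zpowers x) := by
    apply IsPGroup.of_card (n := k)
    rw [← Subgroup.index_eq_card]
    exact hk
  have _hnil : Group.IsNilpotent (E ⧸ Subgroup.zpowers x) := hq.isNilpotent
  apply Subgroup.isNilpotent_of_ker_le_center (QuotientGroup.mk' (Subgroup.zpowers x))
  rw [QuotientGroup.ker_mk']
  exact hZc

theorem elem_sub {p : ℕ} (hp : p.Prime) {E : Type*} [Group E] [Finite E]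
    (h : Cfsg.IsElementary p E) (U : Subgroup E) : Cfsg.IsElementary p U := by
  obtain ⟨x, hx, hcop, k, hk⟩ := h
  have hZc : Subgroup.zpowers x ≤ Subgroup.center E := by
    rw [Subgroup.zpowers_le]
    exact hx
  have hZn : (Subgroup.zpowers x).Normal := by
    refine ⟨fun z hz g => ?_⟩
    have h1 := Subgroup.mem_center_iff.mp (hZc hz) g
    have h2 : g * z * g⁻¹ = z := by
      rw [h1, mul_assoc, mul_inv_cancel, mul_one]
    rw [h2]
    exact hz
  have hcyc : IsCyclic ↥(Subgroup.zpowers x ⊓ U) :=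
    Subgroup.isCyclic_of_le (inf_le_left : Subgroup.zpowers x ⊓ U ≤ Subgroup.zpowers x)
  obtain ⟨g, hg⟩ := hcyc.exists_generator
  have hgU : (g : E) ∈ U := g.2.2
  have hgZ : (g : E) ∈ Subgroup.zpowers x := g.2.1
  refine ⟨⟨(g : E), hgU⟩, ?_, ?_, ?_⟩
  · rw [Subgroup.mem_center_iff]
    intro u
    apply Subtype.ext
    exact Subgroup.mem_center_iff.mp (hZc hgZ) u
  · have h1 : orderOf (⟨(g : E), hgU⟩ : U) = orderOf (g : E) := by
      rw [← Subgroup.orderOf_coe]
    rw [h1]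
    exact Nat.Coprime.coprime_dvd_left (orderOf_dvd_of_mem_zpowers hgZ) hcop
  · have hx2 : Subgroup.zpowers (⟨(g : E), hgU⟩ : U) = (Subgroup.zpowers x).subgroupOf U := by
      ext e
      rw [Subgroup.mem_subgroupOf]
      constructor
      · intro he
        obtain ⟨j, rfl⟩ := Subgroup.mem_zpowers_iff.mp he
        rw [Subgroup.coe_zpow]
        exact Subgroup.zpow_mem _ hgZ j
      · intro he
        obtain ⟨j, hj⟩ := Subgroup.mem_zpowers_iff.mp
          (hg ⟨(e : E), ⟨he, e.2⟩⟩)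
        rw [Subgroup.mem_zpowers_iff]
        refine ⟨j, ?_⟩
        apply Subtype.ext
        have h2 := congrArg (fun z : ↥(Subgroup.zpowers x ⊓ U) => (z : E)) hj
        rw [Subgroup.coe_zpow]
        simpa using h2
    rw [hx2]
    have h3 : (Subgroup.zpowers x).relIndex U ∣ p ^ k := by
      rw [← hk]
      exact Subgroup.relIndex_dvd_index_of_normal _ _
    obtain ⟨j, _, hj⟩ := (Nat.dvd_prime_pow hp).mp h3
    exact ⟨j, hj⟩

def InB {G : Type*} [Group G] [Fintype G] (f : G → ℂ) : Prop :=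
  ∃ l : List ((E : Subgroup G) × ((E →* ℂˣ) × ℤ)),
    (∀ t ∈ l, ∃ p : ℕ, p.Prime ∧ Cfsg.IsElementary p t.1) ∧
    f = (l.map fun t => (t.2.2 : ℂ) • Cfsg.indFun t.1 (fun e => (t.2.1 e : ℂ))).sum

theorem InB_zero {G : Type*} [Group G] [Fintype G] : InB (0 : G → ℂ) :=
  ⟨[], fun _ h => absurd h List.not_mem_nil, rfl⟩

theorem InB_add {G : Type*} [Group G] [Fintype G] {f g : G → ℂ} (hf : InB f)
    (hg : InB g) : InB (f + g) := by
  obtain ⟨l₁, h1, rfl⟩ := hf
  obtain ⟨l₂, h2, rfl⟩ := hg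
  refine ⟨l₁ ++ l₂, ?_, ?_⟩
  · intro t ht
    rcases List.mem_append.mp ht with h | h
    · exact h1 t h
    · exact h2 t h
  · rw [List.map_append, List.sum_append]

theorem InB_zsmul {G : Type*} [Group G] [Fintype G] {f : G → ℂ} (c : ℤ)
    (hf : InB f) : InB ((c : ℂ) • f) := by
  obtain ⟨l, h1, rfl⟩ := hf
  refine ⟨l.map (fun t => ⟨t.1, (t.2.1, c * t.2.2)⟩), ?_, ?_⟩
  · intro t ht
    obtain ⟨s, hs, rfl⟩ := List.mem_map.mp ht
    exact h1 s hs
  · rw [List.map_map]
    clear h1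
    induction l with
    | nil => simp
    | cons a t ih =>
      rw [List.map_cons, List.sum_cons, List.map_cons, List.sum_cons, smul_add, ih]
      congr 1
      show (c : ℂ) • ((a.2.2 : ℂ) • _) = (((c * a.2.2 : ℤ)) : ℂ) • _
      rw [smul_smul]
      push_cast
      rfl

theorem InB_list_sum {G : Type*} [Group G] [Fintype G] (l : List (G → ℂ))
    (hl : ∀ f ∈ l, InB f) : InB l.sum := by
  induction l with
  | nil => exact InB_zero
  | cons a t ih =>
    rw [List.sum_cons]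
    exact InB_add (hl a List.mem_cons_self) (ih (fun f hf => hl f (List.mem_cons_of_mem _ hf)))

theorem InB_irr_term {G : Type u} [Group G] [Fintype G] (E : Subgroup G)
    (hE : ∃ p : ℕ, p.Prime ∧ Cfsg.IsElementary p E) (φ : E → ℂ)
    (hφ : Cfsg.IsIrrCharacter E φ) : InB (Cfsg.indFun E φ) := by
  classical
  obtain ⟨p, hp, hEl⟩ := hE
  have _fe : Fintype E := Fintype.ofFinite E
  have _hnil : Group.IsNilpotent E := elem_nilpotent hp hEl
  obtain ⟨U, lam, rfl⟩ := Cfsg.Agent.S0176.nilp_mono (Nat.card E) E rfl φ hφ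
  rw [ind_trans]
  refine ⟨[⟨U.map E.subtype, (lam.comp
    (U.equivMapOfInjective E.subtype E.subtype_injective).symm.toMonoidHom, 1)⟩], ?_, ?_⟩
  · intro t ht
    rw [List.mem_singleton] at ht
    rw [ht]
    exact ⟨p, hp, elem_equiv (U.equivMapOfInjective E.subtype E.subtype_injective)
      (elem_sub hp hEl U)⟩
  · simp
    rfl

theorem InB_char_term {G : Type u} [Group G] [Fintype G] (E : Subgroup G)
    (hE : ∃ p : ℕ, p.Prime ∧ Cfsg.IsElementary p E) (φ : E → ℂ)
    (hφ : Cfsg.IsCharacter E φ) : InB (Cfsg.indFun E φ) := by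
  obtain ⟨l, hl, rfl⟩ := isCharacter_decomp hφ
  rw [indFun_list_sum]
  apply InB_list_sum
  intro f hf
  obtain ⟨ψ, hψ, rfl⟩ := List.mem_map.mp hf
  exact InB_irr_term E hE ψ (hl ψ hψ)

theorem InB_of_InG {G : Type u} [Group G] [Fintype G] {f : G → ℂ} (hf : InG f) : InB f := by
  obtain ⟨l, h1, rfl⟩ := hf
  apply InB_list_sum
  intro f hf
  obtain ⟨t, ht, rfl⟩ := List.mem_map.mp hf
  exact InB_zsmul t.2.2 (InB_char_term t.1 (h1 t ht).1 t.2.1 (h1 t ht).2)

theorem brauer_char {G : Type u} [Group G] [Fintype G] {χ : G → ℂ}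
    (hχ : Cfsg.IsCharacter G χ) : InB χ := by
  have h1 := InG_mul_char (InG_one (G := G)) hχ
  have h2 : (fun _ : G => (1 : ℂ)) * χ = χ := by
    funext g
    simp
  rw [h2] at h1
  exact InB_of_InG h1

end Cfsg.Agent.Lib.Helper3.CharBrauer3
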