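import Mathlib
import Cfsg.Prelude.Def_Characters
import Cfsg.Agent.Lib.Helper3.Char
import Cfsg.Agent.Lib.Helper3.CharCore
import Cfsg.Agent.Lib.Helper3.CharInd
import Cfsg.Agent.Lib.Helper3.CharArith
import Cfsg.Agent.Lib.Helper3.CharPermInd
import Cfsg.Agent.Lib.Helper3.CharBrauer3
import Cfsg.Agent.S0148

open Cfsg
open Cfsg.Agent.Lib.Helper3.Char Cfsg.Agent.Lib.Helper3.CharCore Cfsg.Agent.Lib.Helper3.CharInd
open Cfsg.Agent.Lib.Helper3.CharArith
open Cfsg.Agent.Lib.Helper3.CharPermInd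
open Cfsg.Agent.Lib.Helper3.CharBrauer3
open scoped ComplexConjugate

universe u

namespace Cfsg.Agent.Lib.Helper3.CharBrauer4

theorem gen_of_char {G : Type u} [Group G] {χ : G → ℂ} (h : Cfsg.IsCharacter G χ) :
    Cfsg.IsGeneralizedCharacter G χ :=
  ⟨χ, 0, h, isCharacter_zero G, (sub_zero χ).symm⟩

theorem gen_zero (G : Type u) [Group G] : Cfsg.IsGeneralizedCharacter G 0 :=
  gen_of_char (isCharacter_zero G)

theorem gen_add {G : Type u} [Group G] {f g : G → ℂ} (hf : Cfsg.IsGeneralizedCharacter G f)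
    (hg : Cfsg.IsGeneralizedCharacter G g) : Cfsg.IsGeneralizedCharacter G (f + g) := by
  obtain ⟨a, b, ha, hb, rfl⟩ := hf
  obtain ⟨c, d, hc, hd, rfl⟩ := hg
  exact ⟨a + c, b + d, isCharacter_add ha hc, isCharacter_add hb hd, by abel⟩

theorem gen_neg {G : Type u} [Group G] {f : G → ℂ} (hf : Cfsg.IsGeneralizedCharacter G f) :
    Cfsg.IsGeneralizedCharacter G (-f) := by
  obtain ⟨a, b, ha, hb, rfl⟩ := hf
  exact ⟨b, a, hb, ha, by abel⟩

theorem gen_sub {G : Type u} [Group G] {f g : G → ℂ} (hf : Cfsg.IsGeneralizedCharacter G f)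
    (hg : Cfsg.IsGeneralizedCharacter G g) : Cfsg.IsGeneralizedCharacter G (f - g) := by
  rw [sub_eq_add_neg]
  exact gen_add hf (gen_neg hg)

theorem gen_nsmul {G : Type u} [Group G] {f : G → ℂ} (hf : Cfsg.IsGeneralizedCharacter G f)
    (n : ℕ) : Cfsg.IsGeneralizedCharacter G ((n : ℂ) • f) := by
  induction n with
  | zero =>
    simp only [Nat.cast_zero, zero_smul]
    exact gen_zero G
  | succ k ih =>
    have h : ((k + 1 : ℕ) : ℂ) • f = (k : ℂ) • f + f := by
      push_cast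
      rw [add_smul, one_smul]
    rw [h]
    exact gen_add ih hf

theorem gen_zsmul {G : Type u} [Group G] {f : G → ℂ} (hf : Cfsg.IsGeneralizedCharacter G f)
    (c : ℤ) : Cfsg.IsGeneralizedCharacter G ((c : ℂ) • f) := by
  obtain ⟨n, rfl | rfl⟩ := Int.eq_nat_or_neg c
  · push_cast
    exact gen_nsmul hf n
  · push_cast
    rw [neg_smul]
    exact gen_neg (gen_nsmul hf n)

theorem gen_list_sum {G : Type u} [Group G] (l : List (G → ℂ))
    (hl : ∀ f ∈ l, Cfsg.IsGeneralizedCharacter G f) : Cfsg.IsGeneralizedCharacter G l.sum := by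
  induction l with
  | nil => exact gen_zero G
  | cons a t ih =>
    rw [List.sum_cons]
    exact gen_add (hl a List.mem_cons_self) (ih (fun f hf => hl f (List.mem_cons_of_mem _ hf)))

theorem gen_finset_sum {G : Type u} [Group G] {ι : Type*} (s : Finset ι) (f : ι → G → ℂ)
    (hf : ∀ i ∈ s, Cfsg.IsGeneralizedCharacter G (f i)) :
    Cfsg.IsGeneralizedCharacter G (∑ i ∈ s, f i) := by
  classical
  induction s using Finset.induction_on with
  | empty =>
    rw [Finset.sum_empty]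
    exact gen_zero G
  | insert a s ha ih =>
    rw [Finset.sum_insert ha]
    exact gen_add (hf a (Finset.mem_insert_self a s))
      (ih (fun i hi => hf i (Finset.mem_insert_of_mem hi)))

theorem gen_mul {G : Type u} [Group G] {f g : G → ℂ} (hf : Cfsg.IsGeneralizedCharacter G f)
    (hg : Cfsg.IsGeneralizedCharacter G g) : Cfsg.IsGeneralizedCharacter G (f * g) := by
  obtain ⟨a, b, ha, hb, rfl⟩ := hf
  obtain ⟨c, d, hc, hd, rfl⟩ := hg
  exact ⟨a * c + b * d, a * d + b * c,
    isCharacter_add (isCharacter_mul ha hc) (isCharacter_mul hb hd),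
    isCharacter_add (isCharacter_mul ha hd) (isCharacter_mul hb hc), by ring⟩

theorem gen_ind {G : Type u} [Group G] [Fintype G] (H : Subgroup G) {f : H → ℂ}
    (hf : Cfsg.IsGeneralizedCharacter H f) : Cfsg.IsGeneralizedCharacter G (Cfsg.indFun H f) := by
  obtain ⟨a, b, ha, hb, rfl⟩ := hf
  refine ⟨Cfsg.indFun H a, Cfsg.indFun H b, Cfsg.Agent.S0148.result H a ha,
    Cfsg.Agent.S0148.result H b hb, ?_⟩
  have h1 : a - b = a + (-1 : ℂ) • b := by
    rw [neg_one_smul, sub_eq_add_neg]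
  rw [h1, indFun_add, indFun_smul, neg_one_smul, sub_eq_add_neg]

theorem gen_classFun {G : Type u} [Group G] {f : G → ℂ} (hf : Cfsg.IsGeneralizedCharacter G f) :
    Cfsg.IsClassFunction G f := by
  obtain ⟨a, b, ha, hb, rfl⟩ := hf
  intro g h
  show a (h * g * h⁻¹) - b (h * g * h⁻¹) = a g - b g
  rw [char_classFun ha g h, char_classFun hb g h]

theorem gen_restrict {G : Type u} [Group G] (H : Subgroup G) {f : G → ℂ}
    (hf : Cfsg.IsGeneralizedCharacter G f) : Cfsg.IsGeneralizedCharacter H (fun h : H => f h) := by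
  obtain ⟨a, b, ha, hb, rfl⟩ := hf
  exact ⟨fun h : H => a h, fun h : H => b h, comp_isCharacter H.subtype ha,
    comp_isCharacter H.subtype hb, rfl⟩

theorem brauer_gen {G : Type u} [Group G] [Fintype G] (θ : G → ℂ)
    (hθ : Cfsg.IsClassFunction G θ)
    (hE : ∀ (E : Subgroup G) (p : ℕ), p.Prime → Cfsg.IsElementary p E →
      Cfsg.IsGeneralizedCharacter E (fun e : E => θ e)) : Cfsg.IsGeneralizedCharacter G θ := by
  obtain ⟨l, h1, h2⟩ := InG_one (G := G)
  have h3 : θ = (fun _ : G => (1 : ℂ)) * θ := by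
    funext g
    simp
  have h4 : ∀ l' : List ((E : Subgroup G) × ((E → ℂ) × ℤ)),
      (l'.map fun t => (t.2.2 : ℂ) • Cfsg.indFun t.1 t.2.1).sum * θ =
        (l'.map fun t => (t.2.2 : ℂ) • Cfsg.indFun t.1 t.2.1 * θ).sum := by
    intro l'
    induction l' with
    | nil => simp
    | cons a t ih => rw [List.map_cons, List.sum_cons, List.map_cons, List.sum_cons, add_mul, ih]
  rw [h3, h2, h4]
  apply gen_list_sum
  intro f hf
  obtain ⟨t, ht, rfl⟩ := List.mem_map.mp hf
  show Cfsg.IsGeneralizedCharacter G ((t.2.2 : ℂ) • Cfsg.indFun t.1 t.2.1 * θ)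
  rw [smul_mul_assoc, ind_mul t.1 t.2.1 θ hθ]
  apply gen_zsmul
  apply gen_ind
  obtain ⟨⟨p, hp, hel⟩, hc⟩ := h1 t ht
  exact gen_mul (gen_of_char hc) (hE t.1 p hp hel)

end Cfsg.Agent.Lib.Helper3.CharBrauer4
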