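import Mathlib
import Cfsg.Prelude.Def_Characters
import Cfsg.Agent.Lib.Helper3.Char
import Cfsg.Agent.Lib.Helper3.CharCore
import Cfsg.Agent.Lib.Helper3.CharInd
import Cfsg.Agent.Lib.Helper3.CharArith
import Cfsg.Agent.Lib.Helper3.CharInt
import Cfsg.Agent.Lib.Helper3.CharPermInd
import Cfsg.Agent.Lib.Helper3.CharBrauer3
import Cfsg.Agent.Lib.Helper3.CharBrauer4
import Cfsg.Agent.S0148

open Cfsg
open Cfsg.Agent.Lib.Helper3.Char Cfsg.Agent.Lib.Helper3.CharCore Cfsg.Agent.Lib.Helper3.CharInd
open Cfsg.Agent.Lib.Helper3.CharArith Cfsg.Agent.Lib.Helper3.CharInt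
open Cfsg.Agent.Lib.Helper3.CharPermInd
open Cfsg.Agent.Lib.Helper3.CharBrauer3 Cfsg.Agent.Lib.Helper3.CharBrauer4
open scoped ComplexConjugate

universe u v

namespace Cfsg.Agent.Lib.Helper3.CharBrauer5

theorem preg_iff {p : ℕ} (hp : p.Prime) {E : Type*} [Group E] [Finite E] (K : Subgroup E)
    [hK : K.Normal] (hcop : Nat.Coprime (Nat.card K) p) {j : ℕ} (hj : K.index = p ^ j) (x : E) :
    x ∈ K ↔ ¬ p ∣ orderOf x := by
  constructor
  · intro hx hdvd
    have h1 : p ∣ Nat.card K := hdvd.trans (Subgroup.orderOf_dvd_natCard K hx)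
    have h2 := Nat.Coprime.eq_one_of_dvd hcop.symm h1
    exact hp.one_lt.ne' h2
  · intro hx
    have h1 : orderOf (QuotientGroup.mk' K x) ∣ orderOf x := orderOf_map_dvd _ x
    have h2 : orderOf (QuotientGroup.mk' K x) ∣ p ^ j := by
      rw [← hj, Subgroup.index_eq_card]
      exact orderOf_dvd_natCard _
    obtain ⟨i, _, hi⟩ := (Nat.dvd_prime_pow hp).mp h2
    have hi0 : i = 0 := by
      by_contra hne
      apply hx
      have h3 : p ∣ p ^ i := dvd_pow_self p hne
      rw [← hi] at h3
      exact h3.trans h1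
    rw [hi0, pow_zero, orderOf_eq_one_iff] at hi
    exact (QuotientGroup.eq_one_iff x).mp hi

theorem elem_pcomp {p q : ℕ} (hp : p.Prime) (hq : q.Prime) {E : Type*} [Group E] [Finite E]
    (h : Cfsg.IsElementary q E) :
    ∃ K : Subgroup E, K.Normal ∧ Nat.Coprime (Nat.card K) p ∧ ∃ j : ℕ, K.index = p ^ j := by
  obtain ⟨x, hx, hcop, k, hk⟩ := h
  have hZc : Subgroup.zpowers x ≤ Subgroup.center E := by
    rw [Subgroup.zpowers_le]
    exact hx
  have hZn : (Subgroup.zpowers x).Normal := by
    refine ⟨fun z hz g => ?_⟩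
    have h1 := Subgroup.mem_center_iff.mp (hZc hz) g
    have h2 : g * z * g⁻¹ = z := by
      rw [h1, mul_assoc, mul_inv_cancel, mul_one]
    rw [h2]
    exact hz
  by_cases hpq : q = p
  · subst hpq
    refine ⟨Subgroup.zpowers x, hZn, ?_, k, hk⟩
    rw [Nat.card_zpowers]
    exact hcop
  · have _hf : Fact p.Prime := ⟨hp⟩
    let P : Sylow p E := default
    have hPc : (P : Subgroup E) ≤ Subgroup.center E := by
      intro y hy
      apply hZc
      have h1 : orderOf (QuotientGroup.mk' (Subgroup.zpowers x) y) ∣ orderOf y :=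
        orderOf_map_dvd _ y
      have h2 : orderOf (QuotientGroup.mk' (Subgroup.zpowers x) y) ∣ q ^ k := by
        rw [← hk, Subgroup.index_eq_card]
        exact orderOf_dvd_natCard _
      obtain ⟨a, ha⟩ := (IsPGroup.iff_card.mp P.2)
      have h3 : orderOf y ∣ p ^ a := by
        rw [← ha]
        exact Subgroup.orderOf_dvd_natCard _ hy
      have h4 : Nat.Coprime (p ^ a) (q ^ k) :=
        Nat.Coprime.pow a k ((Nat.coprime_primes hp hq).mpr (Ne.symm hpq))
      have h5 : orderOf (QuotientGroup.mk' (Subgroup.zpowers x) y) = 1 :=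
        Nat.Coprime.eq_one_of_dvd (Nat.Coprime.coprime_dvd_left (h1.trans h3) h4) h2
      rw [orderOf_eq_one_iff] at h5
      exact (QuotientGroup.eq_one_iff y).mp h5
    have hNC : Subgroup.normalizer ((P : Subgroup E) : Set E) ≤
        Subgroup.centralizer ((P : Subgroup E) : Set E) := by
      intro g _
      rw [Subgroup.mem_centralizer_iff]
      intro y hy
      exact (Subgroup.mem_center_iff.mp (hPc hy) g).symm
    have hcompl := MonoidHom.ker_transferSylow_isComplement' P hNC
    refine ⟨(MonoidHom.transferSylow P hNC).ker, inferInstance, ?_, ?_⟩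
    · have h1 := hcompl.card_mul_card
      have h2 := Subgroup.card_mul_index (P : Subgroup E)
      have h3 : Nat.card (MonoidHom.transferSylow P hNC).ker = (P : Subgroup E).index := by
        have h4 : Nat.card (P : Subgroup E) * Nat.card (MonoidHom.transferSylow P hNC).ker =
            Nat.card (P : Subgroup E) * (P : Subgroup E).index := by
          rw [h2, mul_comm, h1]
        exact Nat.eq_of_mul_eq_mul_left Nat.card_pos h4
      rw [h3]
      exact Nat.Coprime.symm ((Nat.Prime.coprime_iff_not_dvd hp).mpr (Sylow.not_dvd_index P))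
    · obtain ⟨a, ha⟩ := (IsPGroup.iff_card.mp P.2)
      refine ⟨a, ?_⟩
      have h1 := hcompl.symm.index_eq_card
      rw [h1]
      exact ha

theorem ind_normal_restrict {E : Type*} [Group E] [Fintype E] (K : Subgroup E) [hK : K.Normal]
    (f : E → ℂ) (hf : Cfsg.IsClassFunction E f) (e : E) (he : e ∈ K) :
    Cfsg.indFun K (fun k : K => f k) e = (K.index : ℂ) * f e := by
  classical
  have h1 : Cfsg.indFun K (fun k : K => f k) e =
      (Nat.card K : ℂ)⁻¹ * ∑ x : E, f (x * e * x⁻¹) :=
    indFun_normal_mem K (fun k : K => f k) ⟨e, he⟩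
  rw [h1]
  have h3 : ∀ x : E, f (x * e * x⁻¹) = f e := fun x => hf e x
  simp only [h3]
  rw [Finset.sum_const, Finset.card_univ, ← Nat.card_eq_fintype_card, nsmul_eq_mul,
    ← Subgroup.card_mul_index K]
  have hK0 : (Nat.card K : ℂ) ≠ 0 := by exact_mod_cast Nat.card_pos.ne'
  push_cast
  field_simp

theorem preg_gen {G : Type u} [Group G] [Fintype G] (p : ℕ) (hp : p.Prime) (χ : G → ℂ)
    (hχ : Cfsg.IsCharacter G χ) :
    Cfsg.IsGeneralizedCharacter G (fun x : G => if p ∣ orderOf x then 0 else
      ((p ^ (Nat.card G).factorization p : ℕ) : ℂ) * χ x) := by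
  classical
  apply brauer_gen
  · intro g h
    have h1 : orderOf (h * g * h⁻¹) = orderOf g := by
      have h2 := MulEquiv.orderOf_eq (MulAut.conj h) g
      rw [MulAut.conj_apply] at h2
      exact h2
    show (if p ∣ orderOf (h * g * h⁻¹) then (0 : ℂ) else _ * χ (h * g * h⁻¹)) = _
    rw [h1, char_classFun hχ g h]
  · intro E q hq hE
    have _fe : Fintype E := Fintype.ofFinite E
    obtain ⟨K, hKn, hKcop, j, hj⟩ := elem_pcomp hp hq hE
    have hG0 : Nat.card G ≠ 0 := Nat.card_pos.ne'
    have hja : j ≤ (Nat.card G).factorization p := by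
      rw [← Nat.Prime.pow_dvd_iff_le_factorization hp hG0, ← hj]
      exact (Subgroup.index_dvd_card K).trans (Subgroup.card_subgroup_dvd_card E)
    have hχE : Cfsg.IsCharacter E (fun e : E => χ e) := comp_isCharacter E.subtype hχ
    have hχK : Cfsg.IsCharacter K (fun k : K => χ ((k : E) : G)) :=
      comp_isCharacter K.subtype hχE
    have hind : Cfsg.IsCharacter E (Cfsg.indFun K (fun k : K => χ ((k : E) : G))) :=
      Cfsg.Agent.S0148.result K _ hχK
    have heq : (fun e : E => if p ∣ orderOf (e : G) then (0 : ℂ) else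
        ((p ^ (Nat.card G).factorization p : ℕ) : ℂ) * χ e) =
        (p ^ ((Nat.card G).factorization p - j)) •
          Cfsg.indFun K (fun k : K => χ ((k : E) : G)) := by
      funext e
      have h2 : orderOf (e : G) = orderOf e := Subgroup.orderOf_coe e
      have h3 := preg_iff hp K hKcop hj e
      show _ = (p ^ ((Nat.card G).factorization p - j)) • Cfsg.indFun K _ e
      rw [h2]
      by_cases he : e ∈ K
      · have h1 := ind_normal_restrict K (fun e : E => χ e) (char_classFun hχE) e he
        rw [h1, if_neg (h3.mp he), hj, nsmul_eq_mul, ← mul_assoc]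
        congr 1
        push_cast
        rw [← pow_add, Nat.sub_add_cancel hja]
      · rw [indFun_normal_not_mem K _ he, smul_zero, if_pos]
        by_contra hh
        exact he (h3.mpr hh)
    rw [heq]
    exact gen_of_char (isCharacter_nsmul hind _)

theorem central_integral_gen {G : Type v} [Group G] [Fintype G] {V : Type u} [AddCommGroup V]
    [Module ℂ V] [FiniteDimensional ℂ V] (ρ : Representation ℂ G V) [ρ.IsIrreducible]
    (c : G → ℂ) (hc : ∀ g h : G, c (h * g * h⁻¹) = c g) (hint : ∀ g, IsIntegral ℤ (c g)) :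
    IsIntegral ℤ ((∑ g : G, c g * ρ.character g) / (Module.finrank ℂ V : ℂ)) := by
  classical
  have _k : Fintype (ConjClasses G) := Fintype.ofFinite _
  have hout : ∀ x : G, c (Quotient.out (ConjClasses.mk x)) = c x := by
    intro x
    have h3 : ConjClasses.mk (Quotient.out (ConjClasses.mk x)) = ConjClasses.mk x :=
      Quotient.out_eq _
    rw [ConjClasses.mk_eq_mk_iff_isConj, isConj_iff] at h3
    obtain ⟨d, hd⟩ := h3
    have h4 := hc (Quotient.out (ConjClasses.mk x)) d
    rw [hd] at h4
    exact h4.symm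
  have h3 : (∑ g : G, c g * ρ.character g) / (Module.finrank ℂ V : ℂ) =
      ∑ C : ConjClasses G, ((∑ x : G, ((if ConjClasses.mk x = C then (1 : ℤ) else 0 : ℤ) : ℂ) *
        ρ.character x) / (Module.finrank ℂ V : ℂ)) * c (Quotient.out C) := by
    rw [← Finset.sum_fiberwise (Finset.univ : Finset G) (fun x => ConjClasses.mk x)
      (fun x => c x * ρ.character x), Finset.sum_div]
    refine Finset.sum_congr rfl (fun C _ => ?_)
    rw [div_mul_eq_mul_div, Finset.sum_mul]
    congr 1
    rw [Finset.sum_filter]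
    refine Finset.sum_congr rfl (fun x _ => ?_)
    split_ifs with hx
    · rw [Int.cast_one, one_mul, ← hx, hout, mul_comm]
    · rw [Int.cast_zero, zero_mul, zero_mul]
  rw [h3]
  apply IsIntegral.sum
  intro C _
  apply IsIntegral.mul
  · apply central_integral ρ (fun x : G => if ConjClasses.mk x = C then (1 : ℤ) else 0)
    intro g h
    have e : ConjClasses.mk (h * g * h⁻¹) = ConjClasses.mk g := by
      rw [ConjClasses.mk_eq_mk_iff_isConj, isConj_comm, isConj_iff]
      exact ⟨h, rfl⟩
    simp only [e]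
  · exact hint _

end Cfsg.Agent.Lib.Helper3.CharBrauer5
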