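import Mathlib
import Cfsg.Prelude.Def_Characters
import Cfsg.Prelude.Def_Blocks
import Cfsg.Prelude.Def_Solvable
import Cfsg.Agent.Lib.Helper3.Char
import Cfsg.Agent.Lib.Helper3.CharCore
import Cfsg.Agent.Lib.Helper3.CharInd
import Cfsg.Agent.Lib.Helper3.CharArith
import Cfsg.Agent.Lib.Helper3.CharInt
import Cfsg.Agent.Lib.Helper3.CharNormal
import Cfsg.Agent.Lib.Helper3.CharCliff
import Cfsg.Agent.Lib.Helper3.CharProj
import Cfsg.Agent.Lib.Helper3.CharBrauer5
import Cfsg.Agent.Lib.Helper3.Core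
import Cfsg.Agent.Lib.Helper3.BlkLocal
import Cfsg.Agent.Lib.Helper3.BlkOsima
import Cfsg.Agent.Lib.Helper3.BlkOrth
import Cfsg.Agent.Lib.Helper3.BlkOrth2
import Cfsg.Agent.Lib.Helper3.BlkOrth3
import Cfsg.Agent.Lib.Helper3.BlkOrth4
import Cfsg.Agent.Lib.Helper3.BlkCover
import Cfsg.Agent.S0174

open Cfsg
open Cfsg.Agent.Lib.Helper3.Char Cfsg.Agent.Lib.Helper3.CharCore Cfsg.Agent.Lib.Helper3.CharInt
open Cfsg.Agent.Lib.Helper3.CharInd Cfsg.Agent.Lib.Helper3.CharArith
open Cfsg.Agent.Lib.Helper3.CharNormal Cfsg.Agent.Lib.Helper3.CharCliff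
open Cfsg.Agent.Lib.Helper3.CharProj Cfsg.Agent.Lib.Helper3.CharBrauer5
open Cfsg.Agent.Lib.Helper3.Core
open Cfsg.Agent.Lib.Helper3.BlkLocal
open Cfsg.Agent.Lib.Helper3.BlkOsima Cfsg.Agent.Lib.Helper3.BlkOrth
open Cfsg.Agent.Lib.Helper3.BlkOrth2 Cfsg.Agent.Lib.Helper3.BlkOrth3
open Cfsg.Agent.Lib.Helper3.BlkOrth4 Cfsg.Agent.Lib.Helper3.BlkCover
open scoped ComplexConjugate

universe u

namespace Cfsg.Agent.Lib.Helper3.BlkCover2

theorem preg_inner {p : ℕ} (hp : p.Prime) {G : Type u} [Group G] [Fintype G] (N : Subgroup G)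
    [hN : N.Normal] [Fintype N] (hcop : Nat.Coprime (Nat.card N) p) {k : ℕ}
    (hidx : N.index = p ^ k) (a b : G → ℂ) :
    ∑ x : G, (if p ∣ orderOf x then 0 else a x * conj (b x)) =
      (Nat.card N : ℂ) * Cfsg.classInner (fun n : N => a n) (fun n : N => b n) := by
  classical
  have hN0 : (Nat.card N : ℂ) ≠ 0 := by exact_mod_cast Nat.card_pos.ne'
  unfold Cfsg.classInner
  rw [← mul_assoc, mul_inv_cancel₀ hN0, one_mul,
    sum_subgroup N (fun x : G => if p ∣ orderOf x then 0 else a x * conj (b x))]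
  · refine Finset.sum_congr rfl (fun n _ => ?_)
    rw [if_neg ((preg_iff hp N hcop hidx (n : G)).mp n.2)]
  · intro g hg
    rw [if_pos]
    by_contra hh
    exact hg ((preg_iff hp N hcop hidx g).mpr hh)

theorem ncomp_block_iff {p : ℕ} {M : Ideal AlgInt} (hM : IsPModular p M) {G : Type u} [Group G]
    [Fintype G] (N : Subgroup G) [hN : N.Normal] [Fintype N] (hNp : ¬ p ∣ Nat.card N) {k : ℕ}
    (hidx : N.index = p ^ k) (χ ψ : Cfsg.IrrCharacter G) :
    Cfsg.SameBlock M (χ : G → ℂ) (ψ : G → ℂ) ↔ ∃ θ : Cfsg.IrrCharacter N,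
      Cfsg.classInner (fun n : N => (χ : G → ℂ) n) (θ : N → ℂ) ≠ 0 ∧
      Cfsg.classInner (fun n : N => (ψ : G → ℂ) n) (θ : N → ℂ) ≠ 0 := by
  classical
  have _fi : Fintype (Cfsg.IrrCharacter G) := Fintype.ofFinite _
  have hp := hM.1
  have hcop : Nat.Coprime (Nat.card N) p :=
    Nat.Coprime.symm ((Nat.Prime.coprime_iff_not_dvd hp).mpr hNp)
  have hN0 : (Nat.card N : ℂ) ≠ 0 := by exact_mod_cast Nat.card_pos.ne'
  have hχN : Cfsg.IsCharacter N (fun n : N => (χ : G → ℂ) n) :=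
    comp_isCharacter N.subtype (isCharacter_of_irr χ.2)
  have hψN : Cfsg.IsCharacter N (fun n : N => (ψ : G → ℂ) n) :=
    comp_isCharacter N.subtype (isCharacter_of_irr ψ.2)
  constructor
  · intro h
    have h1 : (fun n : N => (χ : G → ℂ) n) 1 ≠ 0 := irr_one_ne_zero χ.2
    obtain ⟨Χ, hΧ, hΧ2⟩ := exists_constituent hχN h1
    have h2 : Cfsg.classInner (fun n : N => (χ : G → ℂ) n) Χ ≠ 0 := by
      rw [classInner_conj_symm]
      intro h3
      apply hΧ2
      have h4 := congrArg conj h3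
      rw [Complex.conj_conj, map_zero] at h4
      exact h4
    exact ⟨⟨Χ, hΧ⟩, h2, cover_block hM N hNp Χ hΧ χ ψ h h2⟩
  · rintro ⟨θ, h1, h2⟩
    by_contra hsb
    have h3 := diff_block_orth hM χ ψ hsb
    rw [preg_inner hp N hcop hidx] at h3
    have h4 : Cfsg.classInner (fun n : N => (χ : G → ℂ) n) (fun n : N => (ψ : G → ℂ) n) = 0 := by
      rcases mul_eq_zero.mp h3 with h5 | h5
      · exact absurd h5 hN0
      · exact h5
    rcases inner_eq_zero_of_char hχN hψN θ.2 h4 with h5 | h5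
    · exact h1 h5
    · apply h2
      rw [classInner_conj_symm, h5, map_zero]

theorem principal_ncomp {p : ℕ} {M : Ideal AlgInt} (hM : IsPModular p M) {G : Type u} [Group G]
    [Fintype G] (N : Subgroup G) [hN : N.Normal] (hNp : ¬ p ∣ Nat.card N) {k : ℕ}
    (hidx : N.index = p ^ k) :
    Cfsg.principalBlock M G =
      {χ : Cfsg.IrrCharacter G | ∀ n ∈ N, (χ : G → ℂ) n = (χ : G → ℂ) 1} := by
  classical
  have _fN : Fintype N := Fintype.ofFinite N
  have _fi : Fintype (Cfsg.IrrCharacter G) := Fintype.ofFinite _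
  have hp := hM.1
  have hprime := hM.2.1.isPrime
  have hcop : Nat.Coprime (Nat.card N) p :=
    Nat.Coprime.symm ((Nat.Prime.coprime_iff_not_dvd hp).mpr hNp)
  have hN0 : (Nat.card N : ℂ) ≠ 0 := by exact_mod_cast Nat.card_pos.ne'
  obtain ⟨one, hone⟩ : ∃ one : Cfsg.IrrCharacter G, (one : G → ℂ) = fun _ => 1 :=
    ⟨⟨fun _ => 1, isIrr_one G⟩, rfl⟩
  have h1N : Cfsg.IsIrrCharacter N (fun _ : N => (1 : ℂ)) := isIrr_one N
  ext χ
  constructor
  · intro hχ
    have hsb : Cfsg.SameBlock M (one : G → ℂ) (χ : G → ℂ) := by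
      rw [hone]
      exact hχ
    have h1 : Cfsg.classInner (fun n : N => (one : G → ℂ) n) (fun _ : N => (1 : ℂ)) ≠ 0 := by
      rw [hone]
      rw [irr_inner_self h1N]
      exact one_ne_zero
    have h2 := cover_block hM N hNp _ h1N one χ hsb h1
    have h3 := Cfsg.Agent.S0174.result N hN (χ : G → ℂ) χ.2 _ h1N h2
    have hset : {ψ : N → ℂ | ∃ g : G, ψ = fun n : N => (fun _ : N => (1 : ℂ))
        ⟨g * n * g⁻¹, hN.conj_mem n n.2 g⟩} = {fun _ : N => (1 : ℂ)} := by
      ext ψ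
      simp
    rw [hset, finsum_mem_singleton] at h3
    intro n hn
    have h4 := congrFun h3 ⟨n, hn⟩
    have h5 := congrFun h3 1
    simp only [Pi.smul_apply, smul_eq_mul, mul_one] at h4 h5
    show (χ : G → ℂ) n = (χ : G → ℂ) 1
    have h6 : (χ : G → ℂ) ((1 : N) : G) = (χ : G → ℂ) 1 := rfl
    rw [h6] at h5
    rw [h5]
    exact h4
  · intro hχ
    show Cfsg.SameBlock M (fun _ : G => (1 : ℂ)) (χ : G → ℂ)
    rw [← hone]
    by_contra hsb
    have h3 := diff_block_orth hM one χ hsb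
    rw [preg_inner hp N hcop hidx] at h3
    have h4 : Cfsg.classInner (fun n : N => (one : G → ℂ) n) (fun n : N => (χ : G → ℂ) n) = 0 := by
      rcases mul_eq_zero.mp h3 with h5 | h5
      · exact absurd h5 hN0
      · exact h5
    unfold Cfsg.classInner at h4
    have h5 : ∑ n : N, (one : G → ℂ) n * conj ((χ : G → ℂ) n) =
        (Nat.card N : ℂ) * conj ((χ : G → ℂ) 1) := by
      rw [hone]
      simp only [one_mul]
      have h6 : ∀ n : N, conj ((χ : G → ℂ) n) = conj ((χ : G → ℂ) 1) := fun n => by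
        rw [hχ n n.2]
      rw [Finset.sum_congr rfl (fun n _ => h6 n), Finset.sum_const, Finset.card_univ,
        nsmul_eq_mul, Nat.card_eq_fintype_card]
    rw [h5] at h4
    have h6 : conj ((χ : G → ℂ) 1) ≠ 0 := by
      intro h7
      have h8 := congrArg conj h7
      rw [Complex.conj_conj, map_zero] at h8
      exact irr_one_ne_zero χ.2 h8
    rcases mul_eq_zero.mp h4 with h7 | h7
    · exact absurd (inv_eq_zero.mp h7) hN0
    · rcases mul_eq_zero.mp h7 with h8 | h8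
      · exact absurd h8 hN0
      · exact h6 h8

end Cfsg.Agent.Lib.Helper3.BlkCover2
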