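import Mathlib
import Cfsg.Prelude.Def_Characters
import Cfsg.Agent.Lib.Helper3.Char
import Cfsg.Agent.Lib.Helper3.CharCore
import Cfsg.Agent.Lib.Helper3.CharInd
import Cfsg.Agent.Lib.Helper3.CharArith
import Cfsg.Agent.Lib.Helper3.CharInt
import Cfsg.Agent.Lib.Helper3.CharPermInd
import Cfsg.Agent.Lib.Helper3.CharBrauer3
import Cfsg.Agent.Lib.Helper3.CharBrauer4
import Cfsg.Agent.Lib.Helper3.CharBrauer5

open Cfsg
open Cfsg.Agent.Lib.Helper3.Char Cfsg.Agent.Lib.Helper3.CharCore Cfsg.Agent.Lib.Helper3.CharInd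
open Cfsg.Agent.Lib.Helper3.CharArith Cfsg.Agent.Lib.Helper3.CharInt
open Cfsg.Agent.Lib.Helper3.CharPermInd
open Cfsg.Agent.Lib.Helper3.CharBrauer3 Cfsg.Agent.Lib.Helper3.CharBrauer4
open Cfsg.Agent.Lib.Helper3.CharBrauer5
open scoped ComplexConjugate

universe u v

namespace Cfsg.Agent.Lib.Helper3.CharBrauer6

theorem defect_zero {G : Type u} [Group G] [Fintype G] {V : Type v} [AddCommGroup V]
    [Module ℂ V] [FiniteDimensional ℂ V] (ρ : Representation ℂ G V) [ρ.IsIrreducible] (p n : ℕ)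
    (hp : p.Prime) (hn : p ^ n ∣ Nat.card G) (hn' : ¬ p ^ (n + 1) ∣ Nat.card G)
    (hdeg : p ^ n ∣ Module.finrank ℂ V) (x : G) (hx : p ∣ orderOf x) : ρ.character x = 0 := by
  classical
  have hirr : Cfsg.IsIrrCharacter G ρ.character := isIrr_of_rep ρ inferInstance
  have hχc := isCharacter_of_irr hirr
  have hG0 : Nat.card G ≠ 0 := Nat.card_pos.ne'
  have hGc : (Nat.card G : ℂ) ≠ 0 := by exact_mod_cast hG0
  have hGr : (0 : ℝ) < (Nat.card G : ℝ) := by exact_mod_cast Nat.card_pos
  have hd0 := finrank_ne_zero_of_irr ρ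
  have hdG := degree_dvd_card ρ
  have ha : (Nat.card G).factorization p = n := by
    have h1 := (Nat.Prime.pow_dvd_iff_le_factorization hp hG0).mp hn
    have h2 : ¬ (n + 1 ≤ (Nat.card G).factorization p) := fun h =>
      hn' ((Nat.Prime.pow_dvd_iff_le_factorization hp hG0).mpr h)
    omega
  have hθ := preg_gen p hp ρ.character hχc
  rw [ha] at hθ
  obtain ⟨Sr, hSr⟩ : ∃ Sr : ℝ, Sr = ∑ g : G, if p ∣ orderOf g then 0 else
      Complex.normSq (ρ.character g) := ⟨_, rfl⟩
  have hS : ∑ g : G, (if p ∣ orderOf g then (0 : ℂ) else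
      ρ.character g * conj (ρ.character g)) = (Sr : ℂ) := by
    rw [hSr]
    push_cast
    refine Finset.sum_congr rfl (fun g _ => ?_)
    split_ifs
    · rfl
    · rw [Complex.mul_conj]
  obtain ⟨A, B, hA, hB, hAB⟩ := hθ
  obtain ⟨a, ha'⟩ := inner_char_nat hA hχc
  obtain ⟨b, hb'⟩ := inner_char_nat hB hχc
  have hin : Cfsg.classInner (fun g : G => if p ∣ orderOf g then 0 else
      ((p ^ n : ℕ) : ℂ) * ρ.character g) ρ.character = (((a : ℤ) - (b : ℤ) : ℤ) : ℂ) := by
    rw [hAB, classInner_sub_left, ha', hb']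
    push_cast
    rfl
  have hin2 : Cfsg.classInner (fun g : G => if p ∣ orderOf g then 0 else
      ((p ^ n : ℕ) : ℂ) * ρ.character g) ρ.character =
      (Nat.card G : ℂ)⁻¹ * (((p ^ n : ℕ) : ℂ) * (Sr : ℂ)) := by
    unfold Cfsg.classInner
    congr 1
    rw [← hS, Finset.mul_sum]
    refine Finset.sum_congr rfl (fun g _ => ?_)
    show (if p ∣ orderOf g then (0 : ℂ) else ((p ^ n : ℕ) : ℂ) * ρ.character g) *
      conj (ρ.character g) = _
    split_ifs
    · rw [zero_mul, mul_zero]
    · rw [mul_assoc]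
  obtain ⟨k, hk⟩ : ∃ k : ℤ, k = (a : ℤ) - (b : ℤ) := ⟨_, rfl⟩
  rw [← hk] at hin
  have hk1 : ((p ^ n : ℕ) : ℝ) * Sr = (k : ℝ) * (Nat.card G : ℝ) := by
    have h1 : (((p ^ n : ℕ) : ℂ) * (Sr : ℂ)) = (k : ℂ) * (Nat.card G : ℂ) := by
      rw [hin] at hin2
      rw [hin2]
      field_simp
    exact_mod_cast h1
  have hpn : (0 : ℝ) < ((p ^ n : ℕ) : ℝ) := by exact_mod_cast pow_pos hp.pos n
  have hT : ∑ g : G, Complex.normSq (ρ.character g) = (Nat.card G : ℝ) := by
    have h1 := irr_inner_self hirr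
    unfold Cfsg.classInner at h1
    have h2 : ∑ g : G, ρ.character g * conj (ρ.character g) = (Nat.card G : ℂ) := by
      field_simp at h1
      exact h1
    have h3 : ((∑ g : G, Complex.normSq (ρ.character g) : ℝ) : ℂ) = ((Nat.card G : ℝ) : ℂ) := by
      push_cast
      rw [← h2]
      refine Finset.sum_congr rfl (fun g _ => ?_)
      rw [Complex.mul_conj]
    exact_mod_cast h3
  have hSr_pos : 0 < Sr := by
    rw [hSr]
    apply Finset.sum_pos'
    · intro g _
      split_ifs
      · exact le_refl _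
      · exact Complex.normSq_nonneg _
    · refine ⟨1, Finset.mem_univ _, ?_⟩
      rw [orderOf_one, if_neg (by
        intro h
        exact hp.one_lt.ne' (Nat.dvd_one.mp h))]
      rw [Complex.normSq_pos, Representation.char_one]
      exact hd0
  have hSr_le : Sr ≤ (Nat.card G : ℝ) := by
    rw [hSr, ← hT]
    apply Finset.sum_le_sum
    intro g _
    split_ifs
    · exact Complex.normSq_nonneg _
    · exact le_refl _
  have hint : IsIntegral ℤ ((Sr : ℂ) / (Module.finrank ℂ V : ℂ)) := by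
    have h1 := central_integral_gen ρ
      (fun g : G => if p ∣ orderOf g then 0 else conj (ρ.character g)) ?_ ?_
    · have h2 : ∑ g : G, (if p ∣ orderOf g then (0 : ℂ) else conj (ρ.character g)) *
          ρ.character g = (Sr : ℂ) := by
        rw [← hS]
        refine Finset.sum_congr rfl (fun g _ => ?_)
        split_ifs
        · rw [zero_mul]
        · rw [mul_comm]
      rw [h2] at h1
      exact h1
    · intro g h
      have h1 : orderOf (h * g * h⁻¹) = orderOf g := by
        have h2 := MulEquiv.orderOf_eq (MulAut.conj h) g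
        rw [MulAut.conj_apply] at h2
        exact h2
      show (if p ∣ orderOf (h * g * h⁻¹) then (0 : ℂ) else conj (ρ.character (h * g * h⁻¹))) = _
      rw [h1, Representation.char_conj]
    · intro g
      show IsIntegral ℤ (if p ∣ orderOf g then (0 : ℂ) else conj (ρ.character g))
      split_ifs
      · exact isIntegral_zero
      · rw [← rep_char_inv]
        exact rep_char_isIntegral ρ _
  obtain ⟨m, hm⟩ := hdG
  obtain ⟨d', hd'⟩ := hdeg
  have hpm : ¬ p ∣ m := by
    intro h
    apply hn'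
    obtain ⟨m', hm'⟩ := h
    rw [hm, hd', hm']
    exact ⟨d' * m', by ring⟩
  have hcop : Nat.Coprime (p ^ n) m :=
    Nat.Coprime.pow_left n ((Nat.Prime.coprime_iff_not_dvd hp).mpr hpm)
  have hkpos : 0 < k := by
    have h1 : (0 : ℝ) < (k : ℝ) * (Nat.card G : ℝ) := by
      rw [← hk1]
      exact mul_pos hpn hSr_pos
    have h2 : (0 : ℝ) < (k : ℝ) := by
      by_contra hneg
      push Not at hneg
      have := mul_nonpos_of_nonpos_of_nonneg hneg hGr.le
      linarith
    exact_mod_cast h2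
  obtain ⟨K, hK⟩ : ∃ K : ℕ, k = (K : ℤ) := ⟨k.toNat, (Int.toNat_of_nonneg hkpos.le).symm⟩
  subst hK
  have hdr : ((Module.finrank ℂ V : ℕ) : ℝ) ≠ 0 := by
    intro h
    apply hd0
    exact_mod_cast h
  have hdiv : (Sr : ℂ) / (Module.finrank ℂ V : ℂ) = ((K * m : ℕ) : ℂ) / ((p ^ n : ℕ) : ℂ) := by
    have h1 : Sr / ((Module.finrank ℂ V : ℕ) : ℝ) = ((K * m : ℕ) : ℝ) / ((p ^ n : ℕ) : ℝ) := by
      rw [div_eq_div_iff hdr hpn.ne']
      have h2 : (Nat.card G : ℝ) = ((Module.finrank ℂ V : ℕ) : ℝ) * (m : ℝ) := by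
        exact_mod_cast hm
      have h3 : ((K : ℤ) : ℝ) = (K : ℝ) := by push_cast; rfl
      rw [h3, h2] at hk1
      push_cast
      push_cast at hk1
      linear_combination hk1
    have h4 : (Sr : ℂ) / (Module.finrank ℂ V : ℂ) =
        ((Sr / ((Module.finrank ℂ V : ℕ) : ℝ) : ℝ) : ℂ) := by
      push_cast
      rfl
    rw [h4, h1]
    push_cast
    rfl
  rw [hdiv] at hint
  have hdvd := nat_dvd_of_isIntegral_div _ _ (pow_pos hp.pos n).ne' hint
  have hdvd2 : p ^ n ∣ K := hcop.dvd_of_dvd_mul_right hdvd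
  obtain ⟨K', hK'⟩ := hdvd2
  have hSK : Sr = (K' : ℝ) * (Nat.card G : ℝ) := by
    have h3 : ((K : ℤ) : ℝ) = (K : ℝ) := by push_cast; rfl
    rw [h3, hK'] at hk1
    push_cast at hk1
    have h4 : ((p : ℝ) ^ n) * Sr = ((p : ℝ) ^ n) * ((K' : ℝ) * (Nat.card G : ℝ)) := by
      rw [hk1]
      ring
    have h5 : ((p : ℝ) ^ n) ≠ 0 := by
      have := hpn.ne'
      push_cast at this
      exact this
    exact mul_left_cancel₀ h5 h4
  have hK1 : K' = 1 := by
    have h1 : 0 < K' := by
      rcases Nat.eq_zero_or_pos K' with h | h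
      · rw [h] at hSK
        simp at hSK
        linarith
      · exact h
    have h2 : K' ≤ 1 := by
      by_contra hgt
      push Not at hgt
      have h3 : (2 : ℝ) ≤ (K' : ℝ) := by exact_mod_cast hgt
      nlinarith
    omega
  rw [hK1, Nat.cast_one, one_mul] at hSK
  have hzero : ∑ g : G, (if p ∣ orderOf g then Complex.normSq (ρ.character g) else 0) = 0 := by
    have h1 : ∑ g : G, ((if p ∣ orderOf g then Complex.normSq (ρ.character g) else 0) +
        (if p ∣ orderOf g then 0 else Complex.normSq (ρ.character g))) = (Nat.card G : ℝ) := by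
      rw [← hT]
      refine Finset.sum_congr rfl (fun g _ => ?_)
      split_ifs
      · rw [add_zero]
      · rw [zero_add]
    rw [Finset.sum_add_distrib, ← hSr, hSK] at h1
    linarith
  rw [Finset.sum_eq_zero_iff_of_nonneg] at hzero
  · have h1 := hzero x (Finset.mem_univ _)
    rw [if_pos hx] at h1
    exact Complex.normSq_eq_zero.mp h1
  · intro g _
    split_ifs
    · exact Complex.normSq_nonneg _
    · exact le_refl _

end Cfsg.Agent.Lib.Helper3.CharBrauer6
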