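import Mathlib
import Cfsg.Prelude.Def_Characters
import Cfsg.Prelude.Def_Blocks
import Cfsg.Agent.Lib.Helper3.Char
import Cfsg.Agent.Lib.Helper3.CharCore
import Cfsg.Agent.Lib.Helper3.CharInt
import Cfsg.Agent.Lib.Helper3.CharBrauer6
import Cfsg.Agent.Lib.Helper3.BlkLocal
import Cfsg.Agent.Lib.Helper3.BlkOrth4
import Cfsg.Agent.Lib.Helper3.BlkDef

open Cfsg
open Cfsg.Agent.Lib.Helper3.Char Cfsg.Agent.Lib.Helper3.CharCore Cfsg.Agent.Lib.Helper3.CharInt
open Cfsg.Agent.Lib.Helper3.CharBrauer6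
open Cfsg.Agent.Lib.Helper3.BlkLocal Cfsg.Agent.Lib.Helper3.BlkOrth4
open Cfsg.Agent.Lib.Helper3.BlkDef
open scoped ComplexConjugate

universe u

namespace Cfsg.Agent.Lib.Helper3.BlkDefect2

theorem defect_zero_iff {K : Type u} [Group K] (p : ℕ) (S : Set (Cfsg.IrrCharacter K))
    (hS : S.Nonempty) : Cfsg.blockDefect p S = 0 ↔
      ∀ χ ∈ S, (Nat.card K).factorization p ≤
        (Cfsg.charDegree (χ : K → ℂ)).factorization p := by
  unfold Cfsg.blockDefect
  rw [Nat.sub_eq_zero_iff_le]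
  constructor
  · intro h χ hχ
    exact h.trans (Nat.sInf_le ⟨χ, hχ, rfl⟩)
  · intro h
    obtain ⟨χ0, hχ0⟩ := hS
    have hne : ((fun χ : Cfsg.IrrCharacter K =>
        (Cfsg.charDegree (χ : K → ℂ)).factorization p) '' S).Nonempty := ⟨_, ⟨χ0, hχ0, rfl⟩⟩
    obtain ⟨χ1, hχ1, hχ1'⟩ := Nat.sInf_mem hne
    rw [← hχ1']
    exact h χ1 hχ1

theorem vanish_of_full {K : Type u} [Group K] [Fintype K] {p : ℕ} (hp : p.Prime)
    (ξ : Cfsg.IrrCharacter K)
    (h : (Nat.card K).factorization p ≤ (Cfsg.charDegree (ξ : K → ℂ)).factorization p)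
    (x : K) (hx : p ∣ orderOf x) : (ξ : K → ℂ) x = 0 := by
  obtain ⟨ξ, hξ⟩ := ξ
  obtain ⟨n, ρ, hirr, rfl⟩ := hξ
  have _ir : ρ.IsIrreducible := hirr
  have hK0 : Nat.card K ≠ 0 := Nat.card_pos.ne'
  have hdeg : Cfsg.charDegree ρ.character = Module.finrank ℂ (Fin n → ℂ) :=
    charDegree_eq (Representation.char_one ρ)
  have hfin0 : Module.finrank ℂ (Fin n → ℂ) ≠ 0 := by
    have h0 := finrank_ne_zero_of_irr ρ
    exact_mod_cast h0
  show ρ.character x = 0
  apply defect_zero ρ p ((Nat.card K).factorization p) hp (Nat.ordProj_dvd _ _)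
  · intro h1
    have h2 := (hp.pow_dvd_iff_le_factorization hK0).mp h1
    omega
  · have h3 : (Nat.card K).factorization p ≤
        (Module.finrank ℂ (Fin n → ℂ)).factorization p := by
      rw [← hdeg]
      exact h
    exact (hp.pow_dvd_iff_le_factorization hfin0).mpr h3
  · exact hx

end Cfsg.Agent.Lib.Helper3.BlkDefect2
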