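import Mathlib
import Cfsg.Prelude.Def_Characters
import Cfsg.Prelude.Def_Blocks
import Cfsg.Agent.Lib.Helper3.Char
import Cfsg.Agent.Lib.Helper3.CharCore
import Cfsg.Agent.Lib.Helper3.CharInt
import Cfsg.Agent.Lib.Helper3.BlkLocal
import Cfsg.Agent.Lib.Helper3.BlkMat
import Cfsg.Agent.Lib.Helper3.BlkOsima
import Cfsg.Agent.Lib.Helper3.BlkOrth
import Cfsg.Agent.Lib.Helper3.BlkOrth2
import Cfsg.Agent.Lib.Helper3.BlkCover
import Cfsg.Agent.Lib.Helper3.BlkMinMax

open Cfsg
open Cfsg.Agent.Lib.Helper3.Char Cfsg.Agent.Lib.Helper3.CharCore Cfsg.Agent.Lib.Helper3.CharInt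
open Cfsg.Agent.Lib.Helper3.BlkLocal Cfsg.Agent.Lib.Helper3.BlkMat
open Cfsg.Agent.Lib.Helper3.BlkOsima Cfsg.Agent.Lib.Helper3.BlkOrth
open Cfsg.Agent.Lib.Helper3.BlkOrth2 Cfsg.Agent.Lib.Helper3.BlkCover
open Cfsg.Agent.Lib.Helper3.BlkMinMax
open scoped ComplexConjugate

universe u

namespace Cfsg.Agent.Lib.Helper3.BlkMinMax2

theorem mem_centralizer_conj {G : Type u} [Group G] (g c a : G) :
    a ∈ Subgroup.centralizer ({c * g * c⁻¹} : Set G) ↔
      c⁻¹ * a * c ∈ Subgroup.centralizer ({g} : Set G) := by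
  simp only [Subgroup.mem_centralizer_iff, Set.mem_singleton_iff, forall_eq]
  constructor
  · intro h
    have h1 : g * (c⁻¹ * a * c) = c⁻¹ * (c * g * c⁻¹ * a) * c := by group
    have h2 : c⁻¹ * a * c * g = c⁻¹ * (a * (c * g * c⁻¹)) * c := by group
    rw [h1, h2, h]
  · intro h
    have h1 : c * g * c⁻¹ * a = c * (g * (c⁻¹ * a * c)) * c⁻¹ := by group
    have h2 : a * (c * g * c⁻¹) = c * (c⁻¹ * a * c * g) * c⁻¹ := by group
    rw [h1, h2, h]

theorem card_centralizer_conj {G : Type u} [Group G] (g c : G) :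
    Nat.card (Subgroup.centralizer ({c * g * c⁻¹} : Set G)) =
      Nat.card (Subgroup.centralizer ({g} : Set G)) := by
  apply Nat.card_congr
  refine Equiv.subtypeEquiv (MulAut.conj c⁻¹).toEquiv ?_
  intro a
  rw [mem_centralizer_conj]
  simp

theorem cc_conj {G : Type u} [Group G] [Finite G] (χ : G → ℂ) (hχ : Cfsg.IsClassFunction G χ)
    (g c : G) : Cfsg.centralChar χ (c * g * c⁻¹) = Cfsg.centralChar χ g := by
  unfold Cfsg.centralChar
  rw [hχ g c]
  congr 2
  have h1 := Subgroup.card_mul_index (Subgroup.centralizer ({c * g * c⁻¹} : Set G))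
  have h2 := Subgroup.card_mul_index (Subgroup.centralizer ({g} : Set G))
  rw [card_centralizer_conj, ← h2] at h1
  have h3 := Nat.eq_of_mul_eq_mul_left Nat.card_pos h1
  rw [h3]

theorem defectGroup_conj {p : ℕ} [Fact p.Prime] {M : Ideal AlgInt} {G : Type u} [Group G]
    [Finite G] (B : Set (Cfsg.IrrCharacter G)) (E : Subgroup G)
    (hE : Cfsg.IsDefectGroup p M B E) (c : G) :
    Cfsg.IsDefectGroup p M B (E.map (MulAut.conj c).toMonoidHom) := by
  obtain ⟨g, ⟨hg1, hg2, hg3⟩, P, hP⟩ := hE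
  have hcf := blockCoeff_classFun B
  refine ⟨c * g * c⁻¹, ⟨?_, ?_, ?_⟩, ?_⟩
  · rw [hcf g c]
    exact hg1
  · rw [hcf g c]
    exact hg2
  · intro χ hχ
    rw [cc_conj _ (char_classFun (isCharacter_of_irr χ.2))]
    exact hg3 χ hχ
  · have hle : E.map (MulAut.conj c).toMonoidHom ≤
        Subgroup.centralizer ({c * g * c⁻¹} : Set G) := by
      intro r hr
      rw [Subgroup.mem_map] at hr
      obtain ⟨e, he, rfl⟩ := hr
      rw [mem_centralizer_conj]
      rw [hP] at he
      obtain ⟨y, _, rfl⟩ := he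
      simp only [MulEquiv.coe_toMonoidHom, MulAut.conj_apply]
      have e1 : c⁻¹ * (c * ((Subgroup.centralizer ({g} : Set G)).subtype y) * c⁻¹) * c =
          (y : G) := by
        simp [mul_assoc]
      rw [e1]
      exact y.2
    have hcard : Nat.card ((E.map (MulAut.conj c).toMonoidHom).subgroupOf
        (Subgroup.centralizer ({c * g * c⁻¹} : Set G))) =
        p ^ (Nat.card (Subgroup.centralizer ({c * g * c⁻¹} : Set G))).factorization p := by
      rw [card_centralizer_conj, Nat.card_congr (Subgroup.subgroupOfEquivOfLe hle).toEquiv,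
        Subgroup.card_map_of_injective (MulAut.conj c).injective, hP,
        Subgroup.card_map_of_injective (Subgroup.subtype_injective _)]
      exact Sylow.card_eq_multiplicity P
    refine ⟨Sylow.ofCard _ hcard, ?_⟩
    rw [Sylow.coe_ofCard, Subgroup.map_subgroupOf_eq_of_le hle]

end Cfsg.Agent.Lib.Helper3.BlkMinMax2
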