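import Mathlib
import Cfsg.Prelude.Def_Characters
import Cfsg.Prelude.Def_Blocks
import Cfsg.Agent.Lib.Helper3.Char
import Cfsg.Agent.Lib.Helper3.CharCore
import Cfsg.Agent.Lib.Helper3.CharInt
import Cfsg.Agent.Lib.Helper3.BlkLocal
import Cfsg.Agent.Lib.Helper3.BlkMat
import Cfsg.Agent.Lib.Helper3.BlkOsima
import Cfsg.Agent.Lib.Helper3.BlkOrth
import Cfsg.Agent.Lib.Helper3.BlkOrth2
import Cfsg.Agent.Lib.Helper3.BlkOrth4
import Cfsg.Agent.Lib.Helper3.BlkCover
import Cfsg.Agent.Lib.Helper3.BlkMinMax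
import Cfsg.Agent.Lib.Helper3.BlkBrauer
import Cfsg.Agent.Lib.Helper3.BlkLam
import Cfsg.Agent.Lib.Helper3.BlkBr
import Cfsg.Agent.Lib.Helper3.BlkFirst
import Cfsg.Agent.Lib.Helper3.Core
import Cfsg.Agent.S0923
import Cfsg.Agent.S0908
import Cfsg.Agent.S0912
import Cfsg.Agent.S0917

open Cfsg
open Cfsg.Agent.Lib.Helper3.Char Cfsg.Agent.Lib.Helper3.CharCore Cfsg.Agent.Lib.Helper3.CharInt
open Cfsg.Agent.Lib.Helper3.BlkLocal Cfsg.Agent.Lib.Helper3.BlkMat
open Cfsg.Agent.Lib.Helper3.BlkOsima Cfsg.Agent.Lib.Helper3.BlkOrth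
open Cfsg.Agent.Lib.Helper3.BlkOrth2 Cfsg.Agent.Lib.Helper3.BlkOrth4
open Cfsg.Agent.Lib.Helper3.BlkCover Cfsg.Agent.Lib.Helper3.BlkMinMax
open Cfsg.Agent.Lib.Helper3.BlkBrauer Cfsg.Agent.Lib.Helper3.BlkLam
open Cfsg.Agent.Lib.Helper3.BlkBr Cfsg.Agent.Lib.Helper3.BlkFirst Cfsg.Agent.Lib.Helper3.Core
open scoped ComplexConjugate

universe u

namespace Cfsg.Agent.Lib.Helper3.BlkFirst2

theorem first_main_exists {G : Type u} [Group G] [Finite G] {p : ℕ} [Fact p.Prime]
    {M : Ideal AlgInt} (hM : IsPModular p M) (B : Set (Cfsg.IrrCharacter G))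
    (hB : Cfsg.IsPBlock M B) (D : Subgroup G) (hD : Cfsg.IsDefectGroup p M B D) :
    ∃ b : Set (Cfsg.IrrCharacter (Subgroup.normalizer (D : Set G))),
      Cfsg.IsInducedBlock M (Subgroup.normalizer (D : Set G)) b B ∧
      ∀ Db : Subgroup (Subgroup.normalizer (D : Set G)), Cfsg.IsDefectGroup p M b Db →
        Db.map (Subgroup.normalizer (D : Set G)).subtype = D := by
  classical
  have _fg : Fintype G := Fintype.ofFinite G
  have hMp := hM.2.1.isPrime
  have hcardD := Cfsg.Agent.S0908.result p M hM B hB D hD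
  have hDp : IsPGroup p D := IsPGroup.of_card hcardD
  obtain ⟨y, hy, S, hS⟩ := id hD
  have hyc : y ∈ Subgroup.centralizer (D : Set G) := by
    rw [Subgroup.mem_centralizer_iff]
    intro d hd
    rw [hS] at hd
    obtain ⟨c, _, rfl⟩ := Subgroup.mem_map.mp hd
    have h1 := c.2
    rw [Subgroup.mem_centralizer_iff] at h1
    exact (h1 y rfl).symm
  have _fn : Fintype (Subgroup.normalizer (D : Set G)) := Fintype.ofFinite _
  obtain ⟨b, hbind⟩ := exists_induced hM D (Subgroup.normalizer (D : Set G)) hDp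
    Subgroup.le_normalizer (Subgroup.centralizer_le_normalizer _) le_rfl B hB y hyc hy.2.1
  refine ⟨b, hbind, ?_⟩
  intro Db hDb
  have h912 := Cfsg.Agent.S0912.result p M hM b hbind.1 _ hDb
  obtain ⟨E, hE, hle⟩ := Cfsg.Agent.S0917.result p M hM _ b hbind.1 B hB hbind _ hDb
  have hcardE := Cfsg.Agent.S0908.result p M hM B hB E hE
  have hsub : D ≤ Db.map (Subgroup.normalizer (D : Set G)).subtype := by
    have h1 : D.subgroupOf (Subgroup.normalizer (D : Set G)) ≤
        Cfsg.pCore p (Subgroup.normalizer (D : Set G)) := by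
      apply le_pCore
      · exact Subgroup.normal_in_normalizer
      · exact hDp.comap_subtype
    intro d hd
    exact Subgroup.mem_map.mpr ⟨⟨d, Subgroup.le_normalizer hd⟩,
      h912 (h1 (Subgroup.mem_subgroupOf.mpr hd)), rfl⟩
  apply (Subgroup.eq_of_le_of_card_ge hsub ?_).symm
  calc Nat.card (Db.map (Subgroup.normalizer (D : Set G)).subtype) ≤ Nat.card E :=
        Subgroup.card_le_of_le hle
    _ = Nat.card D := by rw [hcardE, hcardD]

theorem ind_li_of_forall {M : Ideal AlgInt} (hMp : M.IsPrime) {G : Type u} [Group G] [Fintype G]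
    (H : Subgroup G) [Fintype H] (ξ : Cfsg.IrrCharacter H) (g : G)
    (hall : ∀ h : H, IsConj g (h : G) → MemLocalIdeal M (Cfsg.centralChar (ξ : H → ℂ) h)) :
    MemLocalIdeal M (Cfsg.inducedCentralChar H (ξ : H → ℂ) g) := by
  classical
  have _k : Fintype (ConjClasses H) := Fintype.ofFinite _
  have hcf : Cfsg.IsClassFunction H (fun h : H => if IsConj g (h : G) then (1 : ℂ) else 0) := by
    intro h k
    have e : IsConj g ((k * h * k⁻¹ : H) : G) ↔ IsConj g (h : G) := by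
      have e1 : IsConj (h : G) ((k * h * k⁻¹ : H) : G) := by
        rw [isConj_iff]
        exact ⟨(k : G), by simp⟩
      constructor
      · intro h2
        exact h2.trans e1.symm
      · intro h2
        exact h2.trans e1
    show (if IsConj g ((k * h * k⁻¹ : H) : G) then (1 : ℂ) else 0) =
      if IsConj g (h : G) then 1 else 0
    simp only [e]
  have h3 : Cfsg.inducedCentralChar H (ξ : H → ℂ) g =
      (∑ h : H, (if IsConj g (h : G) then (1 : ℂ) else 0) * (ξ : H → ℂ) h) /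
        (ξ : H → ℂ) 1 := by
    unfold Cfsg.inducedCentralChar
    rw [finsum_mem_ite, Finset.sum_div]
    refine Finset.sum_congr rfl (fun h _ => ?_)
    by_cases hc : IsConj g (h : G)
    · rw [if_pos hc, if_pos (by exact hc), one_mul]
    · rw [if_neg hc, if_neg (by exact hc), zero_mul, zero_div]
  rw [h3, om_classes _ hcf (ξ : H → ℂ) (char_classFun (isCharacter_of_irr ξ.2))]
  apply li_sum hMp
  intro C _
  by_cases hc : IsConj g ((Quotient.out C : H) : G)
  · rw [if_pos hc, one_mul]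
    exact hall _ hc
  · rw [if_neg hc, zero_mul]
    exact li_zero hMp

theorem ppart_sub {G : Type*} [Group G] (p : ℕ) (H : Subgroup G) (h : H)
    (z : G) (hz : Cfsg.IsPPart p (h : G) z) (hzH : z ∈ H) :
    Cfsg.IsPPart p h (⟨z, hzH⟩ : H) := by
  obtain ⟨y, hxy, hc, ⟨k, hk⟩, hy⟩ := hz
  have hyH : y ∈ H := by
    have h1 : y = z⁻¹ * (h : G) := by
      rw [← hxy, inv_mul_cancel_left]
    rw [h1]
    exact H.mul_mem (H.inv_mem hzH) h.2
  refine ⟨⟨y, hyH⟩, Subtype.ext hxy, ?_, ⟨k, ?_⟩, ?_⟩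
  · exact Subtype.ext hc.eq
  · rw [← hk]
    exact (Subgroup.orderOf_coe (⟨z, hzH⟩ : H)).symm
  · rw [← Subgroup.orderOf_coe (⟨y, hyH⟩ : H)]
    exact hy

end Cfsg.Agent.Lib.Helper3.BlkFirst2
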