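import Mathlib

set_option autoImplicit false

namespace Cfsg.Agent.Lib.Helper3.GrpSyl

theorem mem_normalizer_of_conj_le {G : Type*} [Group G] (P : Subgroup G) [Finite P] (n : G)
    (h : ∀ x ∈ P, n * x * n⁻¹ ∈ P) : n ∈ Subgroup.normalizer (P : Set G) := by
  have hle : P.map (MulAut.conj n).toMonoidHom ≤ P := by
    rintro y ⟨x, hx, rfl⟩
    have h1 := h x hx
    simpa [MulAut.conj_apply] using h1
  have hcard : Nat.card P ≤ Nat.card (P.map (MulAut.conj n).toMonoidHom) := by
    rw [Subgroup.card_map_of_injective (MulAut.conj n).injective]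
  have heq := Subgroup.eq_of_le_of_card_ge hle hcard
  rw [Subgroup.mem_normalizer_iff]
  intro x
  constructor
  · exact h x
  · intro hx
    have hx' := (SetLike.ext_iff.mp heq (n * x * n⁻¹)).mpr hx
    obtain ⟨y, hy, hyx⟩ := hx'
    have h1 : n * y * n⁻¹ = n * x * n⁻¹ := by simpa [MulAut.conj_apply] using hyx
    have h2 : y = x := mul_left_cancel (mul_right_cancel h1)
    rw [← h2]
    exact hy

theorem sylow_conj_le' {p : ℕ} [Fact p.Prime] {G : Type*} [Group G] [Finite G] (g : G)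
    (D : Sylow p (Subgroup.centralizer ({g} : Set G))) (R : Subgroup G) (hR : IsPGroup p R)
    (hc : ∀ r ∈ R, r * g = g * r) :
    ∃ k : G, k * g = g * k ∧ R ≤ ((D : Subgroup (Subgroup.centralizer ({g} : Set G))).map
      (Subgroup.centralizer ({g} : Set G)).subtype).map (MulAut.conj k).toMonoidHom := by
  have hRC : R ≤ Subgroup.centralizer ({g} : Set G) := by
    intro r hr
    rw [Subgroup.mem_centralizer_iff]
    intro h hh
    rw [Set.mem_singleton_iff.mp hh]
    exact (hc r hr).symm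
  have hR' : IsPGroup p (R.subgroupOf (Subgroup.centralizer ({g} : Set G))) :=
    hR.comap_subtype
  obtain ⟨S, hS⟩ := hR'.exists_le_sylow
  obtain ⟨k, hk⟩ := MulAction.exists_smul_eq (Subgroup.centralizer ({g} : Set G)) D S
  refine ⟨(k : G), ?_, ?_⟩
  · exact (Subgroup.mem_centralizer_iff.mp k.2 g rfl).symm
  intro r hr
  have h1 : (⟨r, hRC hr⟩ : Subgroup.centralizer ({g} : Set G)) ∈ S :=
    hS (by rw [Subgroup.mem_subgroupOf]; exact hr)
  rw [← hk] at h1
  have h1' : (⟨r, hRC hr⟩ : Subgroup.centralizer ({g} : Set G)) ∈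
      ((k • D : Sylow p (Subgroup.centralizer ({g} : Set G))) :
        Subgroup (Subgroup.centralizer ({g} : Set G))) := h1
  rw [Sylow.coe_subgroup_smul, Subgroup.mem_pointwise_smul_iff_inv_smul_mem, ← map_inv,
    MulAut.smul_def, MulAut.conj_apply] at h1'
  rw [Subgroup.mem_map]
  refine ⟨(k : G)⁻¹ * r * (k : G), ?_, ?_⟩
  · rw [Subgroup.mem_map]
    refine ⟨_, h1', ?_⟩
    simp
  · simp [mul_assoc]

theorem fusion_norm {p : ℕ} [Fact p.Prime] {G : Type*} [Group G] [Finite G] (P : Subgroup G)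
    (g : G) (S : Sylow p (Subgroup.centralizer ({g} : Set G)))
    (hS : (S : Subgroup (Subgroup.centralizer ({g} : Set G))).map
      (Subgroup.centralizer ({g} : Set G)).subtype = P) (c : G)
    (hc : IsConj g c) (hcP : c ∈ Subgroup.centralizer (P : Set G)) :
    ∃ n ∈ Subgroup.normalizer (P : Set G), n * g * n⁻¹ = c := by
  obtain ⟨a, ha⟩ := isConj_iff.mp hc
  have hPp : IsPGroup p P := by
    rw [← hS]
    exact S.isPGroup'.map _
  have hRp : IsPGroup p (P.map (MulAut.conj a⁻¹).toMonoidHom) := hPp.map _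
  have hRc : ∀ r ∈ P.map (MulAut.conj a⁻¹).toMonoidHom, r * g = g * r := by
    rintro r ⟨x, hx, rfl⟩
    have h1 := Subgroup.mem_centralizer_iff.mp hcP x hx
    rw [← ha] at h1
    simp only [MulEquiv.coe_toMonoidHom, MulAut.conj_apply, inv_inv]
    have h2 : a⁻¹ * x * a * g = a⁻¹ * (x * (a * g * a⁻¹)) * a := by group
    rw [h2, h1]
    group
  obtain ⟨k, hkg, hk⟩ := sylow_conj_le' g S _ hRp hRc
  rw [hS] at hk
  refine ⟨a * k, ?_, ?_⟩
  · apply mem_normalizer_of_conj_le
    intro x hx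
    have heq : P.map (MulAut.conj a⁻¹).toMonoidHom = P.map (MulAut.conj k).toMonoidHom := by
      apply Subgroup.eq_of_le_of_card_ge hk
      rw [Subgroup.card_map_of_injective (MulAut.conj k).injective,
        Subgroup.card_map_of_injective (MulAut.conj a⁻¹).injective]
    have h1 : k * x * k⁻¹ ∈ P.map (MulAut.conj k).toMonoidHom :=
      ⟨x, hx, by simp [MulAut.conj_apply]⟩
    rw [← heq] at h1
    obtain ⟨y, hy, hyx⟩ := h1
    have h2 : a⁻¹ * y * a = k * x * k⁻¹ := by simpa [MulAut.conj_apply] using hyx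
    have h3 : a * k * x * (a * k)⁻¹ = y := by
      have h4 : a * k * x * (a * k)⁻¹ = a * (k * x * k⁻¹) * a⁻¹ := by group
      rw [h4, ← h2]
      group
    rw [h3]
    exact hy
  · have h1 : a * k * g * (a * k)⁻¹ = a * (k * g * k⁻¹) * a⁻¹ := by group
    rw [h1, hkg, mul_inv_cancel_right]
    exact ha

theorem sylow_of_local {p : ℕ} [hp : Fact p.Prime] {G : Type*} [Group G] [Finite G]
    (P : Subgroup G) (c : G) (hcP : c ∈ Subgroup.centralizer (P : Set G))
    (S : Sylow p (Subgroup.centralizer ({c} : Set G) ⊓ Subgroup.normalizer (P : Set G) :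
      Subgroup G))
    (hS : (S : Subgroup ↥(Subgroup.centralizer ({c} : Set G) ⊓
      Subgroup.normalizer (P : Set G))).map
      (Subgroup.centralizer ({c} : Set G) ⊓ Subgroup.normalizer (P : Set G)).subtype = P) :
    ∃ S' : Sylow p (Subgroup.centralizer ({c} : Set G)),
      (S' : Subgroup (Subgroup.centralizer ({c} : Set G))).map
        (Subgroup.centralizer ({c} : Set G)).subtype = P := by
  have hPp : IsPGroup p P := by
    rw [← hS]
    exact S.isPGroup'.map _
  have hPC : P ≤ Subgroup.centralizer ({c} : Set G) := by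
    intro x hx
    rw [Subgroup.mem_centralizer_iff]
    intro h hh
    rw [Set.mem_singleton_iff.mp hh]
    exact (Subgroup.mem_centralizer_iff.mp hcP x hx).symm
  have hPsub : IsPGroup p (P.subgroupOf (Subgroup.centralizer ({c} : Set G))) :=
    hPp.comap_subtype
  obtain ⟨T, hT⟩ := hPsub.exists_le_sylow
  refine ⟨T, ?_⟩
  obtain ⟨T', hT'⟩ : ∃ T' : Subgroup G, T' = (T : Subgroup (Subgroup.centralizer ({c} : Set G))).map
      (Subgroup.centralizer ({c} : Set G)).subtype := ⟨_, rfl⟩
  rw [← hT']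
  have hPT' : P ≤ T' := by
    intro x hx
    rw [hT']
    exact ⟨⟨x, hPC hx⟩, hT (Subgroup.mem_subgroupOf.mpr hx), rfl⟩
  have hT'C : T' ≤ Subgroup.centralizer ({c} : Set G) := by
    rw [hT']
    rintro y ⟨t, _, rfl⟩
    exact t.2
  have hT'p : IsPGroup p T' := by
    rw [hT']
    exact T.isPGroup'.map _
  by_contra hne
  have hlt : P.subgroupOf T' < ⊤ := by
    rw [lt_top_iff_ne_top, Ne, Subgroup.subgroupOf_eq_top]
    intro hle
    exact hne (le_antisymm hle hPT')
  have hnil : Group.IsNilpotent T' := hT'p.isNilpotent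
  have hnc := (Group.normalizerCondition_of_isNilpotent (G := T')) (P.subgroupOf T') hlt
  obtain ⟨r, hrN, hrP⟩ := SetLike.exists_of_lt hnc
  have hrP' : (r : G) ∉ P := fun h => hrP (Subgroup.mem_subgroupOf.mpr h)
  have hrNP : (r : G) ∈ Subgroup.normalizer (P : Set G) := by
    apply mem_normalizer_of_conj_le
    intro x hx
    have h1 := (Subgroup.mem_normalizer_iff.mp hrN ⟨x, hPT' hx⟩).mp
      (Subgroup.mem_subgroupOf.mpr hx)
    have h2 := Subgroup.mem_subgroupOf.mp h1
    simpa using h2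
  have hQp : IsPGroup p ((T' ⊓ Subgroup.normalizer (P : Set G)).subgroupOf
      (Subgroup.centralizer ({c} : Set G) ⊓ Subgroup.normalizer (P : Set G))) :=
    (hT'p.to_le inf_le_left).comap_subtype
  have hSle : (S : Subgroup ↥(Subgroup.centralizer ({c} : Set G) ⊓
      Subgroup.normalizer (P : Set G))) ≤
      (T' ⊓ Subgroup.normalizer (P : Set G)).subgroupOf
        (Subgroup.centralizer ({c} : Set G) ⊓ Subgroup.normalizer (P : Set G)) := by
    intro s hs
    rw [Subgroup.mem_subgroupOf]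
    have h1 : (s : G) ∈ P := (SetLike.ext_iff.mp hS (s : G)).mp ⟨s, hs, rfl⟩
    exact ⟨hPT' h1, s.2.2⟩
  have hQeq := S.is_maximal' hQp hSle
  have hrK : (r : G) ∈ Subgroup.centralizer ({c} : Set G) ⊓ Subgroup.normalizer (P : Set G) :=
    ⟨hT'C r.2, hrNP⟩
  have hrQ : (⟨(r : G), hrK⟩ : ↥(Subgroup.centralizer ({c} : Set G) ⊓
      Subgroup.normalizer (P : Set G))) ∈
      (T' ⊓ Subgroup.normalizer (P : Set G)).subgroupOf
        (Subgroup.centralizer ({c} : Set G) ⊓ Subgroup.normalizer (P : Set G)) := by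
    rw [Subgroup.mem_subgroupOf]
    exact ⟨r.2, hrNP⟩
  rw [hQeq] at hrQ
  apply hrP'
  exact (SetLike.ext_iff.mp hS (r : G)).mp ⟨⟨(r : G), hrK⟩, hrQ, rfl⟩

end Cfsg.Agent.Lib.Helper3.GrpSyl
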