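import Mathlib
import Cfsg.Prelude.Def_Characters
import Cfsg.Prelude.Def_Blocks
import Cfsg.Agent.Lib.Helper3.Char
import Cfsg.Agent.Lib.Helper3.CharCore
import Cfsg.Agent.Lib.Helper3.CharInt
import Cfsg.Agent.Lib.Helper3.BlkLocal
import Cfsg.Agent.Lib.Helper3.BlkMat
import Cfsg.Agent.Lib.Helper3.BlkOsima
import Cfsg.Agent.Lib.Helper3.BlkOrth
import Cfsg.Agent.Lib.Helper3.BlkOrth2
import Cfsg.Agent.Lib.Helper3.BlkOrth4
import Cfsg.Agent.Lib.Helper3.BlkCover
import Cfsg.Agent.Lib.Helper3.BlkMinMax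
import Cfsg.Agent.Lib.Helper3.BlkBrauer
import Cfsg.Agent.Lib.Helper3.BlkLam
import Cfsg.Agent.Lib.Helper3.BlkBr
import Cfsg.Agent.Lib.Helper3.BlkFirst
import Cfsg.Agent.Lib.Helper3.Core
import Cfsg.Agent.Lib.Helper3.BlkFirst2
import Cfsg.Agent.Lib.Helper3.GrpSyl
import Cfsg.Agent.Lib.Helper3.BlkCore
import Cfsg.Agent.S0923
import Cfsg.Agent.S0911
import Cfsg.Agent.S0908
import Cfsg.Agent.S0912
import Cfsg.Agent.S0917

open Cfsg
open Cfsg.Agent.Lib.Helper3.Char Cfsg.Agent.Lib.Helper3.CharCore Cfsg.Agent.Lib.Helper3.CharInt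
open Cfsg.Agent.Lib.Helper3.BlkLocal Cfsg.Agent.Lib.Helper3.BlkMat
open Cfsg.Agent.Lib.Helper3.BlkOsima Cfsg.Agent.Lib.Helper3.BlkOrth
open Cfsg.Agent.Lib.Helper3.BlkOrth2 Cfsg.Agent.Lib.Helper3.BlkOrth4
open Cfsg.Agent.Lib.Helper3.BlkCover Cfsg.Agent.Lib.Helper3.BlkMinMax
open Cfsg.Agent.Lib.Helper3.BlkBrauer Cfsg.Agent.Lib.Helper3.BlkLam
open Cfsg.Agent.Lib.Helper3.BlkBr Cfsg.Agent.Lib.Helper3.BlkFirst Cfsg.Agent.Lib.Helper3.Core
open Cfsg.Agent.Lib.Helper3.BlkFirst2 Cfsg.Agent.Lib.Helper3.GrpSyl Cfsg.Agent.Lib.Helper3.BlkCore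
open scoped ComplexConjugate

universe u

namespace Cfsg.Agent.Lib.Helper3.BlkFirst3

theorem sylow_cent {p : ℕ} [hp : Fact p.Prime] {G : Type u} [Group G] [Finite G]
    (D : Subgroup G) (z : Subgroup.normalizer (D : Set G))
    (T : Sylow p (Subgroup.centralizer ({z} : Set (Subgroup.normalizer (D : Set G)))))
    (hT : (T : Subgroup (Subgroup.centralizer ({z} : Set (Subgroup.normalizer (D : Set G))))).map
      (Subgroup.centralizer ({z} : Set (Subgroup.normalizer (D : Set G)))).subtype =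
      D.subgroupOf (Subgroup.normalizer (D : Set G))) :
    (z : G) ∈ Subgroup.centralizer (D : Set G) ∧
    ∃ S' : Sylow p (Subgroup.centralizer ({(z : G)} : Set G)),
      (S' : Subgroup (Subgroup.centralizer ({(z : G)} : Set G))).map
        (Subgroup.centralizer ({(z : G)} : Set G)).subtype = D := by
  have hcomm : ∀ d ∈ D, (z : G) * d = d * (z : G) := by
    intro d hd
    have h1 : (⟨d, Subgroup.le_normalizer hd⟩ : Subgroup.normalizer (D : Set G)) ∈
        D.subgroupOf (Subgroup.normalizer (D : Set G)) := Subgroup.mem_subgroupOf.mpr hd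
    have h2 := (SetLike.ext_iff.mp hT _).mpr h1
    obtain ⟨t, _, ht⟩ := h2
    have h3 := Subgroup.mem_centralizer_iff.mp t.2 z rfl
    have h4 : (t : Subgroup.normalizer (D : Set G)) = ⟨d, Subgroup.le_normalizer hd⟩ := ht
    rw [h4] at h3
    exact congrArg (fun k : Subgroup.normalizer (D : Set G) => (k : G)) h3
  have hzD : (z : G) ∈ Subgroup.centralizer (D : Set G) := by
    rw [Subgroup.mem_centralizer_iff]
    intro d hd
    exact (hcomm d hd).symm
  refine ⟨hzD, ?_⟩
  have hDK : D ≤ Subgroup.centralizer ({(z : G)} : Set G) ⊓ Subgroup.normalizer (D : Set G) := by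
    intro d hd
    have h1 : d ∈ Subgroup.centralizer ({(z : G)} : Set G) := by
      rw [Subgroup.mem_centralizer_iff]
      intro h hh
      rw [Set.mem_singleton_iff.mp hh]
      exact hcomm d hd
    exact ⟨h1, Subgroup.le_normalizer hd⟩
  have hmapK : (Subgroup.centralizer ({z} : Set (Subgroup.normalizer (D : Set G)))).map
      (Subgroup.normalizer (D : Set G)).subtype =
      Subgroup.centralizer ({(z : G)} : Set G) ⊓ Subgroup.normalizer (D : Set G) := by
    ext x
    constructor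
    · rintro ⟨n, hn, rfl⟩
      have h0 : (n : G) ∈ Subgroup.centralizer ({(z : G)} : Set G) := by
        rw [Subgroup.mem_centralizer_iff]
        intro h hh
        rw [Set.mem_singleton_iff.mp hh]
        have h1 := Subgroup.mem_centralizer_iff.mp hn z rfl
        exact congrArg (fun k : Subgroup.normalizer (D : Set G) => (k : G)) h1
      exact ⟨h0, n.2⟩
    · rintro ⟨hx1, hx2⟩
      have hx1' : x ∈ Subgroup.centralizer ({(z : G)} : Set G) := hx1
      have h0 : (⟨x, hx2⟩ : Subgroup.normalizer (D : Set G)) ∈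
          Subgroup.centralizer ({z} : Set (Subgroup.normalizer (D : Set G))) := by
        rw [Subgroup.mem_centralizer_iff]
        intro h hh
        rw [Set.mem_singleton_iff.mp hh]
        apply Subtype.ext
        exact Subgroup.mem_centralizer_iff.mp hx1' (z : G) rfl
      exact ⟨⟨x, hx2⟩, h0, rfl⟩
  have hcardK : Nat.card (Subgroup.centralizer ({z} : Set (Subgroup.normalizer (D : Set G)))) =
      Nat.card ↥(Subgroup.centralizer ({(z : G)} : Set G) ⊓ Subgroup.normalizer (D : Set G)) := by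
    rw [← hmapK, Subgroup.card_map_of_injective (Subgroup.subtype_injective _)]
  have hcardT := T.card_eq_multiplicity
  have hcardD : Nat.card D = Nat.card T := by
    have h1 : Nat.card ((T : Subgroup (Subgroup.centralizer
        ({z} : Set (Subgroup.normalizer (D : Set G))))).map
        (Subgroup.centralizer ({z} : Set (Subgroup.normalizer (D : Set G)))).subtype) =
        Nat.card T := Subgroup.card_map_of_injective (Subgroup.subtype_injective _)
    rw [hT] at h1
    rw [← h1]
    exact (Nat.card_congr (Subgroup.subgroupOfEquivOfLe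
      (Subgroup.le_normalizer (H := D))).toEquiv).symm
  have hcard : Nat.card ↥(D.subgroupOf (Subgroup.centralizer ({(z : G)} : Set G) ⊓
      Subgroup.normalizer (D : Set G))) =
      p ^ (Nat.card ↥(Subgroup.centralizer ({(z : G)} : Set G) ⊓
        Subgroup.normalizer (D : Set G))).factorization p := by
    rw [Nat.card_congr (Subgroup.subgroupOfEquivOfLe hDK).toEquiv, hcardD, hcardT, hcardK]
  have hS₁ : ((Sylow.ofCard _ hcard : Sylow p ↥(Subgroup.centralizer ({(z : G)} : Set G) ⊓
      Subgroup.normalizer (D : Set G))) : Subgroup ↥(Subgroup.centralizer ({(z : G)} : Set G) ⊓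
      Subgroup.normalizer (D : Set G))).map
      (Subgroup.centralizer ({(z : G)} : Set G) ⊓ Subgroup.normalizer (D : Set G)).subtype = D := by
    rw [Sylow.coe_ofCard]
    exact Subgroup.map_subgroupOf_eq_of_le hDK
  exact sylow_of_local D (z : G) hzD _ hS₁

theorem brauer_eq_cc {p : ℕ} [hp : Fact p.Prime] {G : Type u} [Group G] [Finite G]
    (D : Subgroup G) (z : Subgroup.normalizer (D : Set G))
    (T : Sylow p (Subgroup.centralizer ({z} : Set (Subgroup.normalizer (D : Set G)))))
    (hT : (T : Subgroup (Subgroup.centralizer ({z} : Set (Subgroup.normalizer (D : Set G))))).map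
      (Subgroup.centralizer ({z} : Set (Subgroup.normalizer (D : Set G)))).subtype =
      D.subgroupOf (Subgroup.normalizer (D : Set G)))
    (ξ : Subgroup.normalizer (D : Set G) → ℂ)
    (hξ : Cfsg.IsClassFunction (Subgroup.normalizer (D : Set G)) ξ) :
    Cfsg.brauerCentralChar D (Subgroup.normalizer (D : Set G)) ξ (z : G) =
      Cfsg.centralChar ξ z := by
  classical
  have _fn : Fintype (Subgroup.normalizer (D : Set G)) := Fintype.ofFinite _
  obtain ⟨hzD, S', hS'⟩ := sylow_cent D z T hT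
  have hset : {h : Subgroup.normalizer (D : Set G) | IsConj (z : G) (h : G) ∧
      (h : G) ∈ Subgroup.centralizer (D : Set G)} =
      {h : Subgroup.normalizer (D : Set G) | IsConj z h} := by
    ext h
    simp only [Set.mem_ofPred_eq]
    constructor
    · rintro ⟨h1, h2⟩
      obtain ⟨n, hn, hn2⟩ := fusion_norm D (z : G) S' hS' (h : G) h1 h2
      exact isConj_iff.mpr ⟨⟨n, hn⟩, Subtype.ext (by simpa using hn2)⟩
    · intro h1
      obtain ⟨n, hn⟩ := isConj_iff.mp h1
      have h2 : (n : G) * (z : G) * (n : G)⁻¹ = (h : G) := by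
        have h3 := congrArg (fun k : Subgroup.normalizer (D : Set G) => (k : G)) hn
        simpa using h3
      refine ⟨isConj_iff.mpr ⟨(n : G), h2⟩, ?_⟩
      rw [← h2]
      exact (cent_conj_iff D (n : G) (z : G) n.2).mpr hzD
  unfold Cfsg.brauerCentralChar
  rw [hset, finsum_mem_ite, cc_eq_sum ξ hξ z, Finset.sum_div]
  refine Finset.sum_congr rfl (fun h _ => ?_)
  by_cases hc : IsConj z h
  · rw [if_pos hc, if_pos (by exact hc), one_mul]
  · rw [if_neg hc, if_neg (by exact hc), zero_mul, zero_div]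

theorem cc_li_of_not_cent {p : ℕ} {M : Ideal AlgInt} (hM : IsPModular p M) {G : Type u}
    [Group G] [Finite G] (Q : Subgroup G) [hQn : Q.Normal] (hQ : IsPGroup p Q)
    (b : Set (Cfsg.IrrCharacter G)) (hb : Cfsg.IsPBlock M b) (ξ : Cfsg.IrrCharacter G)
    (hξ : ξ ∈ b) (z : G) (hz : ∃ u ∈ Q, u * z ≠ z * u) :
    MemLocalIdeal M (Cfsg.centralChar (ξ : G → ℂ) z) := by
  have _fg : Fintype G := Fintype.ofFinite G
  have hMp := hM.2.1.isPrime
  obtain ⟨ξ₀, hξ₀, hker⟩ := exists_ker hM Q hQ b hb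
  have h1 := central_li_of_ker hM Q hQ ξ₀ hker z hz
  have hsb : MemLocalIdeal M (Cfsg.centralChar (ξ : G → ℂ) z -
      Cfsg.centralChar (ξ₀ : G → ℂ) z) := by
    obtain ⟨ξ₁, rfl⟩ := hb
    exact (sb_trans hMp (sb_symm hξ) hξ₀) z
  have h2 := li_add hMp hsb h1
  rw [sub_add_cancel] at h2
  exact h2

theorem sylow_of_coeff {p : ℕ} [hp : Fact p.Prime] {M : Ideal AlgInt} (hM : IsPModular p M)
    {G : Type u} [Group G] [Finite G] (b : Set (Cfsg.IrrCharacter G)) (hb : Cfsg.IsPBlock M b)
    (Q₀ : Subgroup G) (hQ₀ : Cfsg.IsDefectGroup p M b Q₀) (z : G)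
    (hz : ¬ MemLocalIdeal M (Cfsg.blockCoeff b z)) (hcomm : ∀ q ∈ Q₀, q * z = z * q) :
    ∃ T' : Sylow p (Subgroup.centralizer ({z} : Set G)),
      (T' : Subgroup (Subgroup.centralizer ({z} : Set G))).map
        (Subgroup.centralizer ({z} : Set G)).subtype = Q₀ := by
  have _fg : Fintype G := Fintype.ofFinite G
  have hMp := hM.2.1.isPrime
  obtain ⟨y, hy, T₁, hT₁⟩ := id hQ₀
  obtain ⟨x, Q, hxQ⟩ := (Cfsg.Agent.S0911.result p M hM b hb y hy T₁ z).1
    (osima_fun hMp b hb z) hz
  rw [← hT₁] at hxQ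
  have hQ₀p : IsPGroup p Q₀ := by
    rw [hT₁]
    exact T₁.isPGroup'.map _
  have hQ₀C : Q₀ ≤ Subgroup.centralizer ({z} : Set G) := by
    intro q hq
    rw [Subgroup.mem_centralizer_iff]
    intro h hh
    rw [Set.mem_singleton_iff.mp hh]
    exact (hcomm q hq).symm
  have hsub : IsPGroup p (Q₀.subgroupOf (Subgroup.centralizer ({z} : Set G))) :=
    hQ₀p.comap_subtype
  obtain ⟨T', hT'⟩ := hsub.exists_le_sylow
  refine ⟨T', ?_⟩
  have hle : Q₀ ≤ (T' : Subgroup (Subgroup.centralizer ({z} : Set G))).map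
      (Subgroup.centralizer ({z} : Set G)).subtype := by
    intro q hq
    exact ⟨⟨q, hQ₀C hq⟩, hT' (Subgroup.mem_subgroupOf.mpr hq), rfl⟩
  apply (Subgroup.eq_of_le_of_card_ge hle ?_).symm
  have h1 : Nat.card ((T' : Subgroup (Subgroup.centralizer ({z} : Set G))).map
      (Subgroup.centralizer ({z} : Set G)).subtype) = Nat.card T' :=
    Subgroup.card_map_of_injective (Subgroup.subtype_injective _)
  have h2 : Nat.card ((Q : Subgroup (Subgroup.centralizer ({z} : Set G))).map
      (Subgroup.centralizer ({z} : Set G)).subtype) = Nat.card Q :=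
    Subgroup.card_map_of_injective (Subgroup.subtype_injective _)
  have h3 : Nat.card T' = Nat.card Q := by
    rw [T'.card_eq_multiplicity, Q.card_eq_multiplicity]
  have h4 := Subgroup.card_le_of_le hxQ
  have h5 : Nat.card (Q₀.map (MulAut.conj x).toMonoidHom) = Nat.card Q₀ :=
    Subgroup.card_map_of_injective (MulAut.conj x).injective
  rw [h1, h3, ← h2, ← h5]
  exact h4

end Cfsg.Agent.Lib.Helper3.BlkFirst3
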