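import Mathlib

open scoped ComplexConjugate

namespace Cfsg.Agent.Lib.Helper3.BlkGram

theorem sum_mul_conj_eq_zero {α : Type*} [Fintype α] (f : α → ℂ)
    (h : ∑ a : α, f a * conj (f a) = 0) : ∀ a : α, f a = 0 := by
  intro a
  have h1 : ∀ a : α, f a * conj (f a) = ((Complex.normSq (f a) : ℝ) : ℂ) :=
    fun a => Complex.mul_conj (f a)
  rw [Finset.sum_congr rfl (fun a _ => h1 a), ← Complex.ofReal_sum, Complex.ofReal_eq_zero] at h
  have h2 := (Finset.sum_eq_zero_iff_of_nonneg (fun a _ => Complex.normSq_nonneg (f a))).mp h a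
    (Finset.mem_univ a)
  exact Complex.normSq_eq_zero.mp h2

theorem gram_rank_one {ι α : Type*} [Fintype ι] [Fintype α] (v : ι → α → ℂ) (w : α → ℂ) (d : ℂ)
    (h : ∀ y' y : α, ∑ i : ι, v i y' * conj (v i y) = d * (w y' * conj (w y))) (i₀ : ι) :
    ∃ t : ℂ, v i₀ = t • w := by
  classical
  obtain ⟨W, hW⟩ : ∃ W : ℂ, W = ∑ y : α, w y * conj (w y) := ⟨_, rfl⟩
  obtain ⟨t, ht⟩ : ∃ t : ℂ, t = (∑ y : α, v i₀ y * conj (w y)) / W := ⟨_, rfl⟩
  obtain ⟨c, hc⟩ : ∃ c : α → ℂ, c = fun y => v i₀ y - t * w y := ⟨_, rfl⟩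
  have hWconj : conj W = W := by
    rw [hW, map_sum]
    refine Finset.sum_congr rfl (fun y _ => ?_)
    rw [map_mul, Complex.conj_conj, mul_comm]
  have hwc : ∑ y : α, w y * conj (c y) = 0 := by
    by_cases hw : W = 0
    · have h0 := sum_mul_conj_eq_zero w (hW ▸ hw)
      apply Finset.sum_eq_zero
      intro y _
      rw [h0 y, zero_mul]
    · have e1 : ∑ y : α, w y * conj (c y) =
          (∑ y : α, w y * conj (v i₀ y)) - conj t * W := by
        rw [hW, Finset.mul_sum, ← Finset.sum_sub_distrib]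
        refine Finset.sum_congr rfl (fun y _ => ?_)
        rw [hc]
        simp only [map_sub, map_mul]
        ring
      have e2 : conj t = (∑ y : α, w y * conj (v i₀ y)) / W := by
        rw [ht, map_div₀, hWconj, map_sum]
        congr 1
        refine Finset.sum_congr rfl (fun y _ => ?_)
        rw [map_mul, Complex.conj_conj, mul_comm]
      rw [e1, e2]
      field_simp
      ring
  have hz : ∑ i : ι, (∑ y' : α, v i y' * conj (c y')) * conj (∑ y' : α, v i y' * conj (c y')) =
      0 := by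
    have e1 : ∀ i : ι, (∑ y' : α, v i y' * conj (c y')) * conj (∑ y' : α, v i y' * conj (c y')) =
        ∑ y' : α, ∑ y : α, conj (c y') * c y * (v i y' * conj (v i y)) := by
      intro i
      rw [map_sum, Finset.sum_mul_sum]
      refine Finset.sum_congr rfl (fun y' _ => Finset.sum_congr rfl (fun y _ => ?_))
      rw [map_mul, Complex.conj_conj]
      ring
    rw [Finset.sum_congr rfl (fun i _ => e1 i), Finset.sum_comm]
    have e2 : ∀ y' : α, ∑ i : ι, ∑ y : α, conj (c y') * c y * (v i y' * conj (v i y)) =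
        ∑ y : α, conj (c y') * c y * (d * (w y' * conj (w y))) := by
      intro y'
      rw [Finset.sum_comm]
      refine Finset.sum_congr rfl (fun y _ => ?_)
      rw [← Finset.mul_sum, h y' y]
    rw [Finset.sum_congr rfl (fun y' _ => e2 y')]
    have e3 : ∑ y' : α, ∑ y : α, conj (c y') * c y * (d * (w y' * conj (w y))) =
        d * ((∑ y' : α, w y' * conj (c y')) * conj (∑ y : α, w y * conj (c y))) := by
      rw [map_sum, Finset.sum_mul_sum, Finset.mul_sum]
      refine Finset.sum_congr rfl (fun y' _ => ?_)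
      rw [Finset.mul_sum]
      refine Finset.sum_congr rfl (fun y _ => ?_)
      rw [map_mul, Complex.conj_conj]
      ring
    rw [e3, hwc, zero_mul, mul_zero]
  have hv0 : ∑ y' : α, v i₀ y' * conj (c y') = 0 :=
    sum_mul_conj_eq_zero (fun i : ι => ∑ y' : α, v i y' * conj (c y')) hz i₀
  have hcc : ∑ y : α, c y * conj (c y) = 0 := by
    have e1 : ∑ y : α, c y * conj (c y) =
        (∑ y : α, v i₀ y * conj (c y)) - t * ∑ y : α, w y * conj (c y) := by
      rw [Finset.mul_sum, ← Finset.sum_sub_distrib]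
      refine Finset.sum_congr rfl (fun y _ => ?_)
      have e0 : c y = v i₀ y - t * w y := by rw [hc]
      nth_rewrite 1 [e0]
      ring
    rw [e1, hv0, hwc, mul_zero, sub_zero]
  have hc0 := sum_mul_conj_eq_zero c hcc
  refine ⟨t, ?_⟩
  funext y
  have h1 := hc0 y
  rw [hc] at h1
  simp only at h1
  rw [Pi.smul_apply, smul_eq_mul]
  exact sub_eq_zero.mp h1

end Cfsg.Agent.Lib.Helper3.BlkGram
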