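import Mathlib
import Cfsg.Prelude.Def_Characters
import Cfsg.Prelude.Def_Blocks
import Cfsg.Agent.Lib.Helper3.BlkLocal

set_option autoImplicit false

open Cfsg
open Cfsg.Agent.Lib.Helper3.BlkLocal

namespace Cfsg.Agent.Lib.Helper3.BlkSoc1

def lrRing (M : Ideal AlgInt) (hM : M.IsPrime) : Subring ℂ where
  carrier := {z | Cfsg.MemLocalRing M z}
  mul_mem' := fun ha hb => lr_mul hM ha hb
  one_mem' := lr_one hM
  add_mem' := fun ha hb => lr_add hM ha hb
  zero_mem' := lr_zero hM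
  neg_mem' := fun ha => lr_neg ha

theorem mem_lrRing {M : Ideal AlgInt} (hM : M.IsPrime) (z : ℂ) :
    z ∈ lrRing M hM ↔ Cfsg.MemLocalRing M z := Iff.rfl

theorem frob_sum {p : ℕ} [hp : Fact p.Prime] {M : Ideal AlgInt} (hM : M.IsPrime) {ι : Type*}
    (s : Finset ι) (f : ι → ℂ) (hf : ∀ i ∈ s, Cfsg.MemLocalRing M (f i)) (m : ℕ) :
    ∃ c : ℂ, Cfsg.MemLocalRing M c ∧
      (∑ i ∈ s, f i) ^ (p ^ m) = ∑ i ∈ s, f i ^ (p ^ m) + p * c := by
  classical
  induction s using Finset.induction_on with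
  | empty =>
    refine ⟨0, lr_zero hM, ?_⟩
    simp [hp.out.ne_zero]
  | insert a s ha ih =>
    have hfa : Cfsg.MemLocalRing M (f a) := hf a (Finset.mem_insert_self a s)
    have hfs : ∀ i ∈ s, Cfsg.MemLocalRing M (f i) :=
      fun i hi => hf i (Finset.mem_insert_of_mem hi)
    obtain ⟨c, hc, hceq⟩ := ih hfs
    have hsum : Cfsg.MemLocalRing M (∑ i ∈ s, f i) := lr_sum hM s f hfs
    obtain ⟨r, hr⟩ := exists_add_pow_prime_pow_eq hp.out (⟨f a, hfa⟩ : lrRing M hM)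
      (⟨∑ i ∈ s, f i, hsum⟩ : lrRing M hM) m
    have hr' := congrArg (fun t : lrRing M hM => (t : ℂ)) hr
    simp only [Subring.coe_add, Subring.coe_pow, Subring.coe_mul, Subring.coe_natCast] at hr'
    refine ⟨c + f a * (∑ i ∈ s, f i) * (r : ℂ), ?_, ?_⟩
    · exact lr_add hM hc (lr_mul hM (lr_mul hM hfa hsum) r.2)
    · rw [Finset.sum_insert ha, Finset.sum_insert ha, hr', hceq]
      ring

theorem aeval_lr {M : Ideal AlgInt} (hMp : M.IsPrime) (a : AlgInt) (g : Polynomial ℤ) :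
    Cfsg.MemLocalRing M (Polynomial.aeval (a : ℂ) g) := by
  apply lr_of_isIntegral hMp
  have ha : IsIntegral ℤ (a : ℂ) := (mem_integralClosure_iff ℤ ℂ).mp a.2
  rw [Polynomial.aeval_eq_sum_range]
  apply IsIntegral.sum
  intro i _
  exact IsIntegral.smul _ (IsIntegral.pow ha i)

theorem int_li {p : ℕ} {M : Ideal AlgInt} (hM : IsPModular p M) (c : ℤ)
    (h : Cfsg.MemLocalIdeal M (c : ℂ)) : (p : ℤ) ∣ c := by
  rw [Int.natCast_dvd]
  rw [← li_nat_iff hM]
  rcases Int.natAbs_eq c with h1 | h1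
  · rw [h1] at h
    simpa using h
  · rw [h1] at h
    have h2 := li_neg h
    simpa using h2

theorem pow_mem_p_aux {p : ℕ} {M : Ideal AlgInt} (hM : IsPModular p M) (a : AlgInt)
    (ha : a ∈ M) : ∀ (n : ℕ) (f : Polynomial ℤ) (k : ℕ), f.natDegree ≤ n →
      (∃ i, ¬ (p : ℤ) ∣ f.coeff i) →
      (∃ c, Cfsg.MemLocalRing M c ∧ (a : ℂ) ^ k * Polynomial.aeval (a : ℂ) f = p * c) →
      ∃ j : ℕ, ∃ c, Cfsg.MemLocalRing M c ∧ (a : ℂ) ^ j = p * c := by
  have hMp := hM.2.1.isPrime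
  have hali : Cfsg.MemLocalIdeal M (a : ℂ) := (li_int_iff hMp a).mpr ha
  have halr : Cfsg.MemLocalRing M (a : ℂ) := lr_int hMp a
  have hsplit : ∀ f : Polynomial ℤ, Polynomial.aeval (a : ℂ) f =
      Polynomial.aeval (a : ℂ) f.divX * (a : ℂ) + (f.coeff 0 : ℂ) := by
    intro f
    conv_lhs => rw [← Polynomial.divX_mul_X_add f]
    simp
  have hunit : ∀ (f : Polynomial ℤ) (k : ℕ), ¬ (p : ℤ) ∣ f.coeff 0 →
      (∃ c, Cfsg.MemLocalRing M c ∧ (a : ℂ) ^ k * Polynomial.aeval (a : ℂ) f = p * c) →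
      ∃ j : ℕ, ∃ c, Cfsg.MemLocalRing M c ∧ (a : ℂ) ^ j = p * c := by
    intro f k hc0 ⟨c, hc, hceq⟩
    have hu_lr : Cfsg.MemLocalRing M (Polynomial.aeval (a : ℂ) f) := aeval_lr hMp a f
    have hu_nli : ¬ Cfsg.MemLocalIdeal M (Polynomial.aeval (a : ℂ) f) := by
      intro hli
      apply hc0
      apply int_li hM
      have h1 : (f.coeff 0 : ℂ) = Polynomial.aeval (a : ℂ) f -
          Polynomial.aeval (a : ℂ) f.divX * (a : ℂ) := by
        rw [hsplit f]
        ring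
      rw [h1]
      exact li_sub hMp hli (li_mul_left hMp (aeval_lr hMp a _) hali)
    have hu0 : Polynomial.aeval (a : ℂ) f ≠ 0 := by
      intro h0
      apply hu_nli
      rw [h0]
      exact li_zero hMp
    refine ⟨k, c * (Polynomial.aeval (a : ℂ) f)⁻¹, lr_mul hMp hc (lr_inv hu_lr hu_nli), ?_⟩
    rw [← mul_assoc, ← hceq, mul_assoc, mul_inv_cancel₀ hu0, mul_one]
  intro n
  induction n with
  | zero =>
    intro f k hdeg hcoef hval
    apply hunit f k _ hval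
    obtain ⟨i, hi⟩ := hcoef
    rcases Nat.eq_zero_or_pos i with h0 | hpos
    · rw [h0] at hi
      exact hi
    · exfalso
      apply hi
      rw [Polynomial.coeff_eq_zero_of_natDegree_lt (by omega)]
      exact dvd_zero _
  | succ n ih =>
    intro f k hdeg hcoef hval
    by_cases hc0 : (p : ℤ) ∣ f.coeff 0
    · obtain ⟨e, he⟩ := hc0
      obtain ⟨c, hc, hceq⟩ := hval
      apply ih f.divX (k + 1)
      · rw [Polynomial.natDegree_divX_eq_natDegree_tsub_one]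
        omega
      · obtain ⟨i, hi⟩ := hcoef
        rcases Nat.eq_zero_or_pos i with h0 | hpos
        · exfalso
          apply hi
          rw [h0, he]
          exact dvd_mul_right _ _
        · refine ⟨i - 1, ?_⟩
          rw [Polynomial.coeff_divX]
          have h1 : i - 1 + 1 = i := by omega
          rw [h1]
          exact hi
      · refine ⟨c - (e : ℂ) * (a : ℂ) ^ k, lr_sub hMp hc
          (lr_mul hMp (lr_int hMp (e : AlgInt) |> fun h => by simpa using h)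
            (lr_pow hMp halr k)), ?_⟩
        rw [hsplit f, he] at hceq
        push_cast at hceq
        rw [mul_sub, ← hceq]
        ring
    · exact hunit f k hc0 hval

theorem pow_mem_p {p : ℕ} [hp : Fact p.Prime] {M : Ideal AlgInt} (hM : IsPModular p M) (z : ℂ)
    (hz : Cfsg.MemLocalIdeal M z) :
    ∃ j : ℕ, ∃ c, Cfsg.MemLocalRing M c ∧ z ^ j = p * c := by
  have hMp := hM.2.1.isPrime
  obtain ⟨a, b, ha, hb, rfl⟩ := hz
  have hint : IsIntegral ℤ (a : ℂ) := (mem_integralClosure_iff ℤ ℂ).mp a.2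
  obtain ⟨f, hmonic, hf⟩ := hint
  have hf' : Polynomial.aeval (a : ℂ) f = 0 := by
    rw [Polynomial.aeval_def]
    exact hf
  have hcoef : ∃ i, ¬ (p : ℤ) ∣ f.coeff i := by
    refine ⟨f.natDegree, ?_⟩
    rw [hmonic.coeff_natDegree]
    intro h
    have h1 : p ∣ 1 := by exact_mod_cast h
    exact hp.out.one_lt.ne' (Nat.dvd_one.mp h1)
  obtain ⟨j, c, hc, hceq⟩ := pow_mem_p_aux hM a ha f.natDegree f 0 le_rfl hcoef
    ⟨0, lr_zero hMp, by rw [hf']; ring⟩
  have hbj : (b ^ j : AlgInt) ∉ M := fun h => hb (hMp.mem_of_pow_mem j h)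
  have hinv : Cfsg.MemLocalRing M ((b : ℂ) ^ j)⁻¹ := by
    have h1 : Cfsg.MemLocalRing M (((b ^ j : AlgInt) : ℂ)) := lr_int hMp _
    have h2 : ¬ Cfsg.MemLocalIdeal M (((b ^ j : AlgInt) : ℂ)) := by
      rw [li_int_iff hMp]
      exact hbj
    have h3 := lr_inv h1 h2
    simpa using h3
  refine ⟨j, c * ((b : ℂ) ^ j)⁻¹, lr_mul hMp hc hinv, ?_⟩
  rw [div_pow, hceq, div_eq_mul_inv, mul_assoc]

theorem pow_mem_p_finset {p : ℕ} [hp : Fact p.Prime] {M : Ideal AlgInt} (hM : IsPModular p M)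
    {ι : Type*} (s : Finset ι) (w : ι → ℂ) (hw : ∀ i ∈ s, Cfsg.MemLocalIdeal M (w i)) (e : ℕ) :
    ∃ J : ℕ, ∀ N ≥ J, ∀ i ∈ s, ∃ c, Cfsg.MemLocalRing M c ∧ w i ^ N = (p : ℂ) ^ e * c := by
  classical
  have hMp := hM.2.1.isPrime
  have hex : ∀ i : ι, ∃ j : ℕ, i ∈ s → ∃ c, Cfsg.MemLocalRing M c ∧ w i ^ j = p * c := by
    intro i
    by_cases hi : i ∈ s
    · obtain ⟨j, hj⟩ := pow_mem_p hM (w i) (hw i hi)
      exact ⟨j, fun _ => hj⟩
    · exact ⟨0, fun h => absurd h hi⟩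
  choose j hj using hex
  refine ⟨∑ i ∈ s, j i * e, ?_⟩
  intro N hN i hi
  obtain ⟨c, hc, hceq⟩ := hj i hi
  have hle : j i * e ≤ N := (Finset.single_le_sum (f := fun i => j i * e)
    (fun _ _ => Nat.zero_le _) hi).trans hN
  refine ⟨c ^ e * w i ^ (N - j i * e), lr_mul hMp (lr_pow hMp hc e)
    (lr_pow hMp (li_lr (hw i hi)) _), ?_⟩
  have h1 : N = j i * e + (N - j i * e) := by omega
  conv_lhs => rw [h1]
  rw [pow_add, pow_mul, hceq, mul_pow]
  ring

end Cfsg.Agent.Lib.Helper3.BlkSoc1
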