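import Mathlib
import Cfsg.Prelude.Def_Characters
import Cfsg.Prelude.Def_Blocks
import Cfsg.Agent.Lib.Helper3.BlkLocal
import Cfsg.Agent.Lib.Helper3.BlkSoc1

set_option autoImplicit false

open Cfsg
open Cfsg.Agent.Lib.Helper3.BlkLocal
open Cfsg.Agent.Lib.Helper3.BlkSoc1

namespace Cfsg.Agent.Lib.Helper3.BlkGreen

def rtr (F : Type*) [CommRing F] {G : Type*} [Group G] (u : G) : Module.End F (G → F) where
  toFun f := fun g => f (g * u)
  map_add' := fun _ _ => rfl
  map_smul' := fun _ _ => rfl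

theorem rtr_apply {F : Type*} [CommRing F] {G : Type*} [Group G] (u : G) (f : G → F) (g : G) :
    rtr F u f g = f (g * u) := rfl

theorem rtr_mul {F : Type*} [CommRing F] {G : Type*} [Group G] (a b : G) :
    rtr F a * rtr F b = rtr F (a * b) := by
  refine LinearMap.ext fun f => funext fun g => ?_
  show f (g * a * b) = f (g * (a * b))
  rw [mul_assoc]

theorem rtr_one {F : Type*} [CommRing F] {G : Type*} [Group G] :
    rtr F (1 : G) = 1 := by
  refine LinearMap.ext fun f => funext fun g => ?_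
  show f (g * 1) = f g
  rw [mul_one]

theorem rtr_pow {F : Type*} [CommRing F] {G : Type*} [Group G] (u : G) (n : ℕ) :
    rtr F u ^ n = rtr F (u ^ n) := by
  induction n with
  | zero => rw [pow_zero, pow_zero, rtr_one]
  | succ n ih => rw [pow_succ, pow_succ, ih, rtr_mul]

theorem charP_end {F : Type*} [CommRing F] (p : ℕ) [CharP F p] {G : Type*} [Group G] :
    CharP (Module.End F (G → F)) p := by
  apply charP_of_injective_algebraMap (R := F) _ p
  intro c c' h
  have h1 := congrArg (fun e : Module.End F (G → F) => e (fun _ => (1 : F)) 1) h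
  simpa using h1

theorem fix_exists {F : Type*} [CommRing F] (p : ℕ) [hp : Fact p.Prime] [CharP F p]
    {G : Type*} [Group G] [Finite G] :
    ∀ (n : ℕ) (H : Subgroup G), Nat.card H = p ^ n → ∀ (w : G → F), w ≠ 0 →
      ∃ y : G → F, y ≠ 0 ∧ (∀ v ∈ H, rtr F v y = y) ∧
        ∀ S : Submodule F (G → F), (∀ f ∈ S, ∀ v ∈ H, rtr F v f ∈ S) → w ∈ S → y ∈ S := by
  intro n
  induction n with
  | zero =>
    intro H hH w hw
    refine ⟨w, hw, ?_, fun S _ h => h⟩
    intro v hv
    have hbot : H = ⊥ := Subgroup.card_eq_one.mp (by rw [hH, pow_zero])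
    rw [hbot, Subgroup.mem_bot] at hv
    rw [hv, rtr_one]
    rfl
  | succ n ih =>
    intro H hH w hw
    have _cp : CharP (Module.End F (G → F)) p := charP_end p
    obtain ⟨K, hK⟩ := Sylow.exists_subgroup_card_pow_prime (G := H) p (n := n) (by
      rw [hH]
      exact pow_dvd_pow p (Nat.le_succ n))
    have hidx : K.index = p := by
      have h1 := K.card_mul_index
      rw [hK, hH, pow_succ] at h1
      exact Nat.eq_of_mul_eq_mul_left (pow_pos hp.out.pos n) h1
    have hKn : K.Normal := Subgroup.normal_of_index_eq_minFac_card (by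
      rw [hidx, hH, Nat.pow_minFac (Nat.succ_ne_zero n), Nat.Prime.minFac_eq hp.out])
    have hcard₁ : Nat.card (K.map H.subtype) = p ^ n := by
      rw [Subgroup.card_map_of_injective (Subgroup.subtype_injective _), hK]
    obtain ⟨y₁, hy₁, hfix₁, hS₁⟩ := ih (K.map H.subtype) hcard₁ w hw
    have hfixK : ∀ k ∈ K, rtr F (k : G) y₁ = y₁ := fun k hk => hfix₁ _ ⟨k, hk, rfl⟩
    obtain ⟨u, hu⟩ : ∃ u : H, u ∉ K := by
      by_contra hall
      push Not at hall
      have htop : K = ⊤ := (Subgroup.eq_top_iff' K).mpr hall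
      rw [htop, Subgroup.index_top] at hidx
      exact hp.out.one_lt.ne hidx
    have hup : u ^ p ∈ K := by
      have h1 := Subgroup.pow_index_mem K u
      rwa [hidx] at h1
    obtain ⟨T, hT⟩ : ∃ T : Module.End F (G → F), T = rtr F (u : G) := ⟨_, rfl⟩
    have hTp : (1 - T) ^ p = 1 - T ^ p := by
      rw [sub_pow_char_of_commute p (Commute.one_left T), one_pow]
    have hzero : ((1 - T) ^ p) y₁ = 0 := by
      rw [hTp, hT, rtr_pow]
      have h1 : ((u : G) ^ p) = ((u ^ p : H) : G) := by simp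
      rw [h1]
      show y₁ - rtr F ((u ^ p : H) : G) y₁ = 0
      rw [hfixK _ hup, sub_self]
    have hstep : ∀ i : ℕ, ((1 - T) ^ (i + 1)) y₁ = ((1 - T) ^ i) y₁ - T (((1 - T) ^ i) y₁) := by
      intro i
      rw [pow_succ']
      rfl
    have hKfix : ∀ i : ℕ, ∀ k ∈ K, rtr F (k : G) (((1 - T) ^ i) y₁) = ((1 - T) ^ i) y₁ := by
      intro i
      induction i with
      | zero =>
        intro k hk
        rw [pow_zero]
        exact hfixK k hk
      | succ i ihi =>
        intro k hk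
        rw [hstep, map_sub, ihi k hk]
        congr 1
        have h1 : (k : G) * (u : G) = (u : G) * ((u⁻¹ * k * u : H) : G) := by
          simp only [Subgroup.coe_mul, Subgroup.coe_inv]
          group
        have h2 : u⁻¹ * k * u ∈ K := by
          have h3 := hKn.conj_mem k hk u⁻¹
          rwa [inv_inv] at h3
        calc rtr F (k : G) (T (((1 - T) ^ i) y₁))
            = (rtr F (k : G) * rtr F (u : G)) (((1 - T) ^ i) y₁) := by rw [hT]; rfl
          _ = (rtr F (u : G) * rtr F ((u⁻¹ * k * u : H) : G)) (((1 - T) ^ i) y₁) := by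
              rw [rtr_mul, rtr_mul, h1]
          _ = rtr F (u : G) (rtr F ((u⁻¹ * k * u : H) : G) (((1 - T) ^ i) y₁)) := rfl
          _ = T (((1 - T) ^ i) y₁) := by rw [ihi _ h2, hT]
    have hex : ∃ j : ℕ, ((1 - T) ^ j) y₁ = 0 := ⟨p, hzero⟩
    classical
    have hj0 : Nat.find hex ≠ 0 := by
      intro h0
      have h1 := Nat.find_spec hex
      rw [h0, pow_zero] at h1
      exact hy₁ h1
    obtain ⟨j, hj⟩ := Nat.exists_eq_succ_of_ne_zero hj0
    have hyne : ((1 - T) ^ j) y₁ ≠ 0 := Nat.find_min hex (by rw [hj]; exact Nat.lt_succ_self j)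
    have hTy : T (((1 - T) ^ j) y₁) = ((1 - T) ^ j) y₁ := by
      have h1 := Nat.find_spec hex
      rw [hj, Nat.succ_eq_add_one, hstep] at h1
      exact (sub_eq_zero.mp h1).symm
    refine ⟨((1 - T) ^ j) y₁, hyne, ?_, ?_⟩
    · obtain ⟨S, hS⟩ : ∃ S : Subgroup H, ∀ h : H, h ∈ S ↔
          rtr F (h : G) (((1 - T) ^ j) y₁) = ((1 - T) ^ j) y₁ := by
        refine ⟨{ carrier := {h : H | rtr F (h : G) (((1 - T) ^ j) y₁) = ((1 - T) ^ j) y₁}
                  mul_mem' := ?_
                  one_mem' := ?_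
                  inv_mem' := ?_ }, fun h => Iff.rfl⟩
        · intro a b ha hb
          show rtr F ((a * b : H) : G) (((1 - T) ^ j) y₁) = ((1 - T) ^ j) y₁
          have ha' : rtr F (a : G) (((1 - T) ^ j) y₁) = ((1 - T) ^ j) y₁ := ha
          have hb' : rtr F (b : G) (((1 - T) ^ j) y₁) = ((1 - T) ^ j) y₁ := hb
          rw [Subgroup.coe_mul, ← rtr_mul]
          show rtr F (a : G) (rtr F (b : G) (((1 - T) ^ j) y₁)) = ((1 - T) ^ j) y₁
          rw [hb', ha']
        · show rtr F ((1 : H) : G) (((1 - T) ^ j) y₁) = ((1 - T) ^ j) y₁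
          rw [Subgroup.coe_one, rtr_one]
          rfl
        · intro a ha
          show rtr F ((a⁻¹ : H) : G) (((1 - T) ^ j) y₁) = ((1 - T) ^ j) y₁
          have ha' : rtr F (a : G) (((1 - T) ^ j) y₁) = ((1 - T) ^ j) y₁ := ha
          have h1 : rtr F ((a⁻¹ : H) : G) (rtr F (a : G) (((1 - T) ^ j) y₁)) =
              ((1 - T) ^ j) y₁ := by
            show (rtr F ((a⁻¹ : H) : G) * rtr F (a : G)) (((1 - T) ^ j) y₁) = ((1 - T) ^ j) y₁
            rw [rtr_mul, Subgroup.coe_inv, inv_mul_cancel, rtr_one]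
            rfl
          rw [ha'] at h1
          exact h1
      have hKS : K ≤ S := fun k hk => (hS k).mpr (hKfix j k hk)
      have huS : u ∈ S := (hS u).mpr (by rw [← hT]; exact hTy)
      have hStop : S = ⊤ := by
        have h1 := Subgroup.relIndex_mul_index hKS
        rw [hidx] at h1
        have h2 : S.index ∣ p := Dvd.intro_left _ h1
        rcases (Nat.dvd_prime hp.out).mp h2 with h3 | h3
        · exact Subgroup.index_eq_one.mp h3
        · exfalso
          rw [h3] at h1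
          have h4 : K.relIndex S = 1 := by
            have h5 : K.relIndex S * p = 1 * p := by rw [h1, one_mul]
            exact Nat.eq_of_mul_eq_mul_right hp.out.pos h5
          exact hu (Subgroup.relIndex_eq_one.mp h4 huS)
      intro v hv
      have h1 : (⟨v, hv⟩ : H) ∈ S := by
        rw [hStop]
        exact Subgroup.mem_top _
      exact (hS ⟨v, hv⟩).mp h1
    · intro S hSc hwS
      have hy₁S : y₁ ∈ S := hS₁ S (fun f hf v hv => by
        obtain ⟨k, _, rfl⟩ := hv
        exact hSc f hf _ k.2) hwS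
      have hall : ∀ i : ℕ, ((1 - T) ^ i) y₁ ∈ S := by
        intro i
        induction i with
        | zero =>
          rw [pow_zero]
          exact hy₁S
        | succ i ihi =>
          rw [hstep]
          apply S.sub_mem ihi
          have h2 := hSc _ ihi _ u.2
          rw [← hT] at h2
          exact h2
      exact hall j

theorem coset_sum {F : Type*} [CommRing F] {G : Type*} [Group G] [Fintype G] (Q : Subgroup G)
    [Fintype Q] [Fintype (G ⧸ Q)] (φ : G → F) :
    ∑ g : G, φ g = ∑ c : G ⧸ Q, ∑ v : Q, φ (Quotient.out c * (v : G)) := by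
  have hbij : Function.Bijective (fun cv : (G ⧸ Q) × Q => Quotient.out cv.1 * (cv.2 : G)) := by
    constructor
    · rintro ⟨c, v⟩ ⟨c', v'⟩ h
      have h' : Quotient.out c * (v : G) = Quotient.out c' * (v' : G) := h
      have h1 : (QuotientGroup.mk (Quotient.out c * (v : G)) : G ⧸ Q) = c := by
        rw [QuotientGroup.mk_mul_of_mem _ v.2]
        exact QuotientGroup.out_eq' c
      have h2 : (QuotientGroup.mk (Quotient.out c' * (v' : G)) : G ⧸ Q) = c' := by
        rw [QuotientGroup.mk_mul_of_mem _ v'.2]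
        exact QuotientGroup.out_eq' c'
      have hc : c = c' := by rw [← h1, ← h2, h']
      subst hc
      have hv : (v : G) = (v' : G) := mul_left_cancel h'
      exact Prod.ext rfl (Subtype.ext hv)
    · intro g
      have h1 : (QuotientGroup.mk (Quotient.out (QuotientGroup.mk g : G ⧸ Q)) : G ⧸ Q) =
          QuotientGroup.mk g := QuotientGroup.out_eq' _
      have h2 : (Quotient.out (QuotientGroup.mk g : G ⧸ Q))⁻¹ * g ∈ Q := QuotientGroup.eq.mp h1
      exact ⟨(QuotientGroup.mk g, ⟨_, h2⟩), mul_inv_cancel_left _ _⟩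
  calc ∑ g : G, φ g
      = ∑ cv : (G ⧸ Q) × Q, φ (Quotient.out cv.1 * (cv.2 : G)) :=
        (Fintype.sum_bijective _ hbij _ _ (fun _ => rfl)).symm
    _ = ∑ c : G ⧸ Q, ∑ v : Q, φ (Quotient.out c * (v : G)) := Fintype.sum_prod_type _

theorem idem_zero {F : Type*} [CommRing F] (p : ℕ) [hp : Fact p.Prime] [CharP F p]
    {G : Type*} [Group G] [Fintype G] (Q : Subgroup G) [Fintype Q] (hQ : IsPGroup p Q)
    (ε : G → F) (hidem : ∀ x, ∑ g : G, ε g * ε (g⁻¹ * x) = ε x)
    (hinv : ∀ v ∈ Q, ∀ g, ε (v * g * v⁻¹) = ε g)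
    (hsum : ∀ g, ∑ v : Q, ε (g * (v : G)) = 0) : ε = 0 := by
  classical
  by_contra hε
  obtain ⟨n, hn⟩ := IsPGroup.iff_card.mp hQ
  obtain ⟨y, hy0, hyfix, hyS⟩ := fix_exists (F := F) p n Q hn ε hε
  have _fq : Fintype (G ⧸ Q) := Fintype.ofFinite _
  obtain ⟨S, hS⟩ : ∃ S : Submodule F (G → F), ∀ f : G → F, f ∈ S ↔
      ∀ x, ∑ g : G, f g * ε (g⁻¹ * x) = f x := by
    refine ⟨{ carrier := {f | ∀ x, ∑ g : G, f g * ε (g⁻¹ * x) = f x}
              add_mem' := ?_
              zero_mem' := ?_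
              smul_mem' := ?_ }, fun f => Iff.rfl⟩
    · intro f f' hf hf' x
      simp only [Pi.add_apply, add_mul, Finset.sum_add_distrib]
      rw [hf x, hf' x]
    · intro x
      simp
    · intro c f hf x
      simp only [Pi.smul_apply, smul_eq_mul, mul_assoc]
      rw [← Finset.mul_sum, hf x]
  have hεS : ε ∈ S := (hS ε).mpr hidem
  have hclosed : ∀ f ∈ S, ∀ v ∈ Q, rtr F v f ∈ S := by
    intro f hf v hv
    rw [hS] at hf ⊢
    intro x
    show ∑ g : G, f (g * v) * ε (g⁻¹ * x) = f (x * v)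
    rw [← hf (x * v), ← Equiv.sum_comp (Equiv.mulRight v) (fun g => f g * ε (g⁻¹ * (x * v)))]
    refine Finset.sum_congr rfl (fun g _ => ?_)
    show f (g * v) * ε (g⁻¹ * x) = f (g * v) * ε ((g * v)⁻¹ * (x * v))
    have h1 := hinv v⁻¹ (Q.inv_mem hv) (g⁻¹ * x)
    rw [← h1]
    congr 2
    group
  have hyS' : ∀ x, ∑ g : G, y g * ε (g⁻¹ * x) = y x := (hS y).mp (hyS S hclosed hεS)
  apply hy0
  funext x
  rw [← hyS' x, coset_sum Q]
  apply Finset.sum_eq_zero
  intro c _
  have h1 : ∀ v : Q, y (Quotient.out c * (v : G)) * ε ((Quotient.out c * (v : G))⁻¹ * x) =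
      y (Quotient.out c) * ε ((Quotient.out c)⁻¹ * x * ((v⁻¹ : Q) : G)) := by
    intro v
    have h2 : y (Quotient.out c * (v : G)) = y (Quotient.out c) :=
      congrFun (hyfix (v : G) v.2) (Quotient.out c)
    have h4 := hinv ((v : G)⁻¹) (Q.inv_mem v.2) ((Quotient.out c)⁻¹ * x * (v : G)⁻¹)
    rw [h2, Subgroup.coe_inv, ← h4]
    congr 2
    group
  have h5 : ∑ v : Q, ε ((Quotient.out c)⁻¹ * x * ((v⁻¹ : Q) : G)) =
      ∑ v : Q, ε ((Quotient.out c)⁻¹ * x * (v : G)) :=
    Equiv.sum_comp (Equiv.inv Q) (fun v : Q => ε ((Quotient.out c)⁻¹ * x * (v : G)))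
  rw [Finset.sum_congr rfl (fun v _ => h1 v), ← Finset.mul_sum, h5, hsum, mul_zero]

def liIdeal (M : Ideal AlgInt) (hM : M.IsPrime) : Ideal (lrRing M hM) where
  carrier := {z | Cfsg.MemLocalIdeal M (z : ℂ)}
  add_mem' := fun ha hb => li_add hM ha hb
  zero_mem' := li_zero hM
  smul_mem' := fun c _ hx => li_mul_left hM c.2 hx

theorem mem_liIdeal {M : Ideal AlgInt} (hM : M.IsPrime) (z : lrRing M hM) :
    z ∈ liIdeal M hM ↔ Cfsg.MemLocalIdeal M (z : ℂ) := Iff.rfl

theorem charP_quot {p : ℕ} {M : Ideal AlgInt} (hM : IsPModular p M) :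
    CharP (lrRing M hM.2.1.isPrime ⧸ liIdeal M hM.2.1.isPrime) p := by
  constructor
  intro n
  rw [← map_natCast (Ideal.Quotient.mk (liIdeal M hM.2.1.isPrime)),
    Ideal.Quotient.eq_zero_iff_mem, mem_liIdeal]
  have h1 : (((n : lrRing M hM.2.1.isPrime)) : ℂ) = (n : ℂ) := by simp
  rw [h1]
  exact li_nat_iff hM n

theorem green_key {p : ℕ} [hp : Fact p.Prime] {M : Ideal AlgInt} (hM : IsPModular p M)
    {G : Type*} [Group G] [Fintype G] (Q : Subgroup G) [Fintype Q] (hQ : IsPGroup p Q)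
    (ε : G → ℂ) (hlr : ∀ g, Cfsg.MemLocalRing M (ε g))
    (hidem : ∀ x, Cfsg.MemLocalIdeal M (∑ g : G, ε g * ε (g⁻¹ * x) - ε x))
    (hinv : ∀ v ∈ Q, ∀ g, ε (v * g * v⁻¹) = ε g)
    (hsum : ∀ g, Cfsg.MemLocalIdeal M (∑ v : Q, ε (g * (v : G)))) :
    ∀ g, Cfsg.MemLocalIdeal M (ε g) := by
  have hMp := hM.2.1.isPrime
  have _cp : CharP (lrRing M hMp ⧸ liIdeal M hMp) p := charP_quot hM
  obtain ⟨ε', hε'⟩ : ∃ ε' : G → lrRing M hMp, ∀ g, (ε' g : ℂ) = ε g :=
    ⟨fun g => ⟨ε g, hlr g⟩, fun g => rfl⟩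
  obtain ⟨eb, heb⟩ : ∃ eb : G → (lrRing M hMp ⧸ liIdeal M hMp),
      ∀ g, eb g = Ideal.Quotient.mk (liIdeal M hMp) (ε' g) := ⟨_, fun g => rfl⟩
  have h_idem : ∀ x, ∑ g : G, eb g * eb (g⁻¹ * x) = eb x := by
    intro x
    simp only [heb, ← map_mul, ← map_sum]
    rw [Ideal.Quotient.eq, mem_liIdeal]
    have h1 : ((∑ g : G, ε' g * ε' (g⁻¹ * x) - ε' x : lrRing M hMp) : ℂ) =
        ∑ g : G, ε g * ε (g⁻¹ * x) - ε x := by
      simp only [AddSubgroupClass.coe_sub, AddSubmonoidClass.coe_finsetSum, Subring.coe_mul, hε']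
    rw [h1]
    exact hidem x
  have h_inv : ∀ v ∈ Q, ∀ g, eb (v * g * v⁻¹) = eb g := by
    intro v hv g
    rw [heb, heb]
    congr 1
    apply Subtype.ext
    rw [hε', hε']
    exact hinv v hv g
  have h_sum : ∀ g, ∑ v : Q, eb (g * (v : G)) = 0 := by
    intro g
    simp only [heb, ← map_sum]
    rw [Ideal.Quotient.eq_zero_iff_mem, mem_liIdeal]
    have h1 : ((∑ v : Q, ε' (g * (v : G)) : lrRing M hMp) : ℂ) = ∑ v : Q, ε (g * (v : G)) := by
      simp only [AddSubmonoidClass.coe_finsetSum, hε']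
    rw [h1]
    exact hsum g
  have key := idem_zero (F := lrRing M hMp ⧸ liIdeal M hMp) p Q hQ eb h_idem h_inv h_sum
  intro g
  have h1 := congrFun key g
  have h2 : Ideal.Quotient.mk (liIdeal M hMp) (ε' g) = 0 := by
    rw [← heb]
    exact h1
  rw [Ideal.Quotient.eq_zero_iff_mem, mem_liIdeal, hε'] at h2
  exact h2

end Cfsg.Agent.Lib.Helper3.BlkGreen
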