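import Mathlib
import Cfsg.Prelude.Def_Characters
import Cfsg.Prelude.Def_Blocks
import Cfsg.Agent.Lib.Helper3.Char
import Cfsg.Agent.Lib.Helper3.CharCore
import Cfsg.Agent.Lib.Helper3.CharInt
import Cfsg.Agent.Lib.Helper3.BlkLocal
import Cfsg.Agent.Lib.Helper3.BlkOsima
import Cfsg.Agent.Lib.Helper3.BlkOrth
import Cfsg.Agent.Lib.Helper3.BlkOrth4
import Cfsg.Agent.Lib.Helper3.BlkCong
import Cfsg.Agent.Lib.Helper3.BlkMinMax
import Cfsg.Agent.S0908
import Cfsg.Agent.S0911

open Cfsg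
open Cfsg.Agent.Lib.Helper3.Char Cfsg.Agent.Lib.Helper3.CharCore Cfsg.Agent.Lib.Helper3.CharInt
open Cfsg.Agent.Lib.Helper3.BlkLocal
open Cfsg.Agent.Lib.Helper3.BlkOsima Cfsg.Agent.Lib.Helper3.BlkOrth
open Cfsg.Agent.Lib.Helper3.BlkOrth4 Cfsg.Agent.Lib.Helper3.BlkCong
open Cfsg.Agent.Lib.Helper3.BlkMinMax
open scoped ComplexConjugate

universe u

namespace Cfsg.Agent.Lib.Helper3.BlkHeight

theorem height_zero_val {G : Type u} [Group G] (p : ℕ) (B : Set (Cfsg.IrrCharacter G))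
    (χ : Cfsg.IrrCharacter G) (hχ : χ ∈ B) (h0 : Cfsg.blockHeight p B (χ : G → ℂ) = 0) :
    (Cfsg.charDegree (χ : G → ℂ)).factorization p =
      sInf ((fun χ : Cfsg.IrrCharacter G => (Cfsg.charDegree (χ : G → ℂ)).factorization p) '' B) := by
  unfold Cfsg.blockHeight at h0
  have h1 : sInf ((fun χ : Cfsg.IrrCharacter G =>
      (Cfsg.charDegree (χ : G → ℂ)).factorization p) '' B) ≤
      (Cfsg.charDegree (χ : G → ℂ)).factorization p := Nat.sInf_le ⟨χ, hχ, rfl⟩
  omega

theorem exists_height_zero {G : Type u} [Group G] (p : ℕ) (B : Set (Cfsg.IrrCharacter G))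
    (hne : B.Nonempty) : ∃ χ ∈ B, Cfsg.blockHeight p B (χ : G → ℂ) = 0 := by
  have hS : ((fun χ : Cfsg.IrrCharacter G =>
      (Cfsg.charDegree (χ : G → ℂ)).factorization p) '' B).Nonempty := hne.image _
  obtain ⟨χ, hχ, h⟩ := Nat.sInf_mem hS
  refine ⟨χ, hχ, ?_⟩
  unfold Cfsg.blockHeight
  have h2 : (Cfsg.charDegree (χ : G → ℂ)).factorization p = sInf ((fun χ : Cfsg.IrrCharacter G =>
      (Cfsg.charDegree (χ : G → ℂ)).factorization p) '' B) := h
  rw [h2, Nat.sub_self]

theorem val_index_defect {G : Type u} [Group G] [Finite G] {p : ℕ} [hp : Fact p.Prime]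
    {M : Ideal AlgInt} (hM : IsPModular p M) (B : Set (Cfsg.IrrCharacter G))
    (hB : Cfsg.IsPBlock M B) (y : G) (hy : Cfsg.IsDefectClass M B y)
    (χ : Cfsg.IrrCharacter G) (hχ : χ ∈ B) (h0 : Cfsg.blockHeight p B (χ : G → ℂ) = 0) :
    (Nat.card (Subgroup.centralizer ({y} : Set G))).factorization p +
      (Cfsg.charDegree (χ : G → ℂ)).factorization p = (Nat.card G).factorization p := by
  obtain ⟨P⟩ : Nonempty (Sylow p (Subgroup.centralizer ({y} : Set G))) := inferInstance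
  have hD : Cfsg.IsDefectGroup p M B ((P : Subgroup (Subgroup.centralizer ({y} : Set G))).map
      (Subgroup.centralizer ({y} : Set G)).subtype) := ⟨y, hy, P, rfl⟩
  have h1 := Cfsg.Agent.S0908.result p M hM B hB _ hD
  have h2 : Nat.card ((P : Subgroup (Subgroup.centralizer ({y} : Set G))).map
      (Subgroup.centralizer ({y} : Set G)).subtype) =
      Nat.card (P : Subgroup (Subgroup.centralizer ({y} : Set G))) :=
    Subgroup.card_map_of_injective (Subgroup.subtype_injective _)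
  have h3 := P.card_eq_multiplicity
  rw [h2, h3] at h1
  have h4 := Nat.pow_right_injective hp.out.two_le h1
  have h5 := height_zero_val p B χ hχ h0
  obtain ⟨n, hn, hn1, hndvd⟩ := irr_degree_dvd_card χ.2
  have h6 : Cfsg.charDegree (χ : G → ℂ) = n := charDegree_eq hn1
  have h7 : (Cfsg.charDegree (χ : G → ℂ)).factorization p ≤ (Nat.card G).factorization p := by
    rw [h6]
    exact (Nat.factorization_le_iff_dvd hn.ne' Nat.card_pos.ne').mpr hndvd p
  unfold Cfsg.blockDefect at h4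
  rw [h4, ← h5]
  omega

theorem hz_not_li {G : Type u} [Group G] [Finite G] {p : ℕ} [hp : Fact p.Prime]
    {M : Ideal AlgInt} (hM : IsPModular p M) (B : Set (Cfsg.IrrCharacter G))
    (hB : Cfsg.IsPBlock M B) (y : G) (hy : Cfsg.IsDefectClass M B y)
    (χ : Cfsg.IrrCharacter G) (hχ : χ ∈ B) (h0 : Cfsg.blockHeight p B (χ : G → ℂ) = 0) :
    ¬ MemLocalIdeal M ((χ : G → ℂ) y) := by
  intro hli
  have hMp := hM.2.1.isPrime
  have h1 := val_index_defect hM B hB y hy χ hχ h0
  obtain ⟨n, hn, hn1, hndvd⟩ := irr_degree_dvd_card χ.2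
  have h6 : Cfsg.charDegree (χ : G → ℂ) = n := charDegree_eq hn1
  have h7 : (Subgroup.centralizer ({y} : Set G)).index *
      Nat.card (Subgroup.centralizer ({y} : Set G)) = Nat.card G := Subgroup.index_mul_card _
  have hi0 : (Subgroup.centralizer ({y} : Set G)).index ≠ 0 := Subgroup.index_ne_zero_of_finite
  have hc0 : Nat.card (Subgroup.centralizer ({y} : Set G)) ≠ 0 := Nat.card_pos.ne'
  have h8 : ((Subgroup.centralizer ({y} : Set G)).index).factorization p +
      (Nat.card (Subgroup.centralizer ({y} : Set G))).factorization p =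
      (Nat.card G).factorization p := by
    rw [← h7, Nat.factorization_mul hi0 hc0]
    rfl
  have h9 : n.factorization p ≤ ((Subgroup.centralizer ({y} : Set G)).index).factorization p := by
    rw [h6] at h1
    omega
  have h10 := ratio_lr hM ((Subgroup.centralizer ({y} : Set G)).index) n hn.ne' hi0 h9
  apply hy.2.2 χ hχ
  unfold Cfsg.centralChar
  rw [hn1, mul_div_right_comm]
  exact li_mul_left hMp h10 hli

theorem hz_not_li_mul {G : Type u} [Group G] [Finite G] {p : ℕ} [hp : Fact p.Prime]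
    {M : Ideal AlgInt} (hM : IsPModular p M) (B : Set (Cfsg.IrrCharacter G))
    (hB : Cfsg.IsPBlock M B) (y : G) (hy : Cfsg.IsDefectClass M B y)
    (χ : Cfsg.IrrCharacter G) (hχ : χ ∈ B) (h0 : Cfsg.blockHeight p B (χ : G → ℂ) = 0)
    (x : G) (hc : x * y = y * x) (k : ℕ) (hx : x ^ (p ^ k) = 1) :
    ¬ MemLocalIdeal M ((χ : G → ℂ) (x * y)) := by
  intro hli
  have hMp := hM.2.1.isPrime
  have h1 := char_cong hM (isCharacter_of_irr χ.2) x y hc k hx
  apply hz_not_li hM B hB y hy χ hχ h0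
  have h2 := li_sub hMp hli h1
  rw [sub_sub_cancel] at h2
  exact h2

theorem defect_conj_le {G : Type u} [Group G] [Finite G] {p : ℕ} [hp : Fact p.Prime]
    {M : Ideal AlgInt} (hM : IsPModular p M) (B : Set (Cfsg.IrrCharacter G))
    (hB : Cfsg.IsPBlock M B) (D D' : Subgroup G) (hD : Cfsg.IsDefectGroup p M B D)
    (hD' : Cfsg.IsDefectGroup p M B D') :
    ∃ x₀ k : G, D' ≤ (D.map (MulAut.conj x₀).toMonoidHom).map (MulAut.conj k).toMonoidHom := by
  obtain ⟨g, hg, P, rfl⟩ := hD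
  obtain ⟨g', hg', P', rfl⟩ := hD'
  obtain ⟨x₀, Q, hQ⟩ := (Cfsg.Agent.S0911.result p M hM B hB g hg P g').1 hg'.1 hg'.2.1
  have hP'p : IsPGroup p ((P' : Subgroup (Subgroup.centralizer ({g'} : Set G))).map
      (Subgroup.centralizer ({g'} : Set G)).subtype) :=
    P'.isPGroup'.map _
  obtain ⟨k, hk⟩ := sylow_conj_le g' Q _ hP'p (by
    intro r hr
    obtain ⟨r', _, rfl⟩ := hr
    have h1 := Subgroup.mem_centralizer_iff.mp r'.2 g' (Set.mem_singleton g')
    exact h1.symm)
  exact ⟨x₀, k, le_trans hk (Subgroup.map_mono hQ)⟩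

end Cfsg.Agent.Lib.Helper3.BlkHeight
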