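import Mathlib
import Cfsg.Prelude.Def_Characters
import Cfsg.Prelude.Def_Blocks
import Cfsg.Agent.Lib.Helper3.Char
import Cfsg.Agent.Lib.Helper3.CharCore
import Cfsg.Agent.Lib.Helper3.CharInt
import Cfsg.Agent.Lib.Helper3.BlkLocal
import Cfsg.Agent.Lib.Helper3.BlkMat
import Cfsg.Agent.Lib.Helper3.BlkOsima
import Cfsg.Agent.Lib.Helper3.BlkOrth
import Cfsg.Agent.Lib.Helper3.BlkOrth2
import Cfsg.Agent.Lib.Helper3.BlkDef

open Cfsg
open Cfsg.Agent.Lib.Helper3.Char Cfsg.Agent.Lib.Helper3.CharCore Cfsg.Agent.Lib.Helper3.CharInt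
open Cfsg.Agent.Lib.Helper3.BlkLocal Cfsg.Agent.Lib.Helper3.BlkMat
open Cfsg.Agent.Lib.Helper3.BlkOsima Cfsg.Agent.Lib.Helper3.BlkOrth
open Cfsg.Agent.Lib.Helper3.BlkOrth2 Cfsg.Agent.Lib.Helper3.BlkDef
open scoped ComplexConjugate

universe u

namespace Cfsg.Agent.Lib.Helper3.BlkInfl

theorem sameBlock_of_preg {p : ℕ} {M : Ideal AlgInt} (hM : IsPModular p M) {G : Type u}
    [Group G] [Fintype G] (χ ψ : Cfsg.IrrCharacter G)
    (h : ∀ y : G, ¬ p ∣ orderOf y → MemLocalIdeal M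
      (Cfsg.centralChar (χ : G → ℂ) y - Cfsg.centralChar (ψ : G → ℂ) y)) :
    Cfsg.SameBlock M (χ : G → ℂ) (ψ : G → ℂ) := by
  classical
  have _k : Fintype (ConjClasses G) := Fintype.ofFinite _
  have hMp := hM.2.1.isPrime
  by_contra hψ
  have hB : Cfsg.IsPBlock M (Cfsg.blockOf M (χ : G → ℂ)) := ⟨χ, rfl⟩
  have hcf := blockCoeff_classFun (Cfsg.blockOf M (χ : G → ℂ))
  have hR := osima_fun hMp _ hB
  have h1 := blockCoeff_om (Cfsg.blockOf M (χ : G → ℂ)) χ
  have h2 := blockCoeff_om (Cfsg.blockOf M (χ : G → ℂ)) ψ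
  rw [if_pos (show χ ∈ Cfsg.blockOf M (χ : G → ℂ) from sb_refl hMp _)] at h1
  rw [if_neg (show ψ ∉ Cfsg.blockOf M (χ : G → ℂ) from hψ)] at h2
  have h3 := om_classes _ hcf (χ : G → ℂ) (char_classFun (isCharacter_of_irr χ.2))
  have h4 := om_classes _ hcf (ψ : G → ℂ) (char_classFun (isCharacter_of_irr ψ.2))
  rw [h1, div_self (irr_one_ne_zero χ.2)] at h3
  rw [h2, zero_div] at h4
  have h5 : MemLocalIdeal M ((∑ C : ConjClasses G,
      Cfsg.blockCoeff (Cfsg.blockOf M (χ : G → ℂ)) (Quotient.out C) *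
        Cfsg.centralChar (χ : G → ℂ) (Quotient.out C)) -
      ∑ C : ConjClasses G, Cfsg.blockCoeff (Cfsg.blockOf M (χ : G → ℂ)) (Quotient.out C) *
        Cfsg.centralChar (ψ : G → ℂ) (Quotient.out C)) := by
    rw [← Finset.sum_sub_distrib]
    apply li_sum hMp
    intro C _
    rw [← mul_sub]
    by_cases hC : p ∣ orderOf (Quotient.out C : G)
    · rw [blockCoeff_sing hM _ hB _ hC, zero_mul]
      exact li_zero hMp
    · exact li_mul_left hMp (hR _) (h _ hC)
  rw [← h3, ← h4, sub_zero] at h5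
  exact not_li_one hMp h5

theorem preg_lift {p : ℕ} (hp : p.Prime) {G : Type u} [Group G] [Finite G] (N : Subgroup G)
    [N.Normal] (y : G ⧸ N) (hy : ¬ p ∣ orderOf y) :
    ∃ x : G, (QuotientGroup.mk x : G ⧸ N) = y ∧ ¬ p ∣ orderOf x := by
  obtain ⟨x0, rfl⟩ := QuotientGroup.mk_surjective y
  obtain ⟨n, hn⟩ : ∃ n, n = orderOf (QuotientGroup.mk x0 : G ⧸ N) := ⟨_, rfl⟩
  rw [← hn] at hy
  have hn0 : 0 < n := by
    rw [hn]
    exact orderOf_pos _
  obtain ⟨j, hj⟩ : ∃ j, j = (orderOf x0).factorization p := ⟨_, rfl⟩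
  have hcop : Nat.Coprime (p ^ j) n := Nat.Coprime.pow_left j ((Nat.Prime.coprime_iff_not_dvd hp).mpr hy)
  have hmod := Nat.ModEq.pow_totient hcop
  have htot : 0 < Nat.totient n := Nat.totient_pos.mpr hn0
  refine ⟨x0 ^ ((p ^ j) ^ Nat.totient n), ?_, ?_⟩
  · rw [QuotientGroup.mk_pow]
    have h1 : ((p ^ j) ^ Nat.totient n) % n = 1 % n := hmod
    rw [← pow_mod_orderOf, ← hn, h1, hn, pow_mod_orderOf, pow_one]
  · intro hdvd
    have h2 : orderOf (x0 ^ ((p ^ j) ^ Nat.totient n)) ∣ orderOf x0 / p ^ j := by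
      apply orderOf_dvd_of_pow_eq_one
      rw [← pow_mul]
      have h3 : orderOf x0 ∣ (p ^ j) ^ Nat.totient n * (orderOf x0 / p ^ j) := by
        have h4 : p ^ j ∣ (p ^ j) ^ Nat.totient n := dvd_pow_self _ htot.ne'
        obtain ⟨c, hc⟩ := h4
        rw [hc]
        have h5 : p ^ j * (orderOf x0 / p ^ j) = orderOf x0 := by
          rw [hj]
          exact Nat.ordProj_mul_ordCompl_eq_self (orderOf x0) p
        have h6 : p ^ j * c * (orderOf x0 / p ^ j) = orderOf x0 * c := by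
          rw [mul_right_comm, h5]
        rw [h6]
        exact dvd_mul_right _ _
      exact orderOf_dvd_iff_pow_eq_one.mp h3
    have h7 : ¬ p ∣ orderOf x0 / p ^ j := by
      rw [hj]
      exact Nat.not_dvd_ordCompl hp (orderOf_pos x0).ne'
    exact h7 (hdvd.trans h2)

theorem preg_mem_of_index {p : ℕ} (hp : p.Prime) {G : Type u} [Group G] [Finite G]
    (C : Subgroup G) [C.Normal] {k : ℕ} (hC : C.index = p ^ k) (y : G) (hy : ¬ p ∣ orderOf y) :
    y ∈ C := by
  have h1 : y ^ (p ^ k) ∈ C := by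
    rw [← hC]
    exact Subgroup.pow_index_mem C y
  have hcop : Nat.Coprime (p ^ k) (orderOf y) :=
    Nat.Coprime.pow_left k ((Nat.Prime.coprime_iff_not_dvd hp).mpr hy)
  obtain ⟨m, hm⟩ := exists_pow_eq_self_of_coprime hcop
  rw [← hm]
  exact C.pow_mem h1 m

theorem index_cent_quot_dvd {G : Type u} [Group G] [Finite G] (N : Subgroup G) [N.Normal]
    (g : G) : (Subgroup.centralizer ({(QuotientGroup.mk g : G ⧸ N)} : Set (G ⧸ N))).index ∣
      (Subgroup.centralizer ({g} : Set G)).index := by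
  rw [← Subgroup.index_comap_of_surjective _ (QuotientGroup.mk'_surjective N)]
  apply Subgroup.index_dvd_of_le
  intro x hx
  rw [Subgroup.mem_comap, Subgroup.mem_centralizer_iff]
  rw [Subgroup.mem_centralizer_iff] at hx
  intro h hh
  rw [Set.mem_singleton_iff.mp hh]
  have h1 := hx g rfl
  show (QuotientGroup.mk g : G ⧸ N) * QuotientGroup.mk x = QuotientGroup.mk x * QuotientGroup.mk g
  rw [← QuotientGroup.mk_mul, ← QuotientGroup.mk_mul, h1]

theorem index_cent_quot_eq {p : ℕ} (hp : p.Prime) {G : Type u} [Group G] [Finite G]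
    (P : Subgroup G) [P.Normal] (hP : IsPGroup p P) (y : G) (hy : ¬ p ∣ orderOf y)
    (hyP : ∀ u ∈ P, u * y = y * u) :
    (Subgroup.centralizer ({(QuotientGroup.mk y : G ⧸ P)} : Set (G ⧸ P))).index =
      (Subgroup.centralizer ({y} : Set G)).index := by
  rw [← Subgroup.index_comap_of_surjective _ (QuotientGroup.mk'_surjective P)]
  congr 1
  ext x
  rw [Subgroup.mem_comap, Subgroup.mem_centralizer_iff, Subgroup.mem_centralizer_iff]
  constructor
  · intro hx h hh
    rw [Set.mem_singleton_iff.mp hh]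
    have h1 := hx (QuotientGroup.mk y) rfl
    have h2 : (QuotientGroup.mk (y * x) : G ⧸ P) = QuotientGroup.mk (x * y) := by
      rw [QuotientGroup.mk_mul, QuotientGroup.mk_mul]
      exact h1
    have h3 : (y * x)⁻¹ * (x * y) ∈ P := QuotientGroup.eq.mp h2
    obtain ⟨u, hu⟩ : ∃ u, u = (y * x)⁻¹ * (x * y) := ⟨_, rfl⟩
    rw [← hu] at h3
    have h4 : x * y * x⁻¹ = y * (x * u * x⁻¹) := by
      rw [hu]
      group
    have hu' : x * u * x⁻¹ ∈ P := ‹P.Normal›.conj_mem u h3 x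
    obtain ⟨v, hv⟩ : ∃ v, v = x * u * x⁻¹ := ⟨_, rfl⟩
    rw [← hv] at h4 hu'
    have hcomm : Commute y v := (hyP v hu').symm
    have h5 : (x * y * x⁻¹) ^ orderOf y = 1 := by
      rw [conj_pow, pow_orderOf_eq_one]
      group
    rw [h4, hcomm.mul_pow, pow_orderOf_eq_one, one_mul] at h5
    obtain ⟨k, hk⟩ := hP ⟨v, hu'⟩
    have hk' : v ^ (p ^ k) = 1 := by
      have := congrArg Subtype.val hk
      simpa using this
    have hv1 : v = 1 := by
      have h6 : orderOf v ∣ p ^ k := orderOf_dvd_of_pow_eq_one hk'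
      have h7 : orderOf v ∣ orderOf y := orderOf_dvd_of_pow_eq_one h5
      have h8 : Nat.Coprime (p ^ k) (orderOf y) :=
        Nat.Coprime.pow_left k ((Nat.Prime.coprime_iff_not_dvd hp).mpr hy)
      have h9 : orderOf v = 1 := Nat.eq_one_of_dvd_coprimes h8 h6 h7
      exact orderOf_eq_one_iff.mp h9
    rw [hv1, mul_one] at h4
    have h10 : x * y = y * x := by
      have := congrArg (fun t => t * x) h4
      simpa [mul_assoc] using this
    exact h10.symm
  · intro hx h hh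
    rw [Set.mem_singleton_iff.mp hh]
    have h1 := hx y rfl
    show (QuotientGroup.mk y : G ⧸ P) * QuotientGroup.mk x = QuotientGroup.mk x * QuotientGroup.mk y
    rw [← QuotientGroup.mk_mul, ← QuotientGroup.mk_mul, h1]

end Cfsg.Agent.Lib.Helper3.BlkInfl
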