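import Mathlib
import Cfsg.Prelude.Def_Characters
import Cfsg.Prelude.Def_Blocks
import Cfsg.Agent.S0139
import Cfsg.Agent.S0174
import Cfsg.Agent.Lib.Helper3.Char
import Cfsg.Agent.Lib.Helper3.CharCore
import Cfsg.Agent.Lib.Helper3.CharInt
import Cfsg.Agent.Lib.Helper3.CharArith
import Cfsg.Agent.Lib.Helper3.BlkLocal
import Cfsg.Agent.Lib.Helper3.BlkMat
import Cfsg.Agent.Lib.Helper3.BlkOsima
import Cfsg.Agent.Lib.Helper3.BlkOrth
import Cfsg.Agent.Lib.Helper3.BlkOrth2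
import Cfsg.Agent.Lib.Helper3.BlkDef

open Cfsg
open Cfsg.Agent.Lib.Helper3.Char Cfsg.Agent.Lib.Helper3.CharCore Cfsg.Agent.Lib.Helper3.CharInt
open Cfsg.Agent.Lib.Helper3.CharArith
open Cfsg.Agent.Lib.Helper3.BlkLocal Cfsg.Agent.Lib.Helper3.BlkMat
open Cfsg.Agent.Lib.Helper3.BlkOsima Cfsg.Agent.Lib.Helper3.BlkOrth
open Cfsg.Agent.Lib.Helper3.BlkOrth2 Cfsg.Agent.Lib.Helper3.BlkDef
open scoped ComplexConjugate

universe u

namespace Cfsg.Agent.Lib.Helper3.BlkKer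

theorem blockCoeff_one_ne_zero {M : Ideal AlgInt} (hMp : M.IsPrime) {G : Type u} [Group G]
    [Fintype G] (B : Set (Cfsg.IrrCharacter G)) (hB : Cfsg.IsPBlock M B) :
    Cfsg.blockCoeff B 1 ≠ 0 := by
  classical
  have _fi : Fintype (Cfsg.IrrCharacter G) := Fintype.ofFinite _
  obtain ⟨χ0, hχ0⟩ := id hB
  have hχ0B : χ0 ∈ B := by
    rw [hχ0]
    exact sb_refl hMp _
  rw [blockCoeff_eq B]
  apply mul_ne_zero (inv_ne_zero (Nat.cast_ne_zero.mpr Nat.card_pos.ne'))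
  have hterm : ∀ χ : Cfsg.IrrCharacter G, ∃ m : ℕ,
      (if χ ∈ B then (χ : G → ℂ) 1 * conj ((χ : G → ℂ) 1) else 0) = (m : ℂ) ∧
        (χ = χ0 → 0 < m) := by
    intro χ
    obtain ⟨n, hn0, hn⟩ := irr_one_pos χ.2
    by_cases hχ : χ ∈ B
    · refine ⟨n * n, ?_, fun _ => Nat.mul_pos hn0 hn0⟩
      rw [if_pos hχ, hn, Complex.conj_natCast]
      push_cast
      rfl
    · refine ⟨0, ?_, fun h => absurd (h ▸ hχ0B) hχ⟩
      rw [if_neg hχ]
      simp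
  choose m hm hm0 using hterm
  rw [Finset.sum_congr rfl (fun χ _ => hm χ), ← Nat.cast_sum, Nat.cast_ne_zero]
  exact (Finset.sum_pos' (fun _ _ => Nat.zero_le _) ⟨χ0, Finset.mem_univ _, hm0 χ0 rfl⟩).ne'

theorem const_of_inner_one {G : Type u} [Group G] [Fintype G] (N : Subgroup G)
    [hN : N.Normal] [Fintype N] (ψ : G → ℂ) (hψ : Cfsg.IsIrrCharacter G ψ)
    (hin : Cfsg.classInner (fun n : N => ψ n) (fun _ : N => (1 : ℂ)) ≠ 0) :
    ∀ u ∈ N, ψ u = ψ 1 := by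
  classical
  intro u hu
  have h6 := Cfsg.Agent.S0174.result N hN ψ hψ (fun _ : N => (1 : ℂ)) (isIrr_one N) hin
  have hset : {φ : N → ℂ | ∃ g : G, φ = fun n : N =>
      (fun _ : N => (1 : ℂ)) ⟨g * n * g⁻¹, hN.conj_mem n n.2 g⟩} =
      {fun _ : N => (1 : ℂ)} := by
    ext φ
    constructor
    · rintro ⟨g, rfl⟩
      rfl
    · intro h
      exact ⟨1, h⟩
  rw [hset, finsum_mem_singleton] at h6
  have h7 := congrFun h6 ⟨u, hu⟩
  have h8 := congrFun h6 1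
  simp only [Pi.smul_apply, smul_eq_mul, mul_one] at h7 h8
  have h9 : ψ u = ψ ((1 : N) : G) := by rw [h7, h8]
  exact h9

theorem char_ker_sub {G : Type u} [Group G] [Finite G] (ψ : G → ℂ) (hψ : Cfsg.IsCharacter G ψ) :
    ∃ S : Subgroup G, S.Normal ∧ ∀ g, g ∈ S ↔ ψ g = ψ 1 := by
  obtain ⟨n, ρ, rfl⟩ := hψ
  refine ⟨MonoidHom.ker ρ, MonoidHom.normal_ker ρ, fun g => ?_⟩
  rw [MonoidHom.mem_ker, Representation.char_one]
  exact (Cfsg.Agent.S0139.result ρ g).symm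

end Cfsg.Agent.Lib.Helper3.BlkKer
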