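import Mathlib
import Cfsg.Prelude.Def_Characters
import Cfsg.Prelude.Def_Blocks
import Cfsg.Agent.Lib.Helper3.Char
import Cfsg.Agent.Lib.Helper3.CharCore
import Cfsg.Agent.Lib.Helper3.CharInt
import Cfsg.Agent.Lib.Helper3.BlkLocal
import Cfsg.Agent.Lib.Helper3.BlkMat
import Cfsg.Agent.Lib.Helper3.BlkOsima
import Cfsg.Agent.Lib.Helper3.BlkOrth
import Cfsg.Agent.Lib.Helper3.BlkOrth2
import Cfsg.Agent.Lib.Helper3.BlkOrth4
import Cfsg.Agent.Lib.Helper3.BlkDef

open Cfsg
open Cfsg.Agent.Lib.Helper3.Char Cfsg.Agent.Lib.Helper3.CharCore Cfsg.Agent.Lib.Helper3.CharInt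
open Cfsg.Agent.Lib.Helper3.BlkLocal Cfsg.Agent.Lib.Helper3.BlkMat
open Cfsg.Agent.Lib.Helper3.BlkOsima Cfsg.Agent.Lib.Helper3.BlkOrth
open Cfsg.Agent.Lib.Helper3.BlkOrth2 Cfsg.Agent.Lib.Helper3.BlkOrth4
open Cfsg.Agent.Lib.Helper3.BlkDef
open scoped ComplexConjugate

universe u

namespace Cfsg.Agent.Lib.Helper3.BlkLink

def Lnk (p : ℕ) {G : Type u} [Group G] [Fintype G] (φ φ' : Cfsg.IrrCharacter G) : Prop :=
  ∑ x : G, (if p ∣ orderOf x then 0 else (φ : G → ℂ) x * conj ((φ' : G → ℂ) x)) ≠ 0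

theorem link_orth {p : ℕ} {G : Type u} [Group G] [Fintype G] [Fintype (Cfsg.IrrCharacter G)]
    (A : Set (Cfsg.IrrCharacter G)) [DecidablePred (· ∈ A)]
    (hA : ∀ φ ∈ A, ∀ φ' : Cfsg.IrrCharacter G, Lnk p φ φ' → φ' ∈ A) (g h : G)
    (hg : ¬ p ∣ orderOf g) (hh : p ∣ orderOf h) :
    ∑ χ : Cfsg.IrrCharacter G,
      (if χ ∈ A then conj ((χ : G → ℂ) g) * (χ : G → ℂ) h else 0) = 0 := by
  classical
  have hG : (Nat.card G : ℂ) ≠ 0 := by exact_mod_cast Nat.card_pos.ne'
  obtain ⟨c, hc⟩ : ∃ c : Cfsg.IrrCharacter G → Cfsg.IrrCharacter G → ℂ,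
      c = fun (φ ψ : Cfsg.IrrCharacter G) =>
        Cfsg.classInner (fun x : G => if p ∣ orderOf x then 0 else (φ : G → ℂ) x)
          (ψ : G → ℂ) := ⟨_, rfl⟩
  have hcdef : ∀ φ ψ : Cfsg.IrrCharacter G, c φ ψ = (Nat.card G : ℂ)⁻¹ *
      ∑ x : G, (if p ∣ orderOf x then 0 else (φ : G → ℂ) x * conj ((ψ : G → ℂ) x)) := by
    intro φ ψ
    rw [hc]
    show (Nat.card G : ℂ)⁻¹ * ∑ x : G, (if p ∣ orderOf x then 0 else (φ : G → ℂ) x) *
      conj ((ψ : G → ℂ) x) = (Nat.card G : ℂ)⁻¹ *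
      ∑ x : G, (if p ∣ orderOf x then 0 else (φ : G → ℂ) x * conj ((ψ : G → ℂ) x))
    congr 1
    apply Finset.sum_congr rfl
    intro x _
    split_ifs
    · rw [zero_mul]
    · rfl
  have hcA : ∀ φ ∈ A, ∀ ψ : Cfsg.IrrCharacter G, ψ ∉ A → c φ ψ = 0 := by
    intro φ hφ ψ hψ
    by_contra hne
    apply hψ
    apply hA φ hφ ψ
    intro h0
    apply hne
    rw [hcdef, h0, mul_zero]
  have hherm : ∀ φ ψ : Cfsg.IrrCharacter G, conj (c φ ψ) = c ψ φ := by
    intro φ ψ
    rw [hcdef, hcdef, map_mul, map_inv₀, Complex.conj_natCast, map_sum]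
    congr 1
    refine Finset.sum_congr rfl (fun x _ => ?_)
    split_ifs
    · rw [map_zero]
    · rw [map_mul, Complex.conj_conj, mul_comm]
  have hexp : ∀ φ ∈ A, ∀ y : G, (if p ∣ orderOf y then 0 else (φ : G → ℂ) y) =
      ∑ ψ : Cfsg.IrrCharacter G, (if ψ ∈ A then c φ ψ * (ψ : G → ℂ) y else 0) := by
    intro φ hφ y
    have hcf : Cfsg.IsClassFunction G (fun x : G => if p ∣ orderOf x then 0 else (φ : G → ℂ) x) := by
      intro x k
      have ho : orderOf (k * x * k⁻¹) = orderOf x :=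
        (SemiconjBy.orderOf_eq k (show SemiconjBy k x (k * x * k⁻¹) by
          unfold SemiconjBy
          group)).symm
      show (if p ∣ orderOf (k * x * k⁻¹) then 0 else (φ : G → ℂ) (k * x * k⁻¹)) =
        if p ∣ orderOf x then 0 else (φ : G → ℂ) x
      rw [ho, char_classFun (isCharacter_of_irr φ.2) x k]
    have h1 := congrFun (class_fun_expand _ hcf) y
    rw [Finset.sum_apply] at h1
    refine h1.trans ?_
    refine Finset.sum_congr rfl (fun ψ _ => ?_)
    by_cases hψ : ψ ∈ A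
    · rw [if_pos hψ, hc]
      rfl
    · rw [if_neg hψ]
      have h2 := hcA φ hφ ψ hψ
      rw [hc] at h2
      rw [Pi.smul_apply, smul_eq_mul]
      have h3 : Cfsg.classInner (fun x : G => if p ∣ orderOf x then 0 else (φ : G → ℂ) x)
          (ψ : G → ℂ) = 0 := h2
      rw [h3, zero_mul]
  have e1 : ∀ χ : Cfsg.IrrCharacter G,
      (if χ ∈ A then conj ((χ : G → ℂ) g) * (χ : G → ℂ) h else 0) =
      ∑ ψ : Cfsg.IrrCharacter G, (if ψ ∈ A then conj ((ψ : G → ℂ) g) *
        (if χ ∈ A then c ψ χ * (χ : G → ℂ) h else 0) else 0) := by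
    intro χ
    by_cases hχ : χ ∈ A
    · rw [if_pos hχ]
      have h1 := hexp χ hχ g
      rw [if_neg hg] at h1
      rw [h1, map_sum, Finset.sum_mul]
      refine Finset.sum_congr rfl (fun ψ _ => ?_)
      by_cases hψ : ψ ∈ A
      · rw [if_pos hψ, if_pos hψ, if_pos hχ, map_mul, hherm]
        ring
      · rw [if_neg hψ, if_neg hψ, map_zero, zero_mul]
    · rw [if_neg hχ]
      symm
      apply Finset.sum_eq_zero
      intro ψ _
      rw [if_neg hχ, mul_zero]
      split_ifs <;> rfl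
  rw [Finset.sum_congr rfl (fun χ _ => e1 χ), Finset.sum_comm]
  apply Finset.sum_eq_zero
  intro ψ _
  by_cases hψ : ψ ∈ A
  · simp only [if_pos hψ]
    rw [← Finset.mul_sum, ← hexp ψ hψ h, if_pos hh, mul_zero]
  · simp only [if_neg hψ]
    exact Finset.sum_const_zero

theorem link_coeff_lr {p : ℕ} {M : Ideal AlgInt} (hM : IsPModular p M) {G : Type u} [Group G]
    [Fintype G] (A : Set (Cfsg.IrrCharacter G))
    (hA : ∀ φ ∈ A, ∀ φ' : Cfsg.IrrCharacter G, Lnk p φ φ' → φ' ∈ A) (g : G) :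
    MemLocalRing M (Cfsg.blockCoeff A g) := by
  classical
  have _fi : Fintype (Cfsg.IrrCharacter G) := Fintype.ofFinite _
  have hp := hM.1
  have _fp : Fact p.Prime := ⟨hp⟩
  have hMp := hM.2.1.isPrime
  have hG0 : Nat.card G ≠ 0 := Nat.card_pos.ne'
  have h1reg : ¬ p ∣ orderOf (1 : G) := by
    rw [orderOf_one]
    exact hp.one_lt.ne' ∘ Nat.dvd_one.mp
  rw [blockCoeff_eq A]
  by_cases hg : p ∣ orderOf g
  · have h1 := link_orth A hA 1 g h1reg hg
    have h2 := congrArg (starRingEnd ℂ) h1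
    rw [map_sum, map_zero] at h2
    have h3 : ∑ χ : Cfsg.IrrCharacter G,
        (if χ ∈ A then (χ : G → ℂ) 1 * conj ((χ : G → ℂ) g) else 0) = 0 := by
      refine Eq.trans ?_ h2
      refine Finset.sum_congr rfl (fun χ _ => ?_)
      split_ifs
      · rw [map_mul, Complex.conj_conj]
      · rw [map_zero]
    rw [h3, mul_zero]
    exact lr_zero hMp
  · obtain ⟨P⟩ : Nonempty (Sylow p G) := inferInstance
    have _fP : Fintype (P : Subgroup G) := Fintype.ofFinite _
    have hP0 : (Nat.card (P : Subgroup G) : ℂ) ≠ 0 := by exact_mod_cast Nat.card_pos.ne'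
    have hsum : ∀ χ : Cfsg.IrrCharacter G, ∃ t : ℂ, IsIntegral ℤ t ∧
        ∑ x : (P : Subgroup G), (χ : G → ℂ) (x : G) = (Nat.card (P : Subgroup G) : ℂ) * t := by
      intro χ
      have h1 := avg_char_integral (isCharacter_of_irr χ.2) 1 (P : Subgroup G)
        (fun x _ => by rw [mul_one, one_mul])
      refine ⟨_, h1, ?_⟩
      simp only [one_mul]
      rw [← mul_assoc, mul_inv_cancel₀ hP0, one_mul]
    choose t ht1 ht2 using hsum
    have hvan : ∀ x : (P : Subgroup G), x ≠ 1 → ∑ χ : Cfsg.IrrCharacter G,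
        (if χ ∈ A then conj ((χ : G → ℂ) g) * (χ : G → ℂ) (x : G) else 0) = 0 := by
      intro x hx
      apply link_orth A hA g (x : G) hg
      obtain ⟨k, hk⟩ := P.isPGroup' x
      have hk' : (x : G) ^ (p ^ k) = 1 := by
        have := congrArg (Subtype.val) hk
        simpa using this
      have h3 : orderOf (x : G) ∣ p ^ k := orderOf_dvd_of_pow_eq_one hk'
      obtain ⟨j, hj, hj'⟩ := (Nat.dvd_prime_pow hp).mp h3
      have hj0 : j ≠ 0 := by
        intro h0
        rw [h0, pow_zero] at hj'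
        apply hx
        exact Subtype.ext (orderOf_eq_one_iff.mp hj')
      rw [hj']
      exact dvd_pow_self p hj0
    have h4 : ∑ χ : Cfsg.IrrCharacter G,
        (if χ ∈ A then conj ((χ : G → ℂ) g) * (χ : G → ℂ) 1 else 0) =
        (Nat.card (P : Subgroup G) : ℂ) * ∑ χ : Cfsg.IrrCharacter G,
          (if χ ∈ A then conj ((χ : G → ℂ) g) * t χ else 0) := by
      have h5 : ∑ x : (P : Subgroup G), ∑ χ : Cfsg.IrrCharacter G,
          (if χ ∈ A then conj ((χ : G → ℂ) g) * (χ : G → ℂ) (x : G) else 0) =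
          ∑ χ : Cfsg.IrrCharacter G,
            (if χ ∈ A then conj ((χ : G → ℂ) g) * (χ : G → ℂ) 1 else 0) := by
        rw [Finset.sum_eq_single (1 : (P : Subgroup G))]
        · rfl
        · intro x _ hx
          exact hvan x hx
        · intro h
          exact absurd (Finset.mem_univ _) h
      rw [← h5, Finset.sum_comm, Finset.mul_sum]
      refine Finset.sum_congr rfl (fun χ _ => ?_)
      by_cases hχ : χ ∈ A
      · simp only [if_pos hχ]
        rw [← Finset.mul_sum, ht2 χ]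
        ring
      · simp only [if_neg hχ]
        rw [Finset.sum_const_zero, mul_zero]
    have h6 : ∑ χ : Cfsg.IrrCharacter G,
        (if χ ∈ A then (χ : G → ℂ) 1 * conj ((χ : G → ℂ) g) else 0) =
        (Nat.card (P : Subgroup G) : ℂ) * ∑ χ : Cfsg.IrrCharacter G,
          (if χ ∈ A then conj ((χ : G → ℂ) g) * t χ else 0) := by
      rw [← h4]
      refine Finset.sum_congr rfl (fun χ _ => ?_)
      split_ifs
      · rw [mul_comm]
      · rfl
    rw [h6]
    have hidx : Nat.card (P : Subgroup G) * (P : Subgroup G).index = Nat.card G :=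
      Subgroup.card_mul_index _
    have hnd : ¬ p ∣ (P : Subgroup G).index := Sylow.not_dvd_index P
    have hidx0 : ((P : Subgroup G).index : ℂ) ≠ 0 := by
      intro h0
      apply hnd
      have : (P : Subgroup G).index = 0 := by exact_mod_cast h0
      rw [this]
      exact dvd_zero p
    have e : (Nat.card G : ℂ)⁻¹ * ((Nat.card (P : Subgroup G) : ℂ) * ∑ χ : Cfsg.IrrCharacter G,
          (if χ ∈ A then conj ((χ : G → ℂ) g) * t χ else 0)) =
        ((P : Subgroup G).index : ℂ)⁻¹ * ∑ χ : Cfsg.IrrCharacter G,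
          (if χ ∈ A then conj ((χ : G → ℂ) g) * t χ else 0) := by
      have hG' : (Nat.card G : ℂ) = (Nat.card (P : Subgroup G) : ℂ) *
          ((P : Subgroup G).index : ℂ) := by exact_mod_cast hidx.symm
      rw [hG']
      field_simp
    rw [e]
    apply lr_mul hMp (lr_nat_inv hM hnd)
    apply lr_sum hMp
    intro χ _
    split_ifs
    · exact lr_mul hMp (lr_of_isIntegral hMp (map_isIntegral_int (starRingEnd ℂ)
        (char_isIntegral (isCharacter_of_irr χ.2) g))) (lr_of_isIntegral hMp (ht1 χ))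
    · exact lr_zero hMp

end Cfsg.Agent.Lib.Helper3.BlkLink
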