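import Mathlib
import Cfsg.Prelude.Def_Characters
import Cfsg.Prelude.Def_Blocks
import Cfsg.Agent.Lib.Helper3.Char
import Cfsg.Agent.Lib.Helper3.CharCore
import Cfsg.Agent.Lib.Helper3.BlkLocal
import Cfsg.Agent.Lib.Helper3.BlkOsima
import Cfsg.Agent.Lib.Helper3.BlkOrth4
import Cfsg.Agent.Lib.Helper3.BlkSecond
import Cfsg.Agent.Lib.Helper3.BlkSecond3

open Cfsg
open Cfsg.Agent.Lib.Helper3.Char Cfsg.Agent.Lib.Helper3.CharCore
open Cfsg.Agent.Lib.Helper3.BlkLocal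
open Cfsg.Agent.Lib.Helper3.BlkOsima Cfsg.Agent.Lib.Helper3.BlkOrth4
open Cfsg.Agent.Lib.Helper3.BlkSecond Cfsg.Agent.Lib.Helper3.BlkSecond3
open scoped ComplexConjugate

universe u

namespace Cfsg.Agent.Lib.Helper3.BlkPQ

theorem ppart_ne_one {G : Type u} [Group G] {p : ℕ} (g x : G) (h : Cfsg.IsPPart p g x)
    (hg : p ∣ orderOf g) : x ≠ 1 := by
  rintro rfl
  obtain ⟨y, hy, _, _, hreg⟩ := h
  rw [one_mul] at hy
  rw [hy] at hreg
  exact hreg hg

theorem sing_of_ppart {G : Type u} [Group G] [Finite G] {p : ℕ} (hp : p.Prime) (g x : G)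
    (h : Cfsg.IsPPart p g x) (hx : x ≠ 1) : p ∣ orderOf g := by
  obtain ⟨y, hy, hc, ⟨k, hk⟩, hreg⟩ := h
  have hk0 : k ≠ 0 := by
    rintro rfl
    rw [pow_zero, orderOf_eq_one_iff] at hk
    exact hx hk
  have hcop : Nat.Coprime (orderOf x) (orderOf y) := by
    rw [hk]
    exact Nat.Coprime.pow_left k ((Nat.Prime.coprime_iff_not_dvd hp).mpr hreg)
  have h1 := hc.orderOf_mul_eq_mul_orderOf_of_coprime hcop
  rw [← hy, h1, hk]
  exact Dvd.dvd.mul_right (dvd_pow_self p hk0) _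

theorem parseval {G : Type u} [Group G] [Fintype G] [Fintype (Cfsg.IrrCharacter G)]
    (a b : Cfsg.IrrCharacter G → ℂ) :
    ∑ w : G, (∑ χ : Cfsg.IrrCharacter G, a χ * (χ : G → ℂ) w) *
      (∑ ψ : Cfsg.IrrCharacter G, b ψ * conj ((ψ : G → ℂ) w)) =
    (Nat.card G : ℂ) * ∑ χ : Cfsg.IrrCharacter G, a χ * b χ := by
  classical
  simp_rw [Finset.sum_mul_sum]
  calc ∑ w : G, ∑ χ : Cfsg.IrrCharacter G, ∑ ψ : Cfsg.IrrCharacter G,
        a χ * (χ : G → ℂ) w * (b ψ * conj ((ψ : G → ℂ) w))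
      = ∑ χ : Cfsg.IrrCharacter G, ∑ w : G, ∑ ψ : Cfsg.IrrCharacter G,
        a χ * (χ : G → ℂ) w * (b ψ * conj ((ψ : G → ℂ) w)) := Finset.sum_comm
    _ = ∑ χ : Cfsg.IrrCharacter G, ∑ ψ : Cfsg.IrrCharacter G, ∑ w : G,
        a χ * (χ : G → ℂ) w * (b ψ * conj ((ψ : G → ℂ) w)) :=
        Finset.sum_congr rfl (fun χ _ => Finset.sum_comm)
    _ = ∑ χ : Cfsg.IrrCharacter G, ∑ ψ : Cfsg.IrrCharacter G,
        (if χ = ψ then (Nat.card G : ℂ) * (a χ * b χ) else 0) := by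
        refine Finset.sum_congr rfl (fun χ _ => Finset.sum_congr rfl (fun ψ _ => ?_))
        have e : ∑ w : G, a χ * (χ : G → ℂ) w * (b ψ * conj ((ψ : G → ℂ) w)) =
            a χ * b ψ * ∑ w : G, (χ : G → ℂ) w * conj ((ψ : G → ℂ) w) := by
          rw [Finset.mul_sum]
          refine Finset.sum_congr rfl (fun w _ => ?_)
          ring
        rw [e, Cfsg.Agent.Lib.Helper3.BlkOrth4.sum_inner]
        by_cases h : χ = ψ
        · rw [if_pos h, if_pos h, ← h]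
          ring
        · rw [if_neg h, if_neg h, mul_zero]
    _ = (Nat.card G : ℂ) * ∑ χ : Cfsg.IrrCharacter G, a χ * b χ := by
        rw [Finset.mul_sum]
        refine Finset.sum_congr rfl (fun χ _ => ?_)
        rw [Finset.sum_ite_eq]
        simp

theorem pq_vanish {G : Type u} [Group G] [Finite G] (p q : ℕ) [hp : Fact p.Prime]
    [hq : Fact q.Prime] (hpq : p ≠ q) (Mp Mq : Ideal AlgInt) (hMp : IsPModular p Mp)
    (hMq : IsPModular q Mq) (hno : ∀ g : G, orderOf g ≠ p * q)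
    (Bp : Set (Cfsg.IrrCharacter G)) (hBp : Cfsg.IsPBlock Mp Bp)
    (Bq : Set (Cfsg.IrrCharacter G)) (hBq : Cfsg.IsPBlock Mq Bq)
    [Fintype (Cfsg.IrrCharacter G)] [DecidablePred (· ∈ Bp)] [DecidablePred (· ∈ Bq)]
    (y : G) (hy : p ∣ orderOf y) (u : G) (hu : q ∣ orderOf u) :
    ∑ χ : Cfsg.IrrCharacter G,
      (if χ ∈ Bp then (χ : G → ℂ) y⁻¹ else 0) * (if χ ∈ Bq then (χ : G → ℂ) u else 0) = 0 := by
  classical
  have _fg : Fintype G := Fintype.ofFinite G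
  have hG : (Nat.card G : ℂ) ≠ 0 := by exact_mod_cast Nat.card_pos.ne'
  have h1 := parseval (fun χ : Cfsg.IrrCharacter G => if χ ∈ Bp then (χ : G → ℂ) y⁻¹ else 0)
    (fun χ : Cfsg.IrrCharacter G => if χ ∈ Bq then (χ : G → ℂ) u else 0)
  obtain ⟨xy, hxy, _⟩ := exists_ppart p y
  obtain ⟨xu, hxu, _⟩ := exists_ppart q u
  have hxy1 := ppart_ne_one y xy hxy hy
  have hxu1 := ppart_ne_one u xu hxu hu
  have h2 : ∀ w : G, (∑ χ : Cfsg.IrrCharacter G,
      (if χ ∈ Bp then (χ : G → ℂ) y⁻¹ else 0) * (χ : G → ℂ) w) *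
      (∑ ψ : Cfsg.IrrCharacter G,
        (if ψ ∈ Bq then (ψ : G → ℂ) u else 0) * conj ((ψ : G → ℂ) w)) = 0 := by
    intro w
    obtain ⟨zp, hzp, _⟩ := exists_ppart p w
    obtain ⟨zq, hzq, _⟩ := exists_ppart q w
    by_cases hc1 : IsConj zp xy
    · by_cases hc2 : IsConj xu zq
      · exfalso
        have hzp1 : zp ≠ 1 := by
          rintro rfl
          exact hxy1 (isConj_one_right.mp hc1)
        have hzq1 : zq ≠ 1 := by
          rintro rfl
          exact hxu1 (isConj_one_left.mp hc2)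
        have hpw := sing_of_ppart hp.out w zp hzp hzp1
        have hqw := sing_of_ppart hq.out w zq hzq hzq1
        have hpqw : p * q ∣ orderOf w :=
          Nat.Coprime.mul_dvd_of_dvd_of_dvd ((Nat.coprime_primes hp.out hq.out).mpr hpq) hpw hqw
        exact hno _ (orderOf_pow_orderOf_div (orderOf_pos w).ne' hpqw)
      · have h3 := block_orth hMq Bq hBq u w xu zq hxu hzq hc2
        have e : ∑ ψ : Cfsg.IrrCharacter G,
            (if ψ ∈ Bq then (ψ : G → ℂ) u else 0) * conj ((ψ : G → ℂ) w) = 0 := by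
          refine Eq.trans (Finset.sum_congr rfl (fun ψ _ => ?_)) h3
          split_ifs
          · rw [char_inv (isCharacter_of_irr ψ.2)]
          · rw [zero_mul]
        rw [e, mul_zero]
    · have h3 := block_orth hMp Bp hBp w y zp xy hzp hxy hc1
      have e : ∑ χ : Cfsg.IrrCharacter G,
          (if χ ∈ Bp then (χ : G → ℂ) y⁻¹ else 0) * (χ : G → ℂ) w = 0 := by
        refine Eq.trans (Finset.sum_congr rfl (fun χ _ => ?_)) h3
        split_ifs
        · rw [mul_comm]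
        · rw [zero_mul]
      rw [e, zero_mul]
  rw [Finset.sum_congr rfl (fun w _ => h2 w), Finset.sum_const_zero] at h1
  rcases mul_eq_zero.mp h1.symm with h3 | h3
  · exact absurd h3 hG
  · exact h3

end Cfsg.Agent.Lib.Helper3.BlkPQ
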