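import Mathlib
import Cfsg.Prelude.Def_Characters
import Cfsg.Prelude.Def_Blocks
import Cfsg.Agent.Lib.Helper3.Char
import Cfsg.Agent.Lib.Helper3.CharCore
import Cfsg.Agent.Lib.Helper3.CharInt
import Cfsg.Agent.Lib.Helper3.BlkLocal
import Cfsg.Agent.Lib.Helper3.BlkMat
import Cfsg.Agent.Lib.Helper3.BlkOsima
import Cfsg.Agent.Lib.Helper3.BlkOrth
import Cfsg.Agent.Lib.Helper3.BlkOrth2
import Cfsg.Agent.Lib.Helper3.BlkOrth4
import Cfsg.Agent.Lib.Helper3.BlkCover
import Cfsg.Agent.Lib.Helper3.BlkMinMax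
import Cfsg.Agent.Lib.Helper3.BlkBrauer
import Cfsg.Agent.Lib.Helper3.BlkLam
import Cfsg.Agent.Lib.Helper3.BlkBr
import Cfsg.Agent.Lib.Helper3.BlkFirst
import Cfsg.Agent.Lib.Helper3.Core
import Cfsg.Agent.Lib.Helper3.BlkFirst2
import Cfsg.Agent.Lib.Helper3.GrpSyl
import Cfsg.Agent.Lib.Helper3.BlkCore
import Cfsg.Agent.Lib.Helper3.BlkFirst3
import Cfsg.Agent.Lib.Helper3.CharInd
import Cfsg.Agent.Lib.Helper3.CharCliff
import Cfsg.Agent.Lib.Helper3.CharNormal
import Cfsg.Agent.Lib.Helper3.BlkClif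
import Cfsg.Agent.Lib.Helper3.BlkClif2
import Cfsg.Agent.S0923
import Cfsg.Agent.S0965
import Cfsg.Agent.S0911
import Cfsg.Agent.S0908
import Cfsg.Agent.S0912
import Cfsg.Agent.S0917

open Cfsg
open Cfsg.Agent.Lib.Helper3.Char Cfsg.Agent.Lib.Helper3.CharCore Cfsg.Agent.Lib.Helper3.CharInt
open Cfsg.Agent.Lib.Helper3.BlkLocal Cfsg.Agent.Lib.Helper3.BlkMat
open Cfsg.Agent.Lib.Helper3.BlkOsima Cfsg.Agent.Lib.Helper3.BlkOrth
open Cfsg.Agent.Lib.Helper3.BlkOrth2 Cfsg.Agent.Lib.Helper3.BlkOrth4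
open Cfsg.Agent.Lib.Helper3.BlkCover Cfsg.Agent.Lib.Helper3.BlkMinMax
open Cfsg.Agent.Lib.Helper3.BlkBrauer Cfsg.Agent.Lib.Helper3.BlkLam
open Cfsg.Agent.Lib.Helper3.BlkBr Cfsg.Agent.Lib.Helper3.BlkFirst Cfsg.Agent.Lib.Helper3.Core
open Cfsg.Agent.Lib.Helper3.BlkFirst2 Cfsg.Agent.Lib.Helper3.GrpSyl Cfsg.Agent.Lib.Helper3.BlkCore
open Cfsg.Agent.Lib.Helper3.BlkFirst3 Cfsg.Agent.Lib.Helper3.CharInd Cfsg.Agent.Lib.Helper3.CharCliff
open Cfsg.Agent.Lib.Helper3.CharNormal Cfsg.Agent.Lib.Helper3.BlkClif Cfsg.Agent.Lib.Helper3.BlkClif2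
open scoped ComplexConjugate

universe u

namespace Cfsg.Agent.Lib.Helper3.BlkTr

theorem isConj_equiv {A B : Type*} [Group A] [Group B] (e : A ≃* B) (a x : A) :
    IsConj a x ↔ IsConj (e a) (e x) := by
  constructor
  · intro h
    obtain ⟨c, hc⟩ := isConj_iff.mp h
    exact isConj_iff.mpr ⟨e c, by rw [← map_inv, ← map_mul, ← map_mul, hc]⟩
  · intro h
    obtain ⟨c, hc⟩ := isConj_iff.mp h
    refine isConj_iff.mpr ⟨e.symm c, e.injective ?_⟩
    rw [map_mul, map_mul, map_inv, e.apply_symm_apply, hc]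

theorem cc_equiv {A B : Type u} [Group A] [Group B] [Fintype A] [Fintype B] (e : A ≃* B)
    (χ : B → ℂ) (hχ : Cfsg.IsClassFunction B χ) (a : A) :
    Cfsg.centralChar (χ ∘ e) a = Cfsg.centralChar χ (e a) := by
  classical
  have hcf : Cfsg.IsClassFunction A (χ ∘ e) := by
    intro x k
    show χ (e (k * x * k⁻¹)) = χ (e x)
    rw [map_mul, map_mul, map_inv]
    exact hχ (e x) (e k)
  rw [cc_eq_sum _ hcf a, cc_eq_sum χ hχ (e a)]
  have h1 : (χ ∘ e) 1 = χ 1 := by
    show χ (e 1) = χ 1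
    rw [map_one]
  rw [h1]
  congr 1
  rw [← Equiv.sum_comp e.toEquiv (fun y : B => (if IsConj (e a) y then (1 : ℂ) else 0) * χ y)]
  refine Finset.sum_congr rfl (fun x _ => ?_)
  have e2 := isConj_equiv e a x
  show (if IsConj a x then (1 : ℂ) else 0) * χ (e x) =
    (if IsConj (e a) (e x) then (1 : ℂ) else 0) * χ (e x)
  simp only [e2]

theorem sb_equiv {M : Ideal AlgInt} {A B : Type u} [Group A] [Group B] [Fintype A] [Fintype B]
    (e : A ≃* B) (χ ψ : B → ℂ) (hχ : Cfsg.IsClassFunction B χ) (hψ : Cfsg.IsClassFunction B ψ) :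
    Cfsg.SameBlock M (χ ∘ e) (ψ ∘ e) ↔ Cfsg.SameBlock M χ ψ := by
  constructor
  · intro h y
    have h1 := h (e.symm y)
    rw [cc_equiv e χ hχ, cc_equiv e ψ hψ, e.apply_symm_apply] at h1
    exact h1
  · intro h a
    rw [cc_equiv e χ hχ, cc_equiv e ψ hψ]
    exact h (e a)

def trI {A B : Type u} [Group A] [Group B] (e : A ≃* B) (θ : Cfsg.IrrCharacter B) :
    Cfsg.IrrCharacter A :=
  ⟨(θ : B → ℂ) ∘ e, comp_isIrr e.toMonoidHom e.surjective θ.2⟩

theorem trI_apply {A B : Type u} [Group A] [Group B] (e : A ≃* B) (θ : Cfsg.IrrCharacter B)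
    (a : A) : ((trI e θ : Cfsg.IrrCharacter A) : A → ℂ) a = (θ : B → ℂ) (e a) := rfl

theorem trI_surj {A B : Type u} [Group A] [Group B] (e : A ≃* B) (η : Cfsg.IrrCharacter A) :
    ∃ θ : Cfsg.IrrCharacter B, trI e θ = η := by
  refine ⟨trI e.symm η, ?_⟩
  apply Subtype.ext
  funext a
  rw [trI_apply, trI_apply, e.symm_apply_apply]

theorem trB_block {M : Ideal AlgInt} {A B : Type u} [Group A] [Group B] [Fintype A]
    [Fintype B] (e : A ≃* B) (b : Set (Cfsg.IrrCharacter B)) (hb : Cfsg.IsPBlock M b) :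
    Cfsg.IsPBlock M (trI e '' b) := by
  obtain ⟨θ₀, rfl⟩ := hb
  refine ⟨trI e θ₀, ?_⟩
  ext η
  constructor
  · rintro ⟨θ, hθ, rfl⟩
    exact (sb_equiv e _ _ (char_classFun (isCharacter_of_irr θ₀.2))
      (char_classFun (isCharacter_of_irr θ.2))).mpr hθ
  · intro hη
    obtain ⟨θ, rfl⟩ := trI_surj e η
    exact ⟨θ, (sb_equiv e _ _ (char_classFun (isCharacter_of_irr θ₀.2))
      (char_classFun (isCharacter_of_irr θ.2))).mp hη, rfl⟩

theorem indcc_sum {G : Type u} [Group G] (H : Subgroup G) [Fintype H] (ξ : H → ℂ) (g : G)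
    [DecidablePred (fun h : H => IsConj g (h : G))] :
    Cfsg.inducedCentralChar H ξ g = ∑ h : H, (if IsConj g (h : G) then ξ h / ξ 1 else 0) := by
  classical
  unfold Cfsg.inducedCentralChar
  rw [finsum_mem_ite]
  refine Finset.sum_congr rfl (fun h _ => ?_)
  by_cases hc : IsConj g (h : G)
  · rw [if_pos hc, if_pos (by exact hc)]
  · rw [if_neg hc, if_neg (by exact hc)]

theorem conj_classFun {G : Type u} [Group G] (K : Subgroup G) (g : G)
    [DecidablePred (fun k : K => IsConj g (k : G))] :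
    Cfsg.IsClassFunction K (fun k : K => if IsConj g (k : G) then (1 : ℂ) else 0) := by
  intro h k
  have e : IsConj g ((k * h * k⁻¹ : K) : G) ↔ IsConj g (h : G) := by
    have e1 : IsConj (h : G) ((k * h * k⁻¹ : K) : G) := by
      rw [isConj_iff]
      exact ⟨(k : G), by simp⟩
    constructor
    · intro h2
      exact h2.trans e1.symm
    · intro h2
      exact h2.trans e1
  show (if IsConj g ((k * h * k⁻¹ : K) : G) then (1 : ℂ) else 0) =
    if IsConj g (h : G) then 1 else 0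
  simp only [e]

theorem ind_trans {M : Ideal AlgInt} (hMp : M.IsPrime) {G : Type u} [Group G] [Fintype G]
    (H K : Subgroup G) (hHK : H ≤ K) [Fintype H] [Fintype K] [Fintype ↥(H.subgroupOf K)]
    (b : Set (Cfsg.IrrCharacter H)) (β : Set (Cfsg.IrrCharacter K))
    (B : Set (Cfsg.IrrCharacter G))
    (h1 : Cfsg.IsInducedBlock M (H.subgroupOf K)
      (trI (Subgroup.subgroupOfEquivOfLe hHK) '' b) β)
    (h2 : Cfsg.IsInducedBlock M H b B) : Cfsg.IsInducedBlock M K β B := by
  classical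
  have _fc : Fintype (ConjClasses K) := Fintype.ofFinite _
  refine ⟨h1.2.1, h2.2.1, ?_⟩
  intro η hη χ hχ g
  obtain ⟨ξ, hξ⟩ : ∃ ξ : Cfsg.IrrCharacter H, ξ ∈ b := by
    obtain ⟨ξ0, h0⟩ := h2.1
    exact ⟨ξ0, by rw [h0]; exact sb_refl hMp _⟩
  have hξ' : trI (Subgroup.subgroupOfEquivOfLe hHK) ξ ∈
      trI (Subgroup.subgroupOfEquivOfLe hHK) '' b := ⟨ξ, hξ, rfl⟩
  have hφ := conj_classFun K g
  have hA : Cfsg.inducedCentralChar K (η : K → ℂ) g = ∑ C : ConjClasses K,
      (if IsConj g ((Quotient.out C : K) : G) then (1 : ℂ) else 0) *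
        Cfsg.centralChar (η : K → ℂ) (Quotient.out C) := by
    rw [indcc_sum, ← om_classes _ hφ (η : K → ℂ) (char_classFun (isCharacter_of_irr η.2)),
      Finset.sum_div]
    refine Finset.sum_congr rfl (fun k _ => ?_)
    by_cases hc : IsConj g (k : G)
    · rw [if_pos hc, if_pos hc, one_mul]
    · rw [if_neg hc, if_neg hc, zero_mul, zero_div]
  have hB : Cfsg.inducedCentralChar H (ξ : H → ℂ) g = ∑ C : ConjClasses K,
      (if IsConj g ((Quotient.out C : K) : G) then (1 : ℂ) else 0) *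
        Cfsg.inducedCentralChar (H.subgroupOf K)
          ((trI (Subgroup.subgroupOfEquivOfLe hHK) ξ : Cfsg.IrrCharacter ↥(H.subgroupOf K)) :
            ↥(H.subgroupOf K) → ℂ) (Quotient.out C) := by
    have hinner : ∀ C : ConjClasses K,
        (if IsConj g ((Quotient.out C : K) : G) then (1 : ℂ) else 0) *
        Cfsg.inducedCentralChar (H.subgroupOf K)
          ((trI (Subgroup.subgroupOfEquivOfLe hHK) ξ : Cfsg.IrrCharacter ↥(H.subgroupOf K)) :
            ↥(H.subgroupOf K) → ℂ) (Quotient.out C) =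
        ∑ h' : ↥(H.subgroupOf K), (if IsConj (Quotient.out C) (h' : K) then
          (if IsConj g ((h' : K) : G) then (1 : ℂ) else 0) *
            ((ξ : H → ℂ) (Subgroup.subgroupOfEquivOfLe hHK h') / (ξ : H → ℂ) 1) else 0) := by
      intro C
      rw [indcc_sum, Finset.mul_sum]
      refine Finset.sum_congr rfl (fun h' _ => ?_)
      by_cases hc : IsConj (Quotient.out C) (h' : K)
      · rw [if_pos hc, if_pos hc]
        have e1 : IsConj g ((Quotient.out C : K) : G) ↔ IsConj g ((h' : K) : G) := by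
          obtain ⟨c, hc'⟩ := isConj_iff.mp hc
          have e2 : IsConj ((Quotient.out C : K) : G) ((h' : K) : G) := by
            rw [isConj_iff]
            refine ⟨(c : G), ?_⟩
            have h3 := congrArg (fun k : K => (k : G)) hc'
            simpa using h3
          exact ⟨fun h => h.trans e2, fun h => h.trans e2.symm⟩
        simp only [e1]
        rw [trI_apply, trI_apply, map_one]
      · rw [if_neg hc, if_neg hc, mul_zero]
    rw [Finset.sum_congr rfl (fun C _ => hinner C), Finset.sum_comm, indcc_sum,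
      ← Equiv.sum_comp (Subgroup.subgroupOfEquivOfLe hHK).toEquiv
        (fun h : H => if IsConj g (h : G) then (ξ : H → ℂ) h / (ξ : H → ℂ) 1 else 0)]
    refine Finset.sum_congr rfl (fun h' _ => ?_)
    rw [Finset.sum_eq_single (ConjClasses.mk (h' : K))]
    · have h4 : IsConj (Quotient.out (ConjClasses.mk (h' : K))) (h' : K) := by
        rw [← ConjClasses.mk_eq_mk_iff_isConj]
        exact Quotient.out_eq _
      rw [if_pos h4]
      show (if IsConj g ((h' : K) : G) then
          (ξ : H → ℂ) (Subgroup.subgroupOfEquivOfLe hHK h') / (ξ : H → ℂ) 1 else 0) =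
        (if IsConj g ((h' : K) : G) then (1 : ℂ) else 0) *
          ((ξ : H → ℂ) (Subgroup.subgroupOfEquivOfLe hHK h') / (ξ : H → ℂ) 1)
      by_cases hc : IsConj g ((h' : K) : G)
      · rw [if_pos hc, if_pos hc, one_mul]
      · rw [if_neg hc, if_neg hc, zero_mul]
    · intro C _ hC
      rw [if_neg]
      intro hc
      apply hC
      rw [← Quotient.out_eq C]
      exact ConjClasses.mk_eq_mk_iff_isConj.mpr hc
    · intro h
      exact absurd (Finset.mem_univ _) h
  have h3 := h2.2.2 ξ hξ χ hχ g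
  have h4 : MemLocalIdeal M (Cfsg.inducedCentralChar K (η : K → ℂ) g -
      Cfsg.inducedCentralChar H (ξ : H → ℂ) g) := by
    rw [hA, hB, ← Finset.sum_sub_distrib]
    apply li_sum hMp
    intro C _
    rw [← mul_sub]
    by_cases hc : IsConj g ((Quotient.out C : K) : G)
    · rw [if_pos hc, one_mul]
      have h5 := h1.2.2 _ hξ' η hη (Quotient.out C)
      have h6 := li_neg h5
      rw [neg_sub] at h6
      exact h6
    · rw [if_neg hc, zero_mul]
      exact li_zero hMp
  have h7 := li_add hMp h4 h3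
  rw [sub_add_sub_cancel] at h7
  exact h7

theorem defect_of_induced {G : Type u} [Group G] [Finite G] {p : ℕ} [Fact p.Prime]
    {M : Ideal AlgInt} (hM : IsPModular p M) (B : Set (Cfsg.IrrCharacter G))
    (hB : Cfsg.IsPBlock M B) (P : Subgroup G) (hP : Cfsg.IsDefectGroup p M B P)
    (H : Subgroup G) (hPH : P ≤ H) (hHN : H ≤ Subgroup.normalizer (P : Set G))
    (β : Set (Cfsg.IrrCharacter H)) (hind : Cfsg.IsInducedBlock M H β B) :
    (∀ Db : Subgroup H, Cfsg.IsDefectGroup p M β Db → Db.map H.subtype = P) ∧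
      Cfsg.IsDefectGroup p M β (P.subgroupOf H) := by
  classical
  have _fg : Fintype G := Fintype.ofFinite G
  have _fh : Fintype H := Fintype.ofFinite H
  have hMp := hM.2.1.isPrime
  have hcardP := Cfsg.Agent.S0908.result p M hM B hB P hP
  have hPp : IsPGroup p P := IsPGroup.of_card hcardP
  have hall : ∀ Db : Subgroup H, Cfsg.IsDefectGroup p M β Db → Db.map H.subtype = P := by
    intro Db hDb
    have h912 := Cfsg.Agent.S0912.result p M hM β hind.1 _ hDb
    obtain ⟨E, hE, hle⟩ := Cfsg.Agent.S0917.result p M hM _ β hind.1 B hB hind _ hDb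
    have hcardE := Cfsg.Agent.S0908.result p M hM B hB E hE
    have hsub : P ≤ Db.map H.subtype := by
      have h1 : P.subgroupOf H ≤ Cfsg.pCore p H := by
        apply le_pCore
        · exact (Subgroup.normal_subgroupOf_iff_le_normalizer hPH).mpr hHN
        · exact hPp.comap_subtype
      intro d hd
      exact Subgroup.mem_map.mpr ⟨⟨d, hPH hd⟩, h912 (h1 (Subgroup.mem_subgroupOf.mpr hd)), rfl⟩
    apply (Subgroup.eq_of_le_of_card_ge hsub ?_).symm
    calc Nat.card (Db.map H.subtype) ≤ Nat.card E := Subgroup.card_le_of_le hle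
      _ = Nat.card P := by rw [hcardE, hcardP]
  refine ⟨hall, ?_⟩
  obtain ⟨zc, hzc⟩ := defect_class hMp β hind.1
  obtain ⟨T⟩ : Nonempty (Sylow p (Subgroup.centralizer ({zc} : Set H))) := inferInstance
  have hDb : Cfsg.IsDefectGroup p M β ((T : Subgroup _).map
      (Subgroup.centralizer ({zc} : Set H)).subtype) := ⟨zc, hzc, T, rfl⟩
  have h1 := hall _ hDb
  have h2 : P.subgroupOf H = (T : Subgroup _).map
      (Subgroup.centralizer ({zc} : Set H)).subtype := by
    ext n
    rw [Subgroup.mem_subgroupOf]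
    constructor
    · intro hn
      have h3 := (SetLike.ext_iff.mp h1 (n : G)).mpr hn
      obtain ⟨m, hm, hmn⟩ := h3
      have h4 : m = n := Subtype.ext hmn
      rw [← h4]
      exact hm
    · intro hn
      exact (SetLike.ext_iff.mp h1 (n : G)).mp ⟨n, hn, rfl⟩
  rw [h2]
  exact hDb

theorem induced_of_cover {p : ℕ} [Fact p.Prime] {M : Ideal AlgInt} (hM : IsPModular p M)
    {Γ : Type u} [Group Γ] [Fintype Γ] (Q : Subgroup Γ) [Q.Normal] (hQ : IsPGroup p Q)
    (L' : Subgroup Γ) [hL : L'.Normal] [Fintype L']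
    (hCL : Subgroup.centralizer (Q : Set Γ) ≤ L')
    (b' : Set (Cfsg.IrrCharacter L')) (hb' : Cfsg.IsPBlock M b')
    (β : Set (Cfsg.IrrCharacter Γ)) (hβ : Cfsg.IsPBlock M β)
    (hcov : ∃ χ ∈ β, ∃ θ ∈ b', Cfsg.classInner (fun n : L' => (χ : Γ → ℂ) n) (θ : L' → ℂ) ≠ 0) :
    Cfsg.IsInducedBlock M L' b' β := by
  classical
  have hMp := hM.2.1.isPrime
  have h965 := (Cfsg.Agent.S0965.result p M hM L' β hβ b' hb').mp hcov
  refine ⟨hb', hβ, ?_⟩
  intro ξ hξ χ hχ g
  by_cases hg : g ∈ L'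
  · have h1 := h965 χ hχ ξ hξ ⟨g, hg⟩
    have h2 := li_neg h1
    rw [neg_sub] at h2
    exact h2
  · have hempty : {h : L' | IsConj g (h : Γ)} = ∅ := by
      ext h
      simp only [Set.mem_ofPred_eq, Set.mem_empty_iff_false, iff_false]
      intro hc
      apply hg
      obtain ⟨c, hc'⟩ := isConj_iff.mp hc
      have h1 : g = c⁻¹ * (h : Γ) * c⁻¹⁻¹ := by
        rw [← hc']
        group
      rw [h1]
      exact hL.conj_mem _ h.2 c⁻¹
    have h0 : Cfsg.inducedCentralChar L' (ξ : L' → ℂ) g = 0 := by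
      unfold Cfsg.inducedCentralChar
      rw [hempty, finsum_mem_empty]
    rw [h0, zero_sub]
    apply li_neg
    have hncent : ∃ u ∈ Q, u * g ≠ g * u := by
      by_contra hall
      push Not at hall
      apply hg
      apply hCL
      rw [Subgroup.mem_centralizer_iff]
      exact hall
    exact cc_li_of_not_cent hM Q hQ β hβ χ hχ g hncent

theorem exists_lying_over {G : Type u} [Group G] [Fintype G] (N : Subgroup G) [Fintype N]
    (θ : Cfsg.IrrCharacter N) :
    ∃ χ : Cfsg.IrrCharacter G,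
      Cfsg.classInner (fun n : N => (χ : G → ℂ) n) (θ : N → ℂ) ≠ 0 := by
  by_contra hne
  push Not at hne
  have h0 : Cfsg.indFun N (θ : N → ℂ) = 0 := by
    apply class_fun_eq_zero_of_inner _ (indFun_classFun N _)
    intro χ hχ
    rw [frobenius N (θ : N → ℂ) χ (char_classFun (isCharacter_of_irr hχ)),
      classInner_conj_symm (fun h : N => χ h) (θ : N → ℂ), hne ⟨χ, hχ⟩, map_zero]
  have h1 := indFun_one N (θ : N → ℂ)
  rw [h0] at h1
  have h2 : (N.index : ℂ) ≠ 0 := by
    have h3 : N.index ≠ 0 := Subgroup.index_ne_zero_of_finite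
    exact_mod_cast h3
  exact mul_ne_zero h2 (irr_one_ne_zero θ.2) h1.symm

end Cfsg.Agent.Lib.Helper3.BlkTr
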