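import Mathlib
import Cfsg.Prelude.Def_Blocks
import Cfsg.Agent.Lib.Helper3.BlkSecond
import Cfsg.Agent.Lib.Helper3.BlkSecond2

set_option autoImplicit false

open Cfsg.Agent.Lib.Helper3.BlkSecond Cfsg.Agent.Lib.Helper3.BlkSecond2

namespace Cfsg.Agent.Lib.Helper3.GrpPReg

theorem pelem_mem_sylow {G : Type*} [Group G] (p : ℕ) [hp : Fact p.Prime] (Q : Sylow p G)
    (u : G) (k : ℕ) (hu : u ^ (p ^ k) = 1) (hc : ∀ q ∈ Q, q * u = u * q) : u ∈ Q := by
  have h1 : IsPGroup p (Subgroup.zpowers u) := zpowers_pgroup p u k hu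
  have h2 : Subgroup.zpowers u ≤ Subgroup.normalizer ((Q : Subgroup G) : Set G) := by
    rw [Subgroup.zpowers_le, Subgroup.mem_normalizer_iff]
    intro x
    constructor
    · intro hx
      have h3 : u * x * u⁻¹ = x := by
        rw [← hc x hx, mul_inv_cancel_right]
      rw [h3]
      exact hx
    · intro hx
      have h3 : u * x * u⁻¹ ∈ (Q : Subgroup G) := hx
      have h4 := hc _ h3
      have h5 : x = u * x * u⁻¹ := by
        have h6 : u * x = u * (u * x * u⁻¹) := by
          rw [← h4]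
          group
        exact mul_left_cancel h6
      rw [h5]
      exact h3
  have h3 := h1.to_sup_of_normal_right' Q.2 h2
  have h4 := Q.is_maximal' h3 le_sup_right
  have h5 : u ∈ Subgroup.zpowers u ⊔ (Q : Subgroup G) :=
    (le_sup_left : Subgroup.zpowers u ≤ _) (Subgroup.mem_zpowers u)
  exact (SetLike.ext_iff.mp h4 u).mp h5

theorem preg_card_not_dvd {G : Type*} [Group G] [Finite G] (p : ℕ) [hp : Fact p.Prime] :
    ¬ p ∣ Nat.card {x : G // ¬ p ∣ orderOf x} := by
  classical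
  obtain ⟨Q⟩ : Nonempty (Sylow p G) := inferInstance
  let act : MulAction (Q : Subgroup G) {x : G // ¬ p ∣ orderOf x} :=
    { smul := fun q x => ⟨(q : G) * x.1 * (q : G)⁻¹, by
        have h1 : orderOf ((q : G) * x.1 * (q : G)⁻¹) = orderOf x.1 :=
          (SemiconjBy.orderOf_eq (q : G) (show SemiconjBy (q : G) x.1 ((q : G) * x.1 * (q : G)⁻¹) by
            unfold SemiconjBy
            group)).symm
        rw [h1]
        exact x.2⟩
      one_smul := fun x => Subtype.ext (by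
        show ((1 : (Q : Subgroup G)) : G) * x.1 * ((1 : (Q : Subgroup G)) : G)⁻¹ = x.1
        simp)
      mul_smul := fun a b x => Subtype.ext (by
        show ((a * b : (Q : Subgroup G)) : G) * x.1 * ((a * b : (Q : Subgroup G)) : G)⁻¹ =
          (a : G) * ((b : G) * x.1 * (b : G)⁻¹) * (a : G)⁻¹
        simp [mul_assoc]) }
  have hsm : ∀ (q : (Q : Subgroup G)) (x : {x : G // ¬ p ∣ orderOf x}),
      (q • x).1 = (q : G) * x.1 * (q : G)⁻¹ := fun _ _ => rfl
  have h1 := Q.2.card_modEq_card_fixedPoints {x : G // ¬ p ∣ orderOf x}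
  obtain ⟨C, hC⟩ : ∃ C : Subgroup G, C = Subgroup.centralizer ((Q : Subgroup G) : Set G) :=
    ⟨_, rfl⟩
  obtain ⟨Z, hZ⟩ : ∃ Z : Subgroup G, Z = (Q : Subgroup G) ⊓ C := ⟨_, rfl⟩
  have hZmem : ∀ z : G, z ∈ Z ↔ z ∈ (Q : Subgroup G) ∧ z ∈ C := by
    intro z
    rw [hZ]
    exact Subgroup.mem_inf
  have hCmem : ∀ c : G, c ∈ C ↔ ∀ q ∈ (Q : Subgroup G), q * c = c * q := by
    intro c
    rw [hC, Subgroup.mem_centralizer_iff]
    rfl
  have hfix : ∀ x : {x : G // ¬ p ∣ orderOf x},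
      x ∈ MulAction.fixedPoints (Q : Subgroup G) {x : G // ¬ p ∣ orderOf x} ↔ x.1 ∈ C := by
    intro x
    rw [hCmem, MulAction.mem_fixedPoints]
    constructor
    · intro h q hq
      have h2 := congrArg Subtype.val (h ⟨q, hq⟩)
      rw [hsm] at h2
      have h3 : q * x.1 * q⁻¹ = x.1 := h2
      calc q * x.1 = q * x.1 * q⁻¹ * q := by group
        _ = x.1 * q := by rw [h3]
    · intro h q
      apply Subtype.ext
      rw [hsm, h (q : G) q.2, mul_inv_cancel_right]
  have hZQ : ∀ z : G, z ∈ Z → ∃ k : ℕ, orderOf z = p ^ k := by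
    intro z hz
    obtain ⟨k, hk⟩ := Q.2 ⟨z, ((hZmem z).mp hz).1⟩
    have hk' : z ^ (p ^ k) = 1 := by
      have h2 := congrArg (fun t : (Q : Subgroup G) => (t : G)) hk
      simpa using h2
    obtain ⟨j, _, hj⟩ := (Nat.dvd_prime_pow hp.out).mp (orderOf_dvd_of_pow_eq_one hk')
    exact ⟨j, hj⟩
  have hmem : ∀ (z : Z) (x : MulAction.fixedPoints (Q : Subgroup G) {x : G // ¬ p ∣ orderOf x}),
      (z : G) * (x : {x : G // ¬ p ∣ orderOf x}).1 ∈ C := by
    intro z x
    have hz : (z : G) ∈ C := ((hZmem _).mp z.2).2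
    exact C.mul_mem hz ((hfix x.1).mp x.2)
  have hpp : ∀ (z : Z) (x : MulAction.fixedPoints (Q : Subgroup G) {x : G // ¬ p ∣ orderOf x}),
      Cfsg.IsPPart p ((z : G) * (x : {x : G // ¬ p ∣ orderOf x}).1) (z : G) := by
    intro z x
    refine ⟨(x : {x : G // ¬ p ∣ orderOf x}).1, rfl, ?_, hZQ z z.2, x.1.2⟩
    have hz : (z : G) ∈ (Q : Subgroup G) := ((hZmem _).mp z.2).1
    exact (hCmem _).mp ((hfix x.1).mp x.2) z hz
  have hbij : Function.Bijective (fun zx : Z × MulAction.fixedPoints (Q : Subgroup G)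
      {x : G // ¬ p ∣ orderOf x} => (⟨(zx.1 : G) * (zx.2 : {x : G // ¬ p ∣ orderOf x}).1,
        hmem zx.1 zx.2⟩ : C)) := by
    constructor
    · rintro ⟨z, x⟩ ⟨z', x'⟩ h
      have h2 : (z : G) * (x : {x : G // ¬ p ∣ orderOf x}).1 =
          (z' : G) * (x' : {x : G // ¬ p ∣ orderOf x}).1 := congrArg Subtype.val h
      have h3 := hpp z x
      have h4 := hpp z' x'
      rw [← h2] at h4
      have h5 := ppart_unique p _ _ _ h3 h4
      rw [h5] at h2
      have h6 := mul_left_cancel h2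
      have e1 : z = z' := Subtype.ext h5
      have e2 : x = x' := Subtype.ext (Subtype.ext h6)
      rw [e1, e2]
    · intro c
      obtain ⟨u, ⟨y, huy, hcomm, ⟨k, hk⟩, hy⟩, hu_mem⟩ := exists_ppart p (c : G)
      have huC : u ∈ C := (Subgroup.zpowers_le.mpr c.2) hu_mem
      have hyC : y ∈ C := by
        have h2 : y = u⁻¹ * (c : G) := by
          rw [← huy, inv_mul_cancel_left]
        rw [h2]
        exact C.mul_mem (C.inv_mem huC) c.2
      have huQ : u ∈ Q := by
        apply pelem_mem_sylow p Q u k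
        · rw [← hk, pow_orderOf_eq_one]
        · exact (hCmem u).mp huC
      have huZ : u ∈ Z := (hZmem u).mpr ⟨huQ, huC⟩
      refine ⟨(⟨u, huZ⟩, ⟨⟨y, hy⟩, (hfix ⟨y, hy⟩).mpr hyC⟩), ?_⟩
      exact Subtype.ext huy
  have h2 : Nat.card C = Nat.card Z * Nat.card (MulAction.fixedPoints (Q : Subgroup G)
      {x : G // ¬ p ∣ orderOf x}) := by
    rw [← Nat.card_prod]
    exact (Nat.card_congr (Equiv.ofBijective _ hbij)).symm
  have hZp : IsPGroup p (Z.subgroupOf C) := by
    have h3 : IsPGroup p Z := by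
      apply Q.2.to_le
      rw [hZ]
      exact inf_le_left
    exact h3.comap_subtype
  obtain ⟨S, hS⟩ := hZp.exists_le_sylow
  have hSZ : (S : Subgroup C) ≤ Z.subgroupOf C := by
    intro s hs
    rw [Subgroup.mem_subgroupOf]
    obtain ⟨k, hk⟩ := S.2 ⟨s, hs⟩
    have hk' : (s : G) ^ (p ^ k) = 1 := by
      have h3 := congrArg (fun t : (S : Subgroup C) => ((t : C) : G)) hk
      simpa using h3
    exact (hZmem _).mpr ⟨pelem_mem_sylow p Q (s : G) k hk' ((hCmem _).mp s.2), s.2⟩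
  have hcard : Nat.card (S : Subgroup C) = Nat.card Z := by
    have h3 : (S : Subgroup C) = Z.subgroupOf C := le_antisymm hSZ hS
    rw [h3]
    have h4 : Z ≤ C := by
      rw [hZ]
      exact inf_le_right
    exact Nat.card_congr (Subgroup.subgroupOfEquivOfLe h4).toEquiv
  have h3 : Nat.card (S : Subgroup C) * (S : Subgroup C).index = Nat.card C :=
    Subgroup.card_mul_index _
  have h4 : (S : Subgroup C).index = Nat.card (MulAction.fixedPoints (Q : Subgroup G)
      {x : G // ¬ p ∣ orderOf x}) := by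
    have hpos : 0 < Nat.card Z := Nat.card_pos
    rw [hcard, h2] at h3
    exact Nat.eq_of_mul_eq_mul_left hpos h3
  have h5 := S.not_dvd_index
  intro hdvd
  have h6 : p ∣ Nat.card (MulAction.fixedPoints (Q : Subgroup G)
      {x : G // ¬ p ∣ orderOf x}) :=
    (Nat.modEq_zero_iff_dvd.mp (h1.symm.trans (Nat.modEq_zero_iff_dvd.mpr hdvd)))
  rw [← h4] at h6
  exact h5 h6

end Cfsg.Agent.Lib.Helper3.GrpPReg
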