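import Mathlib
import Cfsg.Prelude.Def_Characters
import Cfsg.Prelude.Def_Blocks
import Cfsg.Agent.Lib.Helper3.Char
import Cfsg.Agent.Lib.Helper3.CharCore
import Cfsg.Agent.Lib.Helper3.CharInd
import Cfsg.Agent.Lib.Helper3.CharArith
import Cfsg.Agent.Lib.Helper3.CharInt
import Cfsg.Agent.Lib.Helper3.BlkLocal
import Cfsg.Agent.Lib.Helper3.BlkOsima
import Cfsg.Agent.Lib.Helper3.BlkOrth
import Cfsg.Agent.Lib.Helper3.BlkOrth2
import Cfsg.Agent.Lib.Helper3.BlkOrth3
import Cfsg.Agent.Lib.Helper3.BlkOrth4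
import Cfsg.Agent.Lib.Helper3.BlkSecond3
import Cfsg.Agent.Lib.Helper3.BlkClif
import Cfsg.Agent.Lib.Helper3.BlkTr
import Cfsg.Agent.S0923
import Cfsg.Agent.S0936

set_option autoImplicit false

open Cfsg
open Cfsg.Agent.Lib.Helper3.Char Cfsg.Agent.Lib.Helper3.CharCore Cfsg.Agent.Lib.Helper3.CharInt
open Cfsg.Agent.Lib.Helper3.CharInd Cfsg.Agent.Lib.Helper3.CharArith
open Cfsg.Agent.Lib.Helper3.BlkLocal
open Cfsg.Agent.Lib.Helper3.BlkOsima Cfsg.Agent.Lib.Helper3.BlkOrth
open Cfsg.Agent.Lib.Helper3.BlkOrth2 Cfsg.Agent.Lib.Helper3.BlkOrth3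
open Cfsg.Agent.Lib.Helper3.BlkOrth4 Cfsg.Agent.Lib.Helper3.BlkSecond3
open Cfsg.Agent.Lib.Helper3.BlkClif Cfsg.Agent.Lib.Helper3.BlkTr
open scoped ComplexConjugate

universe u

namespace Cfsg.Agent.Lib.Helper3.BlkPrin

theorem prin_ker {p : ℕ} [Fact p.Prime] {M : Ideal AlgInt} (hM : IsPModular p M) {G : Type u}
    [Group G] [Fintype G] (N : Subgroup G) [hN : N.Normal] (hcop : (Nat.card N).Coprime p)
    (χ : Cfsg.IrrCharacter G) (hχ : Cfsg.SameBlock M (fun _ : G => (1 : ℂ)) (χ : G → ℂ))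
    (n : G) (hn : n ∈ N) : (χ : G → ℂ) n = (χ : G → ℂ) 1 := by
  classical
  have _fc : Fintype (ConjClasses G) := Fintype.ofFinite _
  have _fn : Fintype N := Fintype.ofFinite _
  have _fin : Fintype (Cfsg.IrrCharacter N) := Fintype.ofFinite _
  have hMp := hM.2.1.isPrime
  obtain ⟨oneG, hoG⟩ : ∃ o : Cfsg.IrrCharacter G, (o : G → ℂ) = fun _ => 1 :=
    ⟨⟨_, isIrr_one G⟩, rfl⟩
  obtain ⟨oneN, hoN⟩ : ∃ o : Cfsg.IrrCharacter N, (o : N → ℂ) = fun _ => 1 :=
    ⟨⟨_, isIrr_one N⟩, rfl⟩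
  obtain ⟨f, hf⟩ : ∃ f : G → ℂ, f = fun x => if x ∈ N then (1 : ℂ) else 0 := ⟨_, rfl⟩
  have hfc : Cfsg.IsClassFunction G f := by
    intro g h
    rw [hf]
    have e : h * g * h⁻¹ ∈ N ↔ g ∈ N := by
      constructor
      · intro h1
        have h2 := hN.conj_mem _ h1 h⁻¹
        simpa [mul_assoc] using h2
      · intro h1
        exact hN.conj_mem _ h1 h
    show (if h * g * h⁻¹ ∈ N then (1 : ℂ) else 0) = if g ∈ N then 1 else 0
    simp only [e]
  have hcardN : (Nat.card N : ℂ) ≠ 0 := by exact_mod_cast Nat.card_pos.ne'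
  have hoo : Cfsg.classInner (fun n : N => (oneG : G → ℂ) n) (oneN : N → ℂ) ≠ 0 := by
    rw [hoG, hoN]
    unfold Cfsg.classInner
    simp only [map_one, mul_one, Finset.sum_const, Finset.card_univ, nsmul_eq_mul]
    rw [← Nat.card_eq_fintype_card, inv_mul_cancel₀ hcardN]
    exact one_ne_zero
  have hθ : ∀ θ : Cfsg.IrrCharacter N,
      Cfsg.classInner (fun n : N => (χ : G → ℂ) n) (θ : N → ℂ) ≠ 0 → θ = oneN := by
    intro θ hcon
    by_contra hne
    have h1 : ∀ g : G, MemLocalIdeal M (f g * (Cfsg.inducedCentralChar N (oneN : N → ℂ) g -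
        Cfsg.inducedCentralChar N (θ : N → ℂ) g)) := by
      intro g
      by_cases hg : g ∈ N
      · have e1 : Cfsg.centralChar (χ : G → ℂ) g = Cfsg.inducedCentralChar N (θ : N → ℂ) g :=
          lying_cc N χ θ hcon ⟨g, hg⟩
        have e2 : Cfsg.centralChar (oneG : G → ℂ) g =
            Cfsg.inducedCentralChar N (oneN : N → ℂ) g := lying_cc N oneG oneN hoo ⟨g, hg⟩
        have h2 := hχ g
        rw [← hoG] at h2
        have h3 : f g = 1 := by
          rw [hf]
          exact if_pos hg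
        rw [h3, one_mul, ← e1, ← e2]
        exact h2
      · have h3 : f g = 0 := by
          rw [hf]
          exact if_neg hg
        rw [h3, zero_mul]
        exact li_zero hMp
    have h2 : MemLocalIdeal M ((∑ h : N, f (h : G) * (oneN : N → ℂ) h) / (oneN : N → ℂ) 1 -
        (∑ h : N, f (h : G) * (θ : N → ℂ) h) / (θ : N → ℂ) 1) := by
      rw [Cfsg.Agent.S0936.om_ind N f hfc, Cfsg.Agent.S0936.om_ind N f hfc,
        ← Finset.sum_sub_distrib]
      apply li_sum hMp
      intro C _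
      rw [← mul_sub]
      exact h1 _
    have h3 : ∑ h : N, f (h : G) * (θ : N → ℂ) h = 0 := by
      have h4 := sum_inner θ oneN
      rw [if_neg hne] at h4
      rw [← h4]
      refine Finset.sum_congr rfl (fun h _ => ?_)
      rw [hf, hoN]
      simp [h.2]
    have h5 : (∑ h : N, f (h : G) * (oneN : N → ℂ) h) / (oneN : N → ℂ) 1 =
        (Nat.card N : ℂ) := by
      rw [hf, hoN]
      simp [Nat.card_eq_fintype_card]
    rw [h3, zero_div, sub_zero, h5] at h2
    have h6 := (li_nat_iff hM _).mp h2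
    exact (Nat.Prime.coprime_iff_not_dvd (Fact.out)).mp hcop.symm h6
  have hres : Cfsg.IsClassFunction N (fun n : N => (χ : G → ℂ) n) := by
    intro g h
    have h1 := char_classFun (isCharacter_of_irr χ.2) (g : G) (h : G)
    simpa using h1
  have hexp := class_fun_expand _ hres
  have hval : ∀ m : N, (χ : G → ℂ) m =
      Cfsg.classInner (fun n : N => (χ : G → ℂ) n) (oneN : N → ℂ) := by
    intro m
    have h1 := congrFun hexp m
    rw [Finset.sum_apply, Finset.sum_eq_single oneN] at h1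
    · rw [h1]
      simp [hoN]
    · intro θ _ hne
      have h2 : Cfsg.classInner (fun n : N => (χ : G → ℂ) n) (θ : N → ℂ) = 0 := by
        by_contra hcon
        exact hne (hθ θ hcon)
      simp [h2]
    · intro h
      exact absurd (Finset.mem_univ _) h
  have h1 : (χ : G → ℂ) n = _ := hval ⟨n, hn⟩
  have h2 : (χ : G → ℂ) 1 = _ := hval 1
  rw [h1, h2]

theorem ind_unique {M : Ideal AlgInt} (hMp : M.IsPrime) {G : Type u} [Group G] (H : Subgroup G)
    (b : Set (Cfsg.IrrCharacter H)) (B B' : Set (Cfsg.IrrCharacter G))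
    (h : Cfsg.IsInducedBlock M H b B) (h' : Cfsg.IsInducedBlock M H b B') : B = B' := by
  obtain ⟨ξ, hb⟩ := h.1
  have hξ : ξ ∈ b := by
    rw [hb]
    exact sb_refl hMp _
  obtain ⟨χ, hB⟩ := h.2.1
  obtain ⟨χ', hB'⟩ := h'.2.1
  have hχ : χ ∈ B := by
    rw [hB]
    exact sb_refl hMp _
  have hχ' : χ' ∈ B' := by
    rw [hB']
    exact sb_refl hMp _
  have hsb : Cfsg.SameBlock M (χ : G → ℂ) (χ' : G → ℂ) := by
    intro g
    have h1 := h.2.2 ξ hξ χ hχ g
    have h2 := h'.2.2 ξ hξ χ' hχ' g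
    have h3 := li_sub hMp h2 h1
    rw [sub_sub_sub_cancel_left] at h3
    exact h3
  rw [hB, hB']
  ext ψ
  constructor
  · intro hψ
    exact sb_trans hMp (sb_symm hsb) hψ
  · intro hψ
    exact sb_trans hMp hsb hψ

theorem sec_part {p : ℕ} [Fact p.Prime] {M : Ideal AlgInt} (hM : IsPModular p M) {G : Type u}
    [Group G] [Finite G] (z : G) (hz : ∃ k : ℕ, orderOf z = p ^ k) (ζ : Cfsg.IrrCharacter G)
    [Decidable (ζ ∈ Cfsg.principalBlock M G)]
    (y : Subgroup.centralizer ({z} : Set G)) (hy : ¬ p ∣ orderOf y) :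
    Cfsg.blockPart (Cfsg.principalBlock M (Subgroup.centralizer ({z} : Set G)))
      (fun c : Subgroup.centralizer ({z} : Set G) => (ζ : G → ℂ) (z * (c : G))) y =
      if ζ ∈ Cfsg.principalBlock M G then (ζ : G → ℂ) (z * (y : G)) else 0 := by
  classical
  have _fg : Fintype G := Fintype.ofFinite G
  have _fh : Fintype (Subgroup.centralizer ({z} : Set G)) := Fintype.ofFinite _
  have _fih : Fintype (Cfsg.IrrCharacter (Subgroup.centralizer ({z} : Set G))) :=
    Fintype.ofFinite _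
  have hMp := hM.2.1.isPrime
  obtain ⟨oneG, hoG⟩ : ∃ o : Cfsg.IrrCharacter G, (o : G → ℂ) = fun _ => 1 :=
    ⟨⟨_, isIrr_one G⟩, rfl⟩
  obtain ⟨oneH, hoH⟩ : ∃ o : Cfsg.IrrCharacter (Subgroup.centralizer ({z} : Set G)),
      (o : Subgroup.centralizer ({z} : Set G) → ℂ) = fun _ => 1 := ⟨⟨_, isIrr_one _⟩, rfl⟩
  have hbG : Cfsg.IsPBlock M (Cfsg.principalBlock M G) := ⟨oneG, by rw [hoG]; rfl⟩
  have hbH : Cfsg.IsPBlock M (Cfsg.principalBlock M (Subgroup.centralizer ({z} : Set G))) :=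
    ⟨oneH, by rw [hoH]; rfl⟩
  by_cases hζ : ζ ∈ Cfsg.principalBlock M G
  · rw [if_pos hζ]
    have hcf : Cfsg.IsClassFunction (Subgroup.centralizer ({z} : Set G))
        (fun c : Subgroup.centralizer ({z} : Set G) => (ζ : G → ℂ) (z * (c : G))) := by
      intro c k
      have hk : (k : G) * z = z * (k : G) := Subgroup.mem_centralizer_iff.mp k.2 z rfl |>.symm
      show (ζ : G → ℂ) (z * ((k * c * k⁻¹ : Subgroup.centralizer ({z} : Set G)) : G)) =
        (ζ : G → ℂ) (z * (c : G))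
      have h1 : z * ((k * c * k⁻¹ : Subgroup.centralizer ({z} : Set G)) : G) =
          (k : G) * (z * (c : G)) * (k : G)⁻¹ := by
        push_cast
        rw [← mul_assoc, ← mul_assoc, ← hk]
        simp [mul_assoc]
      rw [h1]
      exact char_classFun (isCharacter_of_irr ζ.2) _ _
    have hexp := congrFun (class_fun_expand _ hcf) y
    rw [Finset.sum_apply] at hexp
    simp only [Pi.smul_apply, smul_eq_mul] at hexp
    rw [hexp]
    obtain ⟨β, hβ⟩ : ∃ β : Cfsg.IrrCharacter (Subgroup.centralizer ({z} : Set G)) →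
        Set (Cfsg.IrrCharacter (Subgroup.centralizer ({z} : Set G))),
        β = fun ξ : Cfsg.IrrCharacter (Subgroup.centralizer ({z} : Set G)) =>
          Cfsg.blockOf M (ξ : Subgroup.centralizer ({z} : Set G) → ℂ) := ⟨_, rfl⟩
    have hβmem : ∀ ξ ξ₁ : Cfsg.IrrCharacter (Subgroup.centralizer ({z} : Set G)),
        β ξ = β ξ₁ ↔ ξ ∈ β ξ₁ := by
      intro ξ ξ₁
      have hβa : ∀ ξ' : Cfsg.IrrCharacter (Subgroup.centralizer ({z} : Set G)),
          β ξ' = Cfsg.blockOf M (ξ' : Subgroup.centralizer ({z} : Set G) → ℂ) := by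
        intro ξ'
        rw [hβ]
      rw [hβa, hβa]
      constructor
      · intro h
        rw [← h]
        exact sb_refl hMp _
      · intro h
        exact Cfsg.Agent.S0923.block_eq_of_mem hMp _ _ ⟨ξ, rfl⟩ ⟨ξ₁, rfl⟩ ξ (sb_refl hMp _) h
    rw [← Finset.sum_fiberwise_of_maps_to (s := Finset.univ) (t := Finset.univ.image β)
      (g := β) (fun ξ _ => Finset.mem_image_of_mem β (Finset.mem_univ ξ))]
    have hterm : ∀ b ∈ Finset.univ.image β,
        ∑ ξ ∈ Finset.univ.filter (fun ξ => β ξ = b),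
          Cfsg.classInner (fun c : Subgroup.centralizer ({z} : Set G) =>
            (ζ : G → ℂ) (z * (c : G))) (ξ : Subgroup.centralizer ({z} : Set G) → ℂ) *
            (ξ : Subgroup.centralizer ({z} : Set G) → ℂ) y =
        Cfsg.blockPart b (fun c : Subgroup.centralizer ({z} : Set G) =>
          (ζ : G → ℂ) (z * (c : G))) y := by
      intro b hb
      obtain ⟨ξ₁, _, rfl⟩ := Finset.mem_image.mp hb
      rw [blockPart_eq, Finset.sum_filter]
      refine Finset.sum_congr rfl (fun ξ _ => ?_)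
      by_cases h : ξ ∈ β ξ₁
      · rw [if_pos h, if_pos ((hβmem ξ ξ₁).mpr h)]
        rfl
      · rw [if_neg h, if_neg (fun h' => h ((hβmem ξ ξ₁).mp h'))]
    rw [Finset.sum_congr rfl hterm]
    have hmem0 : Cfsg.principalBlock M (Subgroup.centralizer ({z} : Set G)) ∈
        Finset.univ.image β := by
      rw [Finset.mem_image]
      refine ⟨oneH, Finset.mem_univ _, ?_⟩
      rw [hβ]
      show Cfsg.blockOf M (oneH : Subgroup.centralizer ({z} : Set G) → ℂ) = _
      rw [hoH]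
      rfl
    rw [Finset.sum_eq_single_of_mem _ hmem0]
    intro b hb hne
    obtain ⟨ξ₁, _, rfl⟩ := Finset.mem_image.mp hb
    apply Cfsg.Agent.S0923.result p M hM z hz (Cfsg.principalBlock M G) hbG ζ hζ (β ξ₁)
      (by rw [hβ]; exact ⟨ξ₁, rfl⟩) _ y hy
    intro hind
    exact hne ((Cfsg.Agent.S0936.result p M hM _ _ ⟨_, hind⟩).mp hind)
  · rw [if_neg hζ]
    apply Cfsg.Agent.S0923.result p M hM z hz (Cfsg.blockOf M (ζ : G → ℂ)) ⟨ζ, rfl⟩ ζ
      (sb_refl hMp _) _ hbH _ y hy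
    intro hind
    have h1 := (Cfsg.Agent.S0936.result p M hM _ _ ⟨_, hind⟩).mpr rfl
    have h2 := ind_unique hMp _ _ _ _ hind h1
    apply hζ
    rw [← h2]
    exact sb_refl hMp _

end Cfsg.Agent.Lib.Helper3.BlkPrin
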