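import Mathlib
import Cfsg.Prelude.Def_Characters
import Cfsg.Prelude.Def_Blocks
import Cfsg.Agent.Lib.Helper3.Char
import Cfsg.Agent.Lib.Helper3.CharCore
import Cfsg.Agent.Lib.Helper3.CharInd
import Cfsg.Agent.Lib.Helper3.CharArith
import Cfsg.Agent.Lib.Helper3.CharInt
import Cfsg.Agent.Lib.Helper3.CharTable
import Cfsg.Agent.Lib.Helper3.Core
import Cfsg.Agent.Lib.Helper3.BlkLocal
import Cfsg.Agent.Lib.Helper3.BlkOsima
import Cfsg.Agent.Lib.Helper3.BlkOrth
import Cfsg.Agent.Lib.Helper3.BlkOrth2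
import Cfsg.Agent.Lib.Helper3.BlkOrth3
import Cfsg.Agent.Lib.Helper3.BlkOrth4
import Cfsg.Agent.Lib.Helper3.BlkDef
import Cfsg.Agent.Lib.Helper3.BlkCover
import Cfsg.Agent.Lib.Helper3.BlkSecond
import Cfsg.Agent.Lib.Helper3.BlkSecond2
import Cfsg.Agent.Lib.Helper3.BlkSecond3
import Cfsg.Agent.Lib.Helper3.BlkPrin
import Cfsg.Agent.S0174

set_option autoImplicit false

open Cfsg
open Cfsg.Agent.Lib.Helper3.Char Cfsg.Agent.Lib.Helper3.CharCore Cfsg.Agent.Lib.Helper3.CharInt
open Cfsg.Agent.Lib.Helper3.CharInd Cfsg.Agent.Lib.Helper3.CharArith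
open Cfsg.Agent.Lib.Helper3.CharTable Cfsg.Agent.Lib.Helper3.Core
open Cfsg.Agent.Lib.Helper3.BlkLocal
open Cfsg.Agent.Lib.Helper3.BlkOsima Cfsg.Agent.Lib.Helper3.BlkOrth
open Cfsg.Agent.Lib.Helper3.BlkOrth2 Cfsg.Agent.Lib.Helper3.BlkOrth3
open Cfsg.Agent.Lib.Helper3.BlkOrth4 Cfsg.Agent.Lib.Helper3.BlkDef
open Cfsg.Agent.Lib.Helper3.BlkCover
open Cfsg.Agent.Lib.Helper3.BlkSecond Cfsg.Agent.Lib.Helper3.BlkSecond2
open Cfsg.Agent.Lib.Helper3.BlkSecond3 Cfsg.Agent.Lib.Helper3.BlkPrin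
open scoped ComplexConjugate

universe u

namespace Cfsg.Agent.Lib.Helper3.BlkPrin2

theorem finsum_mem_ite' {α : Type*} {β : Type*} [AddCommMonoid β] [Fintype α] (s : Set α)
    [DecidablePred (· ∈ s)] (f : α → β) :
    ∑ᶠ i ∈ s, f i = ∑ i : α, if i ∈ s then f i else 0 := by
  have h1 : s = ((Finset.univ.filter (· ∈ s) : Finset α) : Set α) := by
    ext x
    simp
  have h2 : ∑ᶠ i ∈ s, f i = ∑ᶠ i ∈ ((Finset.univ.filter (· ∈ s) : Finset α) : Set α), f i := by
    rw [← h1]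
  rw [h2, finsum_mem_coe_finset, Finset.sum_filter]

theorem finsum_norm_sq {α : Type*} [Fintype α] (s : Set α) [DecidablePred (· ∈ s)] (f : α → ℂ) :
    (((∑ᶠ a ∈ s, ‖f a‖ ^ 2 : ℝ)) : ℂ) = ∑ a : α, if a ∈ s then f a * conj (f a) else 0 := by
  rw [finsum_mem_ite', Complex.ofReal_sum]
  refine Finset.sum_congr rfl (fun a _ => ?_)
  split_ifs
  · rw [Complex.mul_conj']
    push_cast
    rfl
  · simp

theorem sb_of_preg {p : ℕ} {M : Ideal AlgInt} (hM : IsPModular p M) {G : Type u} [Group G]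
    [Fintype G] (χ ψ : Cfsg.IrrCharacter G)
    (h : ∀ g : G, ¬ p ∣ orderOf g →
      MemLocalIdeal M (Cfsg.centralChar (χ : G → ℂ) g - Cfsg.centralChar (ψ : G → ℂ) g)) :
    Cfsg.SameBlock M (χ : G → ℂ) (ψ : G → ℂ) := by
  classical
  have _fc : Fintype (ConjClasses G) := Fintype.ofFinite _
  have hMp := hM.2.1.isPrime
  have hB : Cfsg.IsPBlock M (Cfsg.blockOf M (χ : G → ℂ)) := ⟨χ, rfl⟩
  have hχB : χ ∈ Cfsg.blockOf M (χ : G → ℂ) := sb_refl hMp _
  by_contra hψ
  have hψB : ψ ∉ Cfsg.blockOf M (χ : G → ℂ) := hψ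
  have h1 := blockCoeff_om (Cfsg.blockOf M (χ : G → ℂ)) χ
  have h2 := blockCoeff_om (Cfsg.blockOf M (χ : G → ℂ)) ψ
  rw [if_pos hχB] at h1
  rw [if_neg hψB] at h2
  have h3 := om_classes (Cfsg.blockCoeff (Cfsg.blockOf M (χ : G → ℂ))) (blockCoeff_classFun _)
    (χ : G → ℂ) (char_classFun (isCharacter_of_irr χ.2))
  have h4 := om_classes (Cfsg.blockCoeff (Cfsg.blockOf M (χ : G → ℂ))) (blockCoeff_classFun _)
    (ψ : G → ℂ) (char_classFun (isCharacter_of_irr ψ.2))
  rw [h1, div_self (irr_one_ne_zero χ.2)] at h3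
  rw [h2, zero_div] at h4
  have h5 : MemLocalIdeal M
      (∑ C : ConjClasses G, Cfsg.blockCoeff (Cfsg.blockOf M (χ : G → ℂ)) (Quotient.out C) *
        Cfsg.centralChar (χ : G → ℂ) (Quotient.out C) -
       ∑ C : ConjClasses G, Cfsg.blockCoeff (Cfsg.blockOf M (χ : G → ℂ)) (Quotient.out C) *
        Cfsg.centralChar (ψ : G → ℂ) (Quotient.out C)) := by
    rw [← Finset.sum_sub_distrib]
    apply li_sum hMp
    intro C _
    rw [← mul_sub]
    by_cases hc : p ∣ orderOf (Quotient.out C)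
    · rw [blockCoeff_sing hM _ hB _ hc, zero_mul]
      exact li_zero hMp
    · exact li_mul_left hMp (osima_fun hMp _ hB _) (h _ hc)
  rw [← h3, ← h4, sub_zero] at h5
  exact not_li_one hMp h5

theorem preg_mem_of_index {p : ℕ} [Fact p.Prime] {H : Type*} [Group H] (K : Subgroup H)
    [K.Normal] (k : ℕ) (hk : K.index = p ^ k) (y : H) (hy : ¬ p ∣ orderOf y) : y ∈ K := by
  have h1 : y ^ (p ^ k) ∈ K := by
    rw [← hk]
    exact Subgroup.pow_index_mem K y
  have hcop : Nat.Coprime (p ^ k) (orderOf y) :=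
    Nat.Coprime.pow_left k ((Nat.Prime.coprime_iff_not_dvd Fact.out).mpr hy)
  obtain ⟨m, hm⟩ := exists_pow_eq_self_of_coprime hcop
  rw [← hm]
  exact K.pow_mem h1 m

theorem triv_constituent {G : Type u} [Group G] [Fintype G] (N : Subgroup G) [hN : N.Normal]
    [Fintype N] (χ : Cfsg.IrrCharacter G)
    (hcon : Cfsg.classInner (fun n : N => (χ : G → ℂ) n) (fun _ : N => (1 : ℂ)) ≠ 0)
    (n : G) (hn : n ∈ N) : (χ : G → ℂ) n = (χ : G → ℂ) 1 := by
  obtain ⟨S, hS⟩ : ∃ S : Set (N → ℂ),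
      S = {ψ : N → ℂ | ∃ _g : G, ψ = fun _ : N => (1 : ℂ)} := ⟨_, rfl⟩
  have h174 : (fun n : N => (χ : G → ℂ) n) =
      Cfsg.classInner (fun n : N => (χ : G → ℂ) n) (fun _ : N => (1 : ℂ)) • ∑ᶠ ψ ∈ S, ψ := by
    rw [hS]
    exact Cfsg.Agent.S0174.result N hN (χ : G → ℂ) χ.2 (fun _ : N => (1 : ℂ)) (isIrr_one N) hcon
  have hS' : S = {fun _ : N => (1 : ℂ)} := by
    rw [hS]
    ext ψ
    simp
  rw [hS', finsum_mem_singleton] at h174
  have h1 := congrFun h174 ⟨n, hn⟩
  have h2 := congrFun h174 1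
  simp only [Pi.smul_apply, smul_eq_mul, mul_one] at h1 h2
  have h3 : (χ : G → ℂ) n = _ := h1
  have h4 : (χ : G → ℂ) 1 = _ := h2
  rw [h3, h4]

theorem conj_sec {p : ℕ} [Fact p.Prime] {G : Type*} [Group G] (z : G)
    (hz : ∃ k : ℕ, orderOf z = p ^ k) (c y t : G) (hc : z * c = c * z) (hy : z * y = y * z)
    (hcr : ¬ p ∣ orderOf c) (hyr : ¬ p ∣ orderOf y) (ht : t * (z * c) * t⁻¹ = z * y) :
    t * z * t⁻¹ = z ∧ t * c * t⁻¹ = y := by
  have h1 : Cfsg.IsPPart p (z * c) z := ⟨c, rfl, hc, hz, hcr⟩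
  have h2 : Cfsg.IsPPart p (z * y) z := ⟨y, rfl, hy, hz, hyr⟩
  have h3 := ppart_conj p (z * c) z t h1
  rw [ht] at h3
  have h4 := ppart_unique p _ _ _ h3 h2
  refine ⟨h4, ?_⟩
  have h5 : t * (z * c) * t⁻¹ = (t * z * t⁻¹) * (t * c * t⁻¹) := by group
  rw [h5, h4] at ht
  exact mul_left_cancel ht

theorem prin_sec_sum {p : ℕ} [Fact p.Prime] {M : Ideal AlgInt} (hM : IsPModular p M) {G : Type u}
    [Group G] [Fintype G] (z : G) (hz : ∃ k : ℕ, orderOf z = p ^ k)
    [Fintype (Subgroup.centralizer ({z} : Set G))] [Fintype (Cfsg.IrrCharacter G)]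
    [Fintype (Cfsg.IrrCharacter (Subgroup.centralizer ({z} : Set G)))]
    [DecidablePred (· ∈ Cfsg.principalBlock M G)]
    [DecidablePred (· ∈ Cfsg.principalBlock M (Subgroup.centralizer ({z} : Set G)))]
    (y : Subgroup.centralizer ({z} : Set G)) (hy : ¬ p ∣ orderOf y) :
    ∑ ζ : Cfsg.IrrCharacter G, (if ζ ∈ Cfsg.principalBlock M G then
      (ζ : G → ℂ) (z * (y : G)) * conj ((ζ : G → ℂ) (z * (y : G))) else 0) =
    ∑ ξ : Cfsg.IrrCharacter (Subgroup.centralizer ({z} : Set G)),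
      (if ξ ∈ Cfsg.principalBlock M (Subgroup.centralizer ({z} : Set G)) then
        (ξ : Subgroup.centralizer ({z} : Set G) → ℂ) y *
          conj ((ξ : Subgroup.centralizer ({z} : Set G) → ℂ) y) else 0) := by
  classical
  have hMp := hM.2.1.isPrime
  obtain ⟨oneH, hoH⟩ : ∃ o : Cfsg.IrrCharacter (Subgroup.centralizer ({z} : Set G)),
      (o : Subgroup.centralizer ({z} : Set G) → ℂ) = fun _ => 1 := ⟨⟨_, isIrr_one _⟩, rfl⟩
  have hbH : Cfsg.IsPBlock M (Cfsg.principalBlock M (Subgroup.centralizer ({z} : Set G))) :=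
    ⟨oneH, by rw [hoH]; rfl⟩
  have hcard : (Nat.card (Subgroup.centralizer ({z} : Set G)) : ℂ) ≠ 0 := by
    exact_mod_cast Nat.card_pos.ne'
  obtain ⟨T, hT⟩ : ∃ T : Cfsg.IrrCharacter G →
      Cfsg.IrrCharacter (Subgroup.centralizer ({z} : Set G)) →
      Subgroup.centralizer ({z} : Set G) → ℂ, T = fun (ζ : Cfsg.IrrCharacter G)
        (ξ : Cfsg.IrrCharacter (Subgroup.centralizer ({z} : Set G)))
        (c : Subgroup.centralizer ({z} : Set G)) =>
      if ξ ∈ Cfsg.principalBlock M (Subgroup.centralizer ({z} : Set G)) then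
        (Nat.card (Subgroup.centralizer ({z} : Set G)) : ℂ)⁻¹ *
          ((ζ : G → ℂ) (z * (c : G)) * conj ((ξ : Subgroup.centralizer ({z} : Set G) → ℂ) c)) *
          (ξ : Subgroup.centralizer ({z} : Set G) → ℂ) y * conj ((ζ : G → ℂ) (z * (y : G)))
      else 0 := ⟨_, rfl⟩
  have e1 : ∀ ζ : Cfsg.IrrCharacter G, (if ζ ∈ Cfsg.principalBlock M G then
      (ζ : G → ℂ) (z * (y : G)) * conj ((ζ : G → ℂ) (z * (y : G))) else 0) =
      ∑ ξ : Cfsg.IrrCharacter (Subgroup.centralizer ({z} : Set G)),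
        ∑ c : Subgroup.centralizer ({z} : Set G), T ζ ξ c := by
    intro ζ
    have h1 := sec_part hM z hz ζ y hy
    rw [blockPart_eq] at h1
    have h2 : (if ζ ∈ Cfsg.principalBlock M G then
        (ζ : G → ℂ) (z * (y : G)) * conj ((ζ : G → ℂ) (z * (y : G))) else 0) =
        (if ζ ∈ Cfsg.principalBlock M G then (ζ : G → ℂ) (z * (y : G)) else 0) *
          conj ((ζ : G → ℂ) (z * (y : G))) := by
      split_ifs
      · rfl
      · rw [zero_mul]
    rw [h2, ← h1, Finset.sum_mul]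
    refine Finset.sum_congr rfl (fun ξ _ => ?_)
    rw [hT]
    simp only
    split_ifs
    · rw [Finset.mul_sum, Finset.sum_mul, Finset.sum_mul]
    · rw [zero_mul, Finset.sum_const_zero]
  obtain ⟨S, hS⟩ : ∃ S : Subgroup.centralizer ({z} : Set G) → ℂ, S = fun c =>
      ∑ ξ : Cfsg.IrrCharacter (Subgroup.centralizer ({z} : Set G)),
        if ξ ∈ Cfsg.principalBlock M (Subgroup.centralizer ({z} : Set G)) then
          (ξ : Subgroup.centralizer ({z} : Set G) → ℂ) y *
            conj ((ξ : Subgroup.centralizer ({z} : Set G) → ℂ) c) else 0 := ⟨_, rfl⟩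
  have e2 : ∀ c : Subgroup.centralizer ({z} : Set G),
      ∑ ζ : Cfsg.IrrCharacter G, ∑ ξ : Cfsg.IrrCharacter (Subgroup.centralizer ({z} : Set G)),
        T ζ ξ c = (Nat.card (Subgroup.centralizer ({z} : Set G)) : ℂ)⁻¹ *
        ((∑ ζ : Cfsg.IrrCharacter G, (ζ : G → ℂ) (z * (c : G)) *
          conj ((ζ : G → ℂ) (z * (y : G)))) * S c) := by
    intro c
    rw [hS, hT]
    simp only
    rw [Finset.sum_mul, Finset.mul_sum]
    refine Finset.sum_congr rfl (fun ζ _ => ?_)
    rw [Finset.mul_sum, Finset.mul_sum]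
    refine Finset.sum_congr rfl (fun ξ _ => ?_)
    split_ifs
    · ring
    · rw [mul_zero, mul_zero]
  have e3 : ∀ c : Subgroup.centralizer ({z} : Set G),
      (∑ ζ : Cfsg.IrrCharacter G, (ζ : G → ℂ) (z * (c : G)) *
          conj ((ζ : G → ℂ) (z * (y : G)))) * S c =
      (∑ t : Subgroup.centralizer ({z} : Set G), if t * c * t⁻¹ = y then (1 : ℂ) else 0) *
        S c := by
    intro c
    by_cases hc : p ∣ orderOf c
    · have h1 : S c = 0 := by
        rw [hS]
        exact weak_orth hM _ hbH y c hy hc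
      rw [h1, mul_zero, mul_zero]
    · congr 1
      rw [column_orth]
      have hzc : z * (c : G) = (c : G) * z := Subgroup.mem_centralizer_iff.mp c.2 z rfl
      have hzy : z * (y : G) = (y : G) * z := Subgroup.mem_centralizer_iff.mp y.2 z rfl
      have hcr : ¬ p ∣ orderOf (c : G) := by
        rw [Subgroup.orderOf_coe]
        exact hc
      have hyr : ¬ p ∣ orderOf (y : G) := by
        rw [Subgroup.orderOf_coe]
        exact hy
      have hfwd : ∀ t : G, t * (z * (c : G)) * t⁻¹ = z * (y : G) →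
          ∃ ht : t ∈ Subgroup.centralizer ({z} : Set G),
            (⟨t, ht⟩ : Subgroup.centralizer ({z} : Set G)) * c *
              (⟨t, ht⟩ : Subgroup.centralizer ({z} : Set G))⁻¹ = y := by
        intro t ht
        obtain ⟨h1, h2⟩ := conj_sec z hz (c : G) (y : G) t hzc hzy hcr hyr ht
        have hmem : t ∈ Subgroup.centralizer ({z} : Set G) := by
          rw [Subgroup.mem_centralizer_iff]
          intro h hh
          rw [Set.mem_singleton_iff.mp hh]
          calc z * t = t * z * t⁻¹ * t := by rw [h1]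
            _ = t * z := by group
        exact ⟨hmem, Subtype.ext h2⟩
      have hbwd : ∀ t : Subgroup.centralizer ({z} : Set G), t * c * t⁻¹ = y →
          (t : G) * (z * (c : G)) * (t : G)⁻¹ = z * (y : G) := by
        intro t ht
        have h1 : z * (t : G) = (t : G) * z := Subgroup.mem_centralizer_iff.mp t.2 z rfl
        have h2 : (t : G) * (c : G) * (t : G)⁻¹ = (y : G) := by
          have h3 := congrArg (fun k : Subgroup.centralizer ({z} : Set G) => (k : G)) ht
          simpa using h3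
        calc (t : G) * (z * (c : G)) * (t : G)⁻¹ = ((t : G) * z) * (c : G) * (t : G)⁻¹ := by group
          _ = (z * (t : G)) * (c : G) * (t : G)⁻¹ := by rw [h1]
          _ = z * ((t : G) * (c : G) * (t : G)⁻¹) := by group
          _ = z * (y : G) := by rw [h2]
      have e : {t : G // t * (z * (c : G)) * t⁻¹ = z * (y : G)} ≃
          {t : Subgroup.centralizer ({z} : Set G) // t * c * t⁻¹ = y} :=
        { toFun := fun t => ⟨⟨t.1, (hfwd t.1 t.2).choose⟩, (hfwd t.1 t.2).choose_spec⟩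
          invFun := fun t => ⟨(t.1 : G), hbwd t.1 t.2⟩
          left_inv := fun t => Subtype.ext rfl
          right_inv := fun t => Subtype.ext (Subtype.ext rfl) }
      rw [Nat.card_congr e, Nat.card_eq_fintype_card, Fintype.card_subtype, Finset.sum_boole]
  have e4 : ∑ c : Subgroup.centralizer ({z} : Set G),
      (∑ t : Subgroup.centralizer ({z} : Set G), if t * c * t⁻¹ = y then (1 : ℂ) else 0) * S c =
      (Nat.card (Subgroup.centralizer ({z} : Set G)) : ℂ) * S y := by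
    have h1 : ∀ c : Subgroup.centralizer ({z} : Set G),
        (∑ t : Subgroup.centralizer ({z} : Set G), if t * c * t⁻¹ = y then (1 : ℂ) else 0) *
          S c = ∑ t : Subgroup.centralizer ({z} : Set G),
            if c = t⁻¹ * y * t then S y else 0 := by
      intro c
      rw [Finset.sum_mul]
      refine Finset.sum_congr rfl (fun t _ => ?_)
      by_cases h : t * c * t⁻¹ = y
      · have h' : c = t⁻¹ * y * t := by
          rw [← h]
          group
        rw [if_pos h, if_pos h', one_mul, hS]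
        simp only
        refine Finset.sum_congr rfl (fun ξ _ => ?_)
        have h2 : (ξ : Subgroup.centralizer ({z} : Set G) → ℂ) c =
            (ξ : Subgroup.centralizer ({z} : Set G) → ℂ) y := by
          rw [← h]
          exact (char_classFun (isCharacter_of_irr ξ.2) c t).symm
        rw [h2]
      · have h' : ¬ c = t⁻¹ * y * t := by
          intro h2
          apply h
          rw [h2]
          group
        rw [if_neg h, if_neg h', zero_mul]
    rw [Finset.sum_congr rfl (fun c _ => h1 c), Finset.sum_comm]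
    simp only [Finset.sum_ite_eq', Finset.mem_univ, if_true]
    rw [Finset.sum_const, Finset.card_univ, nsmul_eq_mul, Nat.card_eq_fintype_card]
  have e5 : ∑ ζ : Cfsg.IrrCharacter G,
      ∑ ξ : Cfsg.IrrCharacter (Subgroup.centralizer ({z} : Set G)),
        ∑ c : Subgroup.centralizer ({z} : Set G), T ζ ξ c =
      ∑ c : Subgroup.centralizer ({z} : Set G), ∑ ζ : Cfsg.IrrCharacter G,
        ∑ ξ : Cfsg.IrrCharacter (Subgroup.centralizer ({z} : Set G)), T ζ ξ c := by
    calc ∑ ζ : Cfsg.IrrCharacter G,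
          ∑ ξ : Cfsg.IrrCharacter (Subgroup.centralizer ({z} : Set G)),
            ∑ c : Subgroup.centralizer ({z} : Set G), T ζ ξ c =
        ∑ ζ : Cfsg.IrrCharacter G, ∑ c : Subgroup.centralizer ({z} : Set G),
          ∑ ξ : Cfsg.IrrCharacter (Subgroup.centralizer ({z} : Set G)), T ζ ξ c :=
          Finset.sum_congr rfl (fun ζ _ => Finset.sum_comm)
      _ = _ := Finset.sum_comm
  rw [Finset.sum_congr rfl (fun ζ _ => e1 ζ), e5, Finset.sum_congr rfl (fun c _ => e2 c),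
    ← Finset.mul_sum, Finset.sum_congr rfl (fun c _ => e3 c), e4, ← mul_assoc,
    inv_mul_cancel₀ hcard, one_mul, hS]

theorem prin_deg_sum {p : ℕ} [Fact p.Prime] {M : Ideal AlgInt} (hM : IsPModular p M) {H : Type u}
    [Group H] [Fintype H] [Fintype (Cfsg.IrrCharacter H)]
    [DecidablePred (· ∈ Cfsg.principalBlock M H)] (k : ℕ)
    (hk : (Cfsg.pPrimeCore p H).index = p ^ k) (y : H) (hy : ¬ p ∣ orderOf y) :
    ∑ ξ : Cfsg.IrrCharacter H, (if ξ ∈ Cfsg.principalBlock M H then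
      (ξ : H → ℂ) y * conj ((ξ : H → ℂ) y) else 0) = ((p ^ k : ℕ) : ℂ) := by
  classical
  have hMp := hM.2.1.isPrime
  have hnorm := pPrimeCore_normal (G := H) p
  have hcop := pPrimeCore_cop (G := H) p
  obtain ⟨K, hK⟩ : ∃ K : Subgroup H, K = Cfsg.pPrimeCore p H := ⟨_, rfl⟩
  rw [← hK] at hnorm hcop hk
  have _fk : Fintype K := Fintype.ofFinite _
  have hyK : y ∈ K := preg_mem_of_index K k hk y hy
  have hcardK : (Nat.card K : ℂ) ≠ 0 := by exact_mod_cast Nat.card_pos.ne'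
  have hmem : ∀ ξ : Cfsg.IrrCharacter H, ξ ∈ Cfsg.principalBlock M H ↔
      ∀ n ∈ K, (ξ : H → ℂ) n = (ξ : H → ℂ) 1 := by
    intro ξ
    constructor
    · intro h n hn
      exact prin_ker hM K hcop ξ h n hn
    · intro h
      obtain ⟨oneH, hoH⟩ : ∃ o : Cfsg.IrrCharacter H, (o : H → ℂ) = fun _ => 1 :=
        ⟨⟨_, isIrr_one H⟩, rfl⟩
      have h1 : Cfsg.SameBlock M (oneH : H → ℂ) (ξ : H → ℂ) := by
        apply sb_of_preg hM
        intro g hg
        have hgK := preg_mem_of_index K k hk g hg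
        have h2 : Cfsg.centralChar (oneH : H → ℂ) g - Cfsg.centralChar (ξ : H → ℂ) g = 0 := by
          unfold Cfsg.centralChar
          rw [h g hgK, hoH]
          have h3 := irr_one_ne_zero ξ.2
          field_simp
          ring
        rw [h2]
        exact li_zero hMp
      rw [hoH] at h1
      exact h1
  have hsum : ∀ ξ : Cfsg.IrrCharacter H, (Nat.card K : ℂ)⁻¹ * ∑ n : K, (ξ : H → ℂ) n =
      if ξ ∈ Cfsg.principalBlock M H then (ξ : H → ℂ) 1 else 0 := by
    intro ξ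
    by_cases hξ : ξ ∈ Cfsg.principalBlock M H
    · rw [if_pos hξ]
      have h1 : ∀ n : K, (ξ : H → ℂ) n = (ξ : H → ℂ) 1 := fun n => (hmem ξ).mp hξ n n.2
      rw [Finset.sum_congr rfl (fun n _ => h1 n), Finset.sum_const, Finset.card_univ,
        nsmul_eq_mul, ← Nat.card_eq_fintype_card, ← mul_assoc, inv_mul_cancel₀ hcardK, one_mul]
    · rw [if_neg hξ]
      by_contra hne
      apply hξ
      rw [hmem]
      intro n hn
      apply triv_constituent K ξ _ n hn
      unfold Cfsg.classInner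
      simpa using hne
  have h1 : ∀ ξ : Cfsg.IrrCharacter H, (if ξ ∈ Cfsg.principalBlock M H then
      (ξ : H → ℂ) y * conj ((ξ : H → ℂ) y) else 0) =
      ((Nat.card K : ℂ)⁻¹ * ∑ n : K, (ξ : H → ℂ) n) * conj ((ξ : H → ℂ) 1) := by
    intro ξ
    rw [hsum]
    split_ifs with hξ
    · rw [(hmem ξ).mp hξ y hyK]
    · rw [zero_mul]
  rw [Finset.sum_congr rfl (fun ξ _ => h1 ξ)]
  have h2 : ∀ ξ : Cfsg.IrrCharacter H,
      ((Nat.card K : ℂ)⁻¹ * ∑ n : K, (ξ : H → ℂ) n) * conj ((ξ : H → ℂ) 1) =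
      ∑ n : K, (Nat.card K : ℂ)⁻¹ * ((ξ : H → ℂ) n * conj ((ξ : H → ℂ) 1)) := by
    intro ξ
    rw [Finset.mul_sum, Finset.sum_mul]
    refine Finset.sum_congr rfl (fun n _ => ?_)
    ring
  rw [Finset.sum_congr rfl (fun ξ _ => h2 ξ), Finset.sum_comm]
  have h3 : ∀ n : K, ∑ ξ : Cfsg.IrrCharacter H,
      (Nat.card K : ℂ)⁻¹ * ((ξ : H → ℂ) n * conj ((ξ : H → ℂ) 1)) =
      (Nat.card K : ℂ)⁻¹ * (if n = 1 then (Nat.card H : ℂ) else 0) := by
    intro n
    rw [← Finset.mul_sum, column_orth]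
    congr 1
    by_cases hn : n = 1
    · rw [if_pos hn, hn]
      congr 1
      have e : {t : H // t * ((1 : K) : H) * t⁻¹ = 1} ≃ H :=
        Equiv.subtypeUnivEquiv (fun t => by simp)
      exact Nat.card_congr e
    · rw [if_neg hn]
      have hemp : IsEmpty {t : H // t * (n : H) * t⁻¹ = 1} := ⟨fun t => hn (by
        have h4 := t.2
        have h5 : (n : H) = 1 := by
          have h6 : (n : H) = t.1⁻¹ * (t.1 * n * t.1⁻¹) * t.1 := by group
          rw [h6, h4]
          group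
        exact Subtype.ext h5)⟩
      rw [Nat.card_of_isEmpty]
      simp
  rw [Finset.sum_congr rfl (fun n _ => h3 n), ← Finset.mul_sum, Finset.sum_ite_eq',
    if_pos (Finset.mem_univ _)]
  have h4 : Nat.card K * K.index = Nat.card H := Subgroup.card_mul_index K
  rw [hk] at h4
  rw [← h4]
  push_cast
  field_simp

end Cfsg.Agent.Lib.Helper3.BlkPrin2
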