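import Mathlib
import Cfsg.Prelude.Def_Characters
import Cfsg.Prelude.Def_Blocks
import Cfsg.Prelude.Def_BlockRank
import Cfsg.Agent.Lib.Helper3.Char
import Cfsg.Agent.Lib.Helper3.CharInt
import Cfsg.Agent.Lib.Helper3.BlkLocal
import Cfsg.Agent.Lib.Helper3.BlkOsima
import Cfsg.Agent.Lib.Helper3.BlkOrth4

open Cfsg
open Cfsg.Agent.Lib.Helper3.Char Cfsg.Agent.Lib.Helper3.CharInt
open Cfsg.Agent.Lib.Helper3.BlkLocal
open Cfsg.Agent.Lib.Helper3.BlkOsima Cfsg.Agent.Lib.Helper3.BlkOrth4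
open scoped ComplexConjugate

universe u

namespace Cfsg.Agent.Lib.Helper3.BlkRank

theorem prp_reg {G : Type u} [Group G] (p : ℕ) (χ : G → ℂ) (g : G) (h : ¬ p ∣ orderOf g) :
    Cfsg.pRegularPart p χ g = χ g := by
  unfold Cfsg.pRegularPart
  rw [if_pos]
  exact h

theorem prp_sing {G : Type u} [Group G] (p : ℕ) (χ : G → ℂ) (g : G) (h : p ∣ orderOf g) :
    Cfsg.pRegularPart p χ g = 0 := by
  unfold Cfsg.pRegularPart
  rw [if_neg]
  unfold Cfsg.IsPRegular
  rw [not_not]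
  exact h

theorem prp_ne_zero {G : Type u} [Group G] {p : ℕ} (hp : p.Prime) (χ : Cfsg.IrrCharacter G) :
    Cfsg.pRegularPart p (χ : G → ℂ) ≠ 0 := by
  intro h0
  have h1 := congrFun h0 1
  rw [prp_reg p _ 1 (by
    rw [orderOf_one]
    exact hp.one_lt.ne' ∘ Nat.dvd_one.mp)] at h1
  exact irr_one_ne_zero χ.2 h1

theorem val_eq_of_not_dvd {G : Type u} [Group G] [Finite G] {p : ℕ} (_hp : p.Prime)
    (χ : Cfsg.IrrCharacter G) (h : ¬ p ∣ Nat.card G / Cfsg.charDegree (χ : G → ℂ)) :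
    (Cfsg.charDegree (χ : G → ℂ)).factorization p = (Nat.card G).factorization p := by
  obtain ⟨n, hn0, hn1, hndvd⟩ := irr_degree_dvd_card χ.2
  rw [charDegree_eq hn1] at h ⊢
  obtain ⟨m, hm⟩ := hndvd
  have hm0 : m ≠ 0 := by
    rintro rfl
    rw [mul_zero] at hm
    exact Nat.card_pos.ne' hm
  rw [hm, Nat.mul_div_cancel_left m hn0] at h
  rw [hm, Nat.factorization_mul hn0.ne' hm0]
  have h1 : m.factorization p = 0 := Nat.factorization_eq_zero_of_not_dvd h
  simp [h1]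

theorem not_dvd_of_val {G : Type u} [Group G] [Finite G] {p : ℕ} (hp : p.Prime)
    (χ : Cfsg.IrrCharacter G)
    (h : (Nat.card G).factorization p ≤ (Cfsg.charDegree (χ : G → ℂ)).factorization p) :
    ¬ p ∣ Nat.card G / Cfsg.charDegree (χ : G → ℂ) := by
  obtain ⟨n, hn0, hn1, hndvd⟩ := irr_degree_dvd_card χ.2
  rw [charDegree_eq hn1] at h ⊢
  obtain ⟨m, hm⟩ := hndvd
  have hm0 : m ≠ 0 := by
    rintro rfl
    rw [mul_zero] at hm
    exact Nat.card_pos.ne' hm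
  rw [hm, Nat.mul_div_cancel_left m hn0]
  rw [hm, Nat.factorization_mul hn0.ne' hm0] at h
  intro hdvd
  have hm1 : 1 ≤ m.factorization p := (hp.dvd_iff_one_le_factorization hm0).mp hdvd
  simp only [Finsupp.coe_add, Pi.add_apply] at h
  omega

theorem defect_zero_of_val {G : Type u} [Group G] {p : ℕ} (B : Set (Cfsg.IrrCharacter G))
    (hne : B.Nonempty)
    (h : ∀ χ ∈ B, (Nat.card G).factorization p ≤ (Cfsg.charDegree (χ : G → ℂ)).factorization p) :
    Cfsg.blockDefect p B = 0 := by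
  unfold Cfsg.blockDefect
  apply Nat.sub_eq_zero_of_le
  apply le_csInf (hne.image _)
  rintro _ ⟨χ, hχ, rfl⟩
  exact h χ hχ

end Cfsg.Agent.Lib.Helper3.BlkRank
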