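import Mathlib
import Cfsg.Prelude.Def_Characters
import Cfsg.Prelude.Def_Blocks
import Cfsg.Agent.Lib.Helper3.Char
import Cfsg.Agent.Lib.Helper3.CharCore
import Cfsg.Agent.Lib.Helper3.CharArith
import Cfsg.Agent.Lib.Helper3.BlkLocal
import Cfsg.Agent.Lib.Helper3.BlkOsima
import Cfsg.Agent.Lib.Helper3.BlkCore
import Cfsg.Agent.Lib.Helper3.BlkSecond
import Cfsg.Agent.Lib.Helper3.BlkSoc1

set_option autoImplicit false

open Cfsg
open Cfsg.Agent.Lib.Helper3.Char Cfsg.Agent.Lib.Helper3.CharCore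
open Cfsg.Agent.Lib.Helper3.CharArith
open Cfsg.Agent.Lib.Helper3.BlkLocal Cfsg.Agent.Lib.Helper3.BlkOsima
open Cfsg.Agent.Lib.Helper3.BlkCore Cfsg.Agent.Lib.Helper3.BlkSecond
open Cfsg.Agent.Lib.Helper3.BlkSoc1
open scoped ComplexConjugate

universe u

namespace Cfsg.Agent.Lib.Helper3.BlkSoc2

noncomputable def cp {G : Type*} [Group G] [Fintype G] [DecidableEq G] (b : G → ℂ) :
    ℕ → G → ℂ
  | 0 => fun t => if t = 1 then 1 else 0
  | (n + 1) => fun t => ∑ g : G, b g * cp b n (g⁻¹ * t)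

theorem cp_zero {G : Type*} [Group G] [Fintype G] [DecidableEq G] (b : G → ℂ) (t : G) :
    cp b 0 t = if t = 1 then 1 else 0 := rfl

theorem cp_succ {G : Type*} [Group G] [Fintype G] [DecidableEq G] (b : G → ℂ) (n : ℕ) (t : G) :
    cp b (n + 1) t = ∑ g : G, b g * cp b n (g⁻¹ * t) := rfl

theorem cp_classFun {G : Type u} [Group G] [Fintype G] [DecidableEq G] (W : G → ℂ)
    (hW : Cfsg.IsClassFunction G W) (n : ℕ) : Cfsg.IsClassFunction G (cp W n) := by
  induction n with
  | zero =>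
    intro g h
    rw [cp_zero, cp_zero]
    have e : h * g * h⁻¹ = 1 ↔ g = 1 := by
      constructor
      · intro h1
        have h2 : g = h⁻¹ * (h * g * h⁻¹) * h := by group
        rw [h2, h1]
        group
      · intro h1
        rw [h1]
        group
    simp only [e]
  | succ n ih =>
    have h1 := conv_classFun W (cp W n) hW ih
    intro g h
    exact h1 g h

theorem cp_om {G : Type u} [Group G] [Fintype G] [DecidableEq G] (W : G → ℂ)
    (hW : Cfsg.IsClassFunction G W) (χ : G → ℂ) (hχ : Cfsg.IsIrrCharacter G χ) (n : ℕ) :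
    (∑ g : G, cp W n g * χ g) / χ 1 = ((∑ g : G, W g * χ g) / χ 1) ^ n := by
  induction n with
  | zero =>
    rw [pow_zero]
    have h1 : ∑ g : G, cp W 0 g * χ g = χ 1 := by
      rw [Finset.sum_eq_single 1]
      · rw [cp_zero, if_pos rfl, one_mul]
      · intro g _ hg
        rw [cp_zero, if_neg hg, zero_mul]
      · intro h
        exact absurd (Finset.mem_univ _) h
    rw [h1, div_self (irr_one_ne_zero hχ)]
  | succ n ih =>
    rw [pow_succ', ← ih]
    exact (om_mul W (cp W n) hW (cp_classFun W hW n) χ hχ).symm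

theorem cp_shift {G : Type u} [Group G] [Fintype G] [DecidableEq G] (W : G → ℂ)
    (hW : Cfsg.IsClassFunction G W) (h : G) (k : ℕ) (t : G) :
    cp (fun x => W (x * h)) k t = cp W k (t * h ^ k) := by
  induction k generalizing t with
  | zero =>
    rw [cp_zero, cp_zero, pow_zero, mul_one]
  | succ k ih =>
    rw [cp_succ, cp_succ, ← Equiv.sum_comp (Equiv.mulRight h)
      (fun g => W g * cp W k (g⁻¹ * (t * h ^ (k + 1))))]
    refine Finset.sum_congr rfl (fun g _ => ?_)
    show W (g * h) * cp (fun x => W (x * h)) k (g⁻¹ * t) =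
      W (g * h) * cp W k ((g * h)⁻¹ * (t * h ^ (k + 1)))
    rw [ih]
    congr 1
    have e : (g * h)⁻¹ * (t * h ^ (k + 1)) = h⁻¹ * (g⁻¹ * t * h ^ k) * h⁻¹⁻¹ := by
      rw [pow_succ]
      group
    rw [e]
    exact (cp_classFun W hW k _ _).symm

theorem cp_expand {G : Type u} [Group G] [Fintype G] [DecidableEq G]
    [Fintype (Cfsg.IrrCharacter G)] (W : G → ℂ) (hW : Cfsg.IsClassFunction G W) (n : ℕ)
    (t : G) :
    cp W n t = ∑ χ : Cfsg.IrrCharacter G, (Nat.card G : ℂ)⁻¹ * conj ((χ : G → ℂ) 1) *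
      ((∑ g : G, W g * conj ((χ : G → ℂ) g)) / conj ((χ : G → ℂ) 1)) ^ n *
        (χ : G → ℂ) t := by
  have h1 := congrFun (class_fun_expand (cp W n) (cp_classFun W hW n)) t
  rw [Finset.sum_apply] at h1
  rw [h1]
  refine Finset.sum_congr rfl (fun χ _ => ?_)
  have h2 := cp_om W hW (fun g => conj ((χ : G → ℂ) g)) (isIrr_conj χ.2) n
  rw [← h2]
  have h3 : conj ((χ : G → ℂ) 1) ≠ 0 := by
    intro h0
    exact irr_one_ne_zero χ.2 ((map_eq_zero _).mp h0)
  simp only [Pi.smul_apply, smul_eq_mul]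
  unfold Cfsg.classInner
  field_simp

theorem vec_sum_cp {G : Type*} [Group G] [Fintype G] [DecidableEq G] (b : G → ℂ) (n : ℕ)
    (t : G) :
    ∑ u : List.Vector G n, (if u.toList.prod = t then (u.toList.map b).prod else 0) =
      cp b n t := by
  induction n generalizing t with
  | zero =>
    rw [Fintype.sum_eq_single List.Vector.nil (fun u hu => absurd u.eq_nil hu), cp_zero]
    show (if (1 : G) = t then (1 : ℂ) else 0) = if t = 1 then 1 else 0
    by_cases h : t = 1
    · rw [if_pos h, if_pos h.symm]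
    · rw [if_neg h, if_neg (fun h' => h h'.symm)]
  | succ n ih =>
    obtain ⟨e, he⟩ : ∃ e : G × List.Vector G n ≃ List.Vector G (n + 1),
        ∀ gu : G × List.Vector G n, e gu = gu.1 ::ᵥ gu.2 :=
      ⟨{ toFun := fun gu => gu.1 ::ᵥ gu.2
         invFun := fun u => (u.head, u.tail)
         left_inv := fun gu => Prod.ext (List.Vector.head_cons gu.1 gu.2)
           (List.Vector.tail_cons gu.1 gu.2)
         right_inv := fun u => List.Vector.cons_head_tail u }, fun _ => rfl⟩
    rw [← Equiv.sum_comp e, Fintype.sum_prod_type, cp_succ]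
    refine Finset.sum_congr rfl (fun g _ => ?_)
    rw [← ih, Finset.mul_sum]
    refine Finset.sum_congr rfl (fun u _ => ?_)
    rw [he]
    simp only [List.Vector.toList_cons, List.prod_cons, List.map_cons]
    by_cases hc : u.toList.prod = g⁻¹ * t
    · have hc' : g * u.toList.prod = t := by
        rw [hc, mul_inv_cancel_left]
      rw [if_pos hc, if_pos hc']
    · have hc' : ¬ g * u.toList.prod = t := by
        intro h'
        apply hc
        rw [← h', inv_mul_cancel_left]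
      rw [if_neg hc, if_neg hc', mul_zero]

theorem vec1_sum_cp {G : Type*} [Group G] [Fintype G] [DecidableEq G] (b : G → ℂ) (n : ℕ) :
    ∑ v : Equiv.Perm.vectorsProdEqOne G (n + 1), ((v : List.Vector G (n + 1)).toList.map b).prod =
      cp b (n + 1) 1 := by
  rw [← Equiv.sum_comp (Equiv.Perm.VectorsProdEqOne.vectorEquiv G n), cp_succ]
  have h1 : ∀ u : List.Vector G n,
      (((Equiv.Perm.VectorsProdEqOne.vectorEquiv G n u : Equiv.Perm.vectorsProdEqOne G (n + 1)) :
        List.Vector G (n + 1)).toList.map b).prod =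
      ∑ t : G, b t⁻¹ * (if u.toList.prod = t then (u.toList.map b).prod else 0) := by
    intro u
    rw [Finset.sum_eq_single u.toList.prod]
    · rw [if_pos rfl]
      show (((u.toList.prod)⁻¹ ::ᵥ u).toList.map b).prod = _
      rw [List.Vector.toList_cons, List.map_cons, List.prod_cons]
    · intro t _ ht
      rw [if_neg (fun h' => ht h'.symm), mul_zero]
    · intro h
      exact absurd (Finset.mem_univ _) h
  rw [Finset.sum_congr rfl (fun u _ => h1 u), Finset.sum_comm,
    ← Equiv.sum_comp (Equiv.inv G) (fun g => b g * cp b n (g⁻¹ * 1))]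
  refine Finset.sum_congr rfl (fun t _ => ?_)
  rw [← Finset.mul_sum, vec_sum_cp]
  show b t⁻¹ * cp b n t = b t⁻¹ * cp b n (t⁻¹⁻¹ * 1)
  rw [inv_inv, mul_one]

theorem li_of_pow {M : Ideal AlgInt} (hMp : M.IsPrime) {z : ℂ} (hz : Cfsg.MemLocalRing M z)
    (k : ℕ) (h : Cfsg.MemLocalIdeal M (z ^ k)) : Cfsg.MemLocalIdeal M z := by
  induction k with
  | zero =>
    rw [pow_zero] at h
    exact absurd h (not_li_one hMp)
  | succ k ih =>
    rw [pow_succ] at h
    rcases li_of_mul hMp (lr_pow hMp hz k) hz h with h1 | h1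
    · exact ih h1
    · exact h1

theorem rot_sum {p : ℕ} [hp : Fact p.Prime] {M : Ideal AlgInt} (hMp : M.IsPrime) {G : Type*}
    [Group G] [Fintype G] [DecidableEq G] (b : G → ℂ) (hb : ∀ x, Cfsg.MemLocalRing M (b x))
    (n m : ℕ) (hn : n + 1 = p ^ m) :
    ∃ T, Cfsg.MemLocalRing M T ∧
      ∑ v : Equiv.Perm.vectorsProdEqOne G (n + 1),
        ((v : List.Vector G (n + 1)).toList.map b).prod =
      ∑ x : G, (if x ^ (n + 1) = 1 then b x ^ (n + 1) else 0) + p * T := by
  classical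
  obtain ⟨σ, hσ⟩ : ∃ σ : Equiv.Perm (Equiv.Perm.vectorsProdEqOne G (n + 1)),
      ∀ v, σ v = Equiv.Perm.VectorsProdEqOne.rotate v 1 :=
    ⟨{ toFun := fun v => Equiv.Perm.VectorsProdEqOne.rotate v 1
       invFun := fun v => Equiv.Perm.VectorsProdEqOne.rotate v n
       left_inv := fun v => by
         show Equiv.Perm.VectorsProdEqOne.rotate (Equiv.Perm.VectorsProdEqOne.rotate v 1) n = v
         rw [Equiv.Perm.VectorsProdEqOne.rotate_rotate, show 1 + n = n + 1 from add_comm 1 n,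
           Equiv.Perm.VectorsProdEqOne.rotate_length]
       right_inv := fun v => by
         show Equiv.Perm.VectorsProdEqOne.rotate (Equiv.Perm.VectorsProdEqOne.rotate v n) 1 = v
         rw [Equiv.Perm.VectorsProdEqOne.rotate_rotate,
           Equiv.Perm.VectorsProdEqOne.rotate_length] }, fun _ => rfl⟩
  have hσpow : ∀ (k : ℕ) (v : Equiv.Perm.vectorsProdEqOne G (n + 1)),
      (σ ^ k) v = Equiv.Perm.VectorsProdEqOne.rotate v k := by
    intro k
    induction k with
    | zero =>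
      intro v
      rw [pow_zero, Equiv.Perm.VectorsProdEqOne.rotate_zero]
      rfl
    | succ k ih =>
      intro v
      rw [pow_succ, Equiv.Perm.mul_apply, ih, hσ, Equiv.Perm.VectorsProdEqOne.rotate_rotate,
        show 1 + k = k + 1 from add_comm 1 k]
  have hσN : σ ^ (p ^ m) = 1 := by
    apply Equiv.Perm.ext
    intro v
    rw [hσpow, ← hn, Equiv.Perm.VectorsProdEqOne.rotate_length]
    rfl
  have hQ : IsPGroup p (Subgroup.zpowers σ) := zpowers_pgroup p σ m hσN
  obtain ⟨F, hF⟩ : ∃ F : Equiv.Perm.vectorsProdEqOne G (n + 1) → ℂ,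
      F = fun v : Equiv.Perm.vectorsProdEqOne G (n + 1) =>
        ((v : List.Vector G (n + 1)).toList.map b).prod := ⟨_, rfl⟩
  have hFσ : ∀ v, F (σ v) = F v := by
    intro v
    rw [hF, hσ]
    show ((v.1.1.rotate 1).map b).prod = (v.1.1.map b).prod
    rw [List.map_rotate]
    exact (List.rotate_perm _ _).prod_eq
  have hFlr : ∀ v, Cfsg.MemLocalRing M (F v) := by
    intro v
    rw [hF]
    have h1 : ((v : List.Vector G (n + 1)).toList.map b).prod ∈ lrRing M hMp := by
      apply list_prod_mem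
      intro x hx
      obtain ⟨y, _, rfl⟩ := List.mem_map.mp hx
      exact hb y
    exact h1
  obtain ⟨F', hF'⟩ : ∃ F' : Equiv.Perm.vectorsProdEqOne G (n + 1) → ℂ,
      F' = fun v => if σ v = v then 0 else F v := ⟨_, rfl⟩
  have hF'σ : ∀ v, F' (σ v) = F' v := by
    intro v
    rw [hF']
    simp only
    rw [hFσ]
    by_cases h : σ v = v
    · rw [if_pos h, if_pos (congrArg σ h)]
    · rw [if_neg h, if_neg (fun h' => h (σ.injective h'))]
  obtain ⟨S, hS⟩ : ∃ S : Subgroup (Equiv.Perm (Equiv.Perm.vectorsProdEqOne G (n + 1))),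
      ∀ q, q ∈ S ↔ ∀ v, F' (q v) = F' v :=
    ⟨{ carrier := {q | ∀ v, F' (q v) = F' v}
       mul_mem' := fun {a c} ha hc v => by
         rw [Equiv.Perm.mul_apply, ha, hc]
       one_mem' := fun v => rfl
       inv_mem' := fun {a} ha v => by
         have h1 := ha (a⁻¹ v)
         have h2 : a (a⁻¹ v) = v := by
           rw [← Equiv.Perm.mul_apply, mul_inv_cancel, Equiv.Perm.one_apply]
         rw [h2] at h1
         exact h1.symm }, fun _ => Iff.rfl⟩
  have hzS : Subgroup.zpowers σ ≤ S := by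
    rw [Subgroup.zpowers_le, hS]
    exact hF'σ
  have hN' : ∀ v, F' v ∈ (lrRing M hMp).toAddSubgroup := by
    intro v
    rw [hF']
    simp only
    by_cases h : σ v = v
    · rw [if_pos h]
      exact lr_zero hMp
    · rw [if_neg h]
      exact hFlr v
  have hinv : ∀ (q : Subgroup.zpowers σ) (v : Equiv.Perm.vectorsProdEqOne G (n + 1)),
      F' (q • v) = F' v := by
    intro q v
    exact (hS _).mp (hzS q.2) v
  have hfix : ∀ v : Equiv.Perm.vectorsProdEqOne G (n + 1),
      (∀ q : Subgroup.zpowers σ, q • v = v) → F' v = 0 := by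
    intro v hv
    have h1 : σ v = v := hv ⟨σ, Subgroup.mem_zpowers σ⟩
    rw [hF']
    simp only
    rw [if_pos h1]
  obtain ⟨T, hT, hsum⟩ := orbit_sum_smul hp.out hQ (lrRing M hMp).toAddSubgroup F' hN' hinv hfix
  have hsplit : ∑ v, F v = ∑ v, F' v + ∑ v, (if σ v = v then F v else 0) := by
    rw [← Finset.sum_add_distrib]
    refine Finset.sum_congr rfl (fun v _ => ?_)
    rw [hF']
    simp only
    by_cases h : σ v = v
    · rw [if_pos h, if_pos h, zero_add]
    · rw [if_neg h, if_neg h, add_zero]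
  have hfixchar : ∀ v : Equiv.Perm.vectorsProdEqOne G (n + 1), σ v = v →
      ∃ a : G, (v : List.Vector G (n + 1)) = List.Vector.replicate (n + 1) a := by
    intro v h
    rw [hσ] at h
    have h1 : (v.1.1).rotate 1 = v.1.1 :=
      congrArg (fun w : Equiv.Perm.vectorsProdEqOne G (n + 1) => w.1.1) h
    obtain ⟨a, ha⟩ := List.rotate_one_eq_self_iff_eq_replicate.mp h1
    refine ⟨a, ?_⟩
    have h2 : v.1.1.length = n + 1 := v.1.2
    rw [h2] at ha
    exact Subtype.ext ha
  have hfsum : ∑ v : Equiv.Perm.vectorsProdEqOne G (n + 1), (if σ v = v then F v else 0) =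
      ∑ x : G, (if x ^ (n + 1) = 1 then b x ^ (n + 1) else 0) := by
    rw [← Finset.sum_filter, ← Finset.sum_filter]
    have hjmem : ∀ x : G, x ∈ Finset.univ.filter (fun x : G => x ^ (n + 1) = 1) →
        List.Vector.replicate (n + 1) x ∈ Equiv.Perm.vectorsProdEqOne G (n + 1) := by
      intro x hx
      rw [Equiv.Perm.VectorsProdEqOne.mem_iff]
      show (List.replicate (n + 1) x).prod = 1
      rw [List.prod_replicate]
      exact (Finset.mem_filter.mp hx).2
    refine Finset.sum_bij' (fun v _ => (v : List.Vector G (n + 1)).head)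
      (fun x hx => ⟨List.Vector.replicate (n + 1) x, hjmem x hx⟩) ?_ ?_ ?_ ?_ ?_
    · intro v hv
      obtain ⟨a, ha⟩ := hfixchar v (Finset.mem_filter.mp hv).2
      rw [Finset.mem_filter]
      refine ⟨Finset.mem_univ _, ?_⟩
      have h1 : (v : List.Vector G (n + 1)).toList.prod = 1 := v.2
      rw [ha] at h1 ⊢
      have h2 : (List.replicate (n + 1) a).prod = 1 := h1
      rw [List.prod_replicate] at h2
      exact h2
    · intro x hx
      rw [Finset.mem_filter]
      refine ⟨Finset.mem_univ _, ?_⟩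
      rw [hσ]
      exact Subtype.ext (Subtype.ext (List.rotate_replicate x (n + 1) 1))
    · intro v hv
      obtain ⟨a, ha⟩ := hfixchar v (Finset.mem_filter.mp hv).2
      apply Subtype.ext
      show List.Vector.replicate (n + 1) (v : List.Vector G (n + 1)).head = v
      rw [ha]
      rfl
    · intro x hx
      rfl
    · intro v hv
      obtain ⟨a, ha⟩ := hfixchar v (Finset.mem_filter.mp hv).2
      rw [hF]
      simp only
      rw [ha]
      show ((List.replicate (n + 1) a).map b).prod = b a ^ (n + 1)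
      rw [List.map_replicate, List.prod_replicate]
  refine ⟨T, hT, ?_⟩
  have h1 : ∑ v : Equiv.Perm.vectorsProdEqOne G (n + 1),
      ((v : List.Vector G (n + 1)).toList.map b).prod = ∑ v, F v := by
    rw [hF]
  rw [h1, hsplit, hsum, hfsum, nsmul_eq_mul, add_comm]

theorem soc {p : ℕ} [hp : Fact p.Prime] {M : Ideal AlgInt} (hM : IsPModular p M) {G : Type u}
    [Group G] [Fintype G] [Fintype (Cfsg.IrrCharacter G)] (W : G → ℂ)
    (hWc : Cfsg.IsClassFunction G W) (hWlr : ∀ g, Cfsg.MemLocalRing M (W g))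
    (hω : ∀ χ : Cfsg.IrrCharacter G,
      Cfsg.MemLocalIdeal M ((∑ g : G, W g * (χ : G → ℂ) g) / (χ : G → ℂ) 1)) (h : G)
    [DecidablePred (fun x : G => ∃ k : ℕ, orderOf x = p ^ k)] :
    Cfsg.MemLocalIdeal M (∑ x : G, if (∃ k : ℕ, orderOf x = p ^ k) then W (x * h) else 0) := by
  classical
  have hMp := hM.2.1.isPrime
  have hG0 : Nat.card G ≠ 0 := Nat.card_pos.ne'
  obtain ⟨a, m', hm', hcard⟩ := Nat.exists_eq_pow_mul_and_not_dvd hG0 p hp.out.ne_one
  have hwli : ∀ χ ∈ (Finset.univ : Finset (Cfsg.IrrCharacter G)),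
      Cfsg.MemLocalIdeal M ((∑ g : G, W g * conj ((χ : G → ℂ) g)) / conj ((χ : G → ℂ) 1)) := by
    intro χ _
    exact hω ⟨fun g => conj ((χ : G → ℂ) g), isIrr_conj χ.2⟩
  obtain ⟨J, hJ⟩ := pow_mem_p_finset hM Finset.univ
    (fun χ : Cfsg.IrrCharacter G =>
      (∑ g : G, W g * conj ((χ : G → ℂ) g)) / conj ((χ : G → ℂ) 1)) hwli (a + 1)
  obtain ⟨m, hm⟩ : ∃ m : ℕ, m = J + Nat.card G := ⟨_, rfl⟩
  have hpm : m < p ^ m := Nat.lt_pow_self hp.out.one_lt
  obtain ⟨n, hn⟩ : ∃ n : ℕ, n + 1 = p ^ m := ⟨p ^ m - 1, by omega⟩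
  have hJn : J ≤ n + 1 := by omega
  have hGn : Nat.card G < n + 1 := by omega
  obtain ⟨b, hb⟩ : ∃ b : G → ℂ, b = fun x => W (x * h) := ⟨_, rfl⟩
  have hblr : ∀ x, Cfsg.MemLocalRing M (b x) := by
    intro x
    rw [hb]
    exact hWlr _
  obtain ⟨T, hT, hrot⟩ := rot_sum hMp b hblr n m hn
  have hcp : cp b (n + 1) 1 = ∑ χ : Cfsg.IrrCharacter G,
      (Nat.card G : ℂ)⁻¹ * conj ((χ : G → ℂ) 1) *
      ((∑ g : G, W g * conj ((χ : G → ℂ) g)) / conj ((χ : G → ℂ) 1)) ^ (n + 1) *
        (χ : G → ℂ) (1 * h ^ (n + 1)) := by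
    rw [hb, cp_shift W hWc h (n + 1) 1, cp_expand W hWc]
  rw [vec1_sum_cp, hcp] at hrot
  have hcpli : Cfsg.MemLocalIdeal M (∑ χ : Cfsg.IrrCharacter G,
      (Nat.card G : ℂ)⁻¹ * conj ((χ : G → ℂ) 1) *
      ((∑ g : G, W g * conj ((χ : G → ℂ) g)) / conj ((χ : G → ℂ) 1)) ^ (n + 1) *
        (χ : G → ℂ) (1 * h ^ (n + 1))) := by
    apply li_sum hMp
    intro χ _
    obtain ⟨c, hc, hceq⟩ := hJ (n + 1) hJn χ (Finset.mem_univ χ)
    rw [hceq]
    have hpli : Cfsg.MemLocalIdeal M (p : ℂ) := (li_nat_iff hM p).mpr dvd_rfl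
    have hm'inv : Cfsg.MemLocalRing M (m' : ℂ)⁻¹ := lr_nat_inv hM hm'
    have h1lr : Cfsg.MemLocalRing M (conj ((χ : G → ℂ) 1)) :=
      lr_of_isIntegral hMp (char_isIntegral (isCharacter_of_irr (isIrr_conj χ.2)) 1)
    have h2lr : Cfsg.MemLocalRing M ((χ : G → ℂ) (1 * h ^ (n + 1))) :=
      lr_of_isIntegral hMp (char_isIntegral (isCharacter_of_irr χ.2) _)
    have hp0 : (p : ℂ) ≠ 0 := by exact_mod_cast hp.out.ne_zero
    have hm0 : (m' : ℂ) ≠ 0 := by
      intro h0
      apply hm'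
      have : m' = 0 := by exact_mod_cast h0
      rw [this]
      exact dvd_zero _
    have e : (Nat.card G : ℂ)⁻¹ * conj ((χ : G → ℂ) 1) * ((p : ℂ) ^ (a + 1) * c) *
        (χ : G → ℂ) (1 * h ^ (n + 1)) =
        (p : ℂ) * ((m' : ℂ)⁻¹ * conj ((χ : G → ℂ) 1) * c * (χ : G → ℂ) (1 * h ^ (n + 1))) := by
      rw [hcard]
      push_cast
      field_simp
      ring
    rw [e]
    exact li_mul_right hMp hpli (lr_mul hMp (lr_mul hMp (lr_mul hMp hm'inv h1lr) hc) h2lr)
  have hsumli : Cfsg.MemLocalIdeal M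
      (∑ x : G, (if x ^ (n + 1) = 1 then b x ^ (n + 1) else 0)) := by
    have hpT : Cfsg.MemLocalIdeal M ((p : ℂ) * T) :=
      li_mul_right hMp ((li_nat_iff hM p).mpr dvd_rfl) hT
    have h2 := li_sub hMp hcpli hpT
    rw [hrot, add_sub_cancel_right] at h2
    exact h2
  rw [← Finset.sum_filter] at hsumli
  obtain ⟨c, hc, hfrob⟩ := frob_sum (p := p) hMp
    (Finset.univ.filter (fun x : G => x ^ (n + 1) = 1)) b (fun x _ => hblr x) m
  rw [← hn] at hfrob
  have hpowli : Cfsg.MemLocalIdeal M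
      ((∑ x ∈ Finset.univ.filter (fun x : G => x ^ (n + 1) = 1), b x) ^ (n + 1)) := by
    rw [hfrob]
    exact li_add hMp hsumli (li_mul_right hMp ((li_nat_iff hM p).mpr dvd_rfl) hc)
  have hres := li_of_pow hMp (lr_sum hMp _ b (fun x _ => hblr x)) (n + 1) hpowli
  have hcond : ∀ x : G, (∃ k : ℕ, orderOf x = p ^ k) ↔ x ^ (n + 1) = 1 := by
    intro x
    constructor
    · rintro ⟨k, hk⟩
      have h1 : orderOf x ∣ Nat.card G := orderOf_dvd_natCard x
      have h2 : p ^ k ≤ Nat.card G := by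
        rw [← hk]
        exact Nat.le_of_dvd Nat.card_pos h1
      have h3 : p ^ k < p ^ m := by omega
      have h4 : k < m := (Nat.pow_lt_pow_iff_right hp.out.one_lt).mp h3
      rw [hn]
      apply orderOf_dvd_iff_pow_eq_one.mp
      rw [hk]
      exact pow_dvd_pow p h4.le
    · intro hx
      have h1 := orderOf_dvd_of_pow_eq_one hx
      rw [hn] at h1
      obtain ⟨k, _, hk⟩ := (Nat.dvd_prime_pow hp.out).mp h1
      exact ⟨k, hk⟩
  have hfin : ∑ x : G, (if (∃ k : ℕ, orderOf x = p ^ k) then W (x * h) else 0) =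
      ∑ x ∈ Finset.univ.filter (fun x : G => x ^ (n + 1) = 1), b x := by
    rw [Finset.sum_filter]
    refine Finset.sum_congr rfl (fun x _ => ?_)
    rw [hb]
    by_cases hx : x ^ (n + 1) = 1
    · rw [if_pos hx, if_pos ((hcond x).mpr hx)]
    · rw [if_neg hx, if_neg (fun h' => hx ((hcond x).mp h'))]
  rw [hfin]
  exact hres

end Cfsg.Agent.Lib.Helper3.BlkSoc2
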