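import Mathlib
import Cfsg.Prelude.Def_Characters
import Cfsg.Prelude.Def_Blocks
import Cfsg.Agent.Lib.Helper3.Char
import Cfsg.Agent.Lib.Helper3.CharCore
import Cfsg.Agent.Lib.Helper3.BlkLocal
import Cfsg.Agent.Lib.Helper3.BlkOsima
import Cfsg.Agent.Lib.Helper3.BlkOrth

open Cfsg
open Cfsg.Agent.Lib.Helper3.Char Cfsg.Agent.Lib.Helper3.CharCore
open Cfsg.Agent.Lib.Helper3.BlkLocal
open Cfsg.Agent.Lib.Helper3.BlkOsima Cfsg.Agent.Lib.Helper3.BlkOrth
open scoped ComplexConjugate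

universe u

namespace Cfsg.Agent.Lib.Helper3.BlkSupp

theorem indicator_mem {ι : Type*} [Fintype ι] (Z : Subring (ι → ℂ)) (A : Set ι)
    [DecidablePred (· ∈ A)]
    (hsep : ∀ χ₁ ψ : ι, χ₁ ∈ A → ψ ∉ A → ∃ v ∈ Z, v χ₁ = 1 ∧ v ψ = 0) :
    (fun χ : ι => if χ ∈ A then (1 : ℂ) else 0) ∈ Z := by
  classical
  have hA : ∀ χ₁ : ι, χ₁ ∈ A →
      ∀ s : Finset ι, (∀ ψ ∈ s, ψ ∉ A) →
      ∃ v ∈ Z, v χ₁ = 1 ∧ ∀ ψ ∈ s, v ψ = 0 := by
    intro χ₁ h1 s
    induction s using Finset.induction_on with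
    | empty =>
      intro _
      exact ⟨1, Z.one_mem, rfl, fun ψ hψ => absurd hψ (Finset.notMem_empty ψ)⟩
    | insert a s ha ih =>
      intro hs
      obtain ⟨v, hv, hv1, hv2⟩ := ih (fun ψ hψ => hs ψ (Finset.mem_insert_of_mem hψ))
      obtain ⟨l, hl, hl1, hl2⟩ := hsep χ₁ a h1 (hs a (Finset.mem_insert_self a s))
      refine ⟨v * l, Z.mul_mem hv hl, ?_, ?_⟩
      · rw [Pi.mul_apply, hv1, hl1, one_mul]
      · intro ψ hψ
        rw [Pi.mul_apply]
        rcases Finset.mem_insert.mp hψ with h | h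
        · rw [h, hl2, mul_zero]
        · rw [hv2 ψ h, zero_mul]
  have hB : ∀ t : Finset ι, (∀ χ ∈ t, χ ∈ A) →
      ∃ v ∈ Z, (∀ χ ∈ t, v χ = 0) ∧ ∀ ψ, ψ ∉ A → v ψ = 1 := by
    intro t
    induction t using Finset.induction_on with
    | empty =>
      intro _
      exact ⟨1, Z.one_mem, fun ψ hψ => absurd hψ (Finset.notMem_empty ψ), fun ψ _ => rfl⟩
    | insert a t ha ih =>
      intro ht
      obtain ⟨v, hv, hv1, hv2⟩ := ih (fun ψ hψ => ht ψ (Finset.mem_insert_of_mem hψ))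
      obtain ⟨l, hl, hl1, hl2⟩ := hA a (ht a (Finset.mem_insert_self a t))
        (Finset.univ.filter (· ∉ A))
        (fun ψ hψ => (Finset.mem_filter.mp hψ).2)
      refine ⟨v * (1 - l), Z.mul_mem hv (Z.sub_mem Z.one_mem hl), ?_, ?_⟩
      · intro ψ hψ
        rw [Pi.mul_apply, Pi.sub_apply, Pi.one_apply]
        rcases Finset.mem_insert.mp hψ with h | h
        · rw [h, hl1, sub_self, mul_zero]
        · rw [hv1 ψ h, zero_mul]
      · intro ψ hψ
        rw [Pi.mul_apply, Pi.sub_apply, Pi.one_apply, hv2 ψ hψ,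
          hl2 ψ (Finset.mem_filter.mpr ⟨Finset.mem_univ _, hψ⟩), sub_zero, mul_one]
  obtain ⟨v, hv, hv1, hv2⟩ := hB (Finset.univ.filter (· ∈ A))
    (fun ψ hψ => (Finset.mem_filter.mp hψ).2)
  have h1 : (fun χ : ι => if χ ∈ A then (1 : ℂ) else 0) = 1 - v := by
    funext χ
    rw [Pi.sub_apply, Pi.one_apply]
    split_ifs with h
    · rw [hv1 χ (Finset.mem_filter.mpr ⟨Finset.mem_univ _, h⟩), sub_zero]
    · rw [hv2 χ h, sub_self]
  rw [h1]
  exact Z.sub_mem Z.one_mem hv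

def Nring (G : Type u) [Group G] [Fintype G] (N : Subgroup G) :
    Subring (Cfsg.IrrCharacter G → ℂ) where
  carrier := {u | ∃ f : G → ℂ, Cfsg.IsClassFunction G f ∧ (∀ g, g ∉ N → f g = 0) ∧
    ∀ χ : Cfsg.IrrCharacter G, u χ = (∑ g : G, f g * (χ : G → ℂ) g) / (χ : G → ℂ) 1}
  mul_mem' := by
    rintro u v ⟨f, hf1, hf2, hf3⟩ ⟨f', hf1', hf2', hf3'⟩
    refine ⟨fun z => ∑ x : G, f x * f' (x⁻¹ * z), conv_classFun f f' hf1 hf1',
      fun g hg => ?_, fun χ => ?_⟩
    · apply Finset.sum_eq_zero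
      intro x _
      by_cases hx : x ∈ N
      · rw [hf2' (x⁻¹ * g) (fun h => hg (by simpa using N.mul_mem hx h)), mul_zero]
      · rw [hf2 x hx, zero_mul]
    · rw [Pi.mul_apply, hf3, hf3', om_mul f f' hf1 hf1' χ χ.2]
  one_mem' := by
    classical
    refine ⟨fun g => if g = 1 then 1 else 0, ?_, ?_, ?_⟩
    · intro g h
      have h1 : h * g * h⁻¹ = 1 ↔ g = 1 := by
        constructor
        · intro h2
          have h3 : g = h⁻¹ * (h * g * h⁻¹) * h := by group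
          rw [h3, h2]
          group
        · intro h2
          rw [h2]
          group
      show (if h * g * h⁻¹ = 1 then (1 : ℂ) else 0) = if g = 1 then 1 else 0
      simp only [h1]
    · intro g hg
      show (if g = 1 then (1 : ℂ) else 0) = 0
      rw [if_neg]
      intro h
      exact hg (h ▸ N.one_mem)
    · intro χ
      rw [Pi.one_apply, Finset.sum_eq_single 1]
      · show (1 : ℂ) = (if (1 : G) = 1 then (1 : ℂ) else 0) * (χ : G → ℂ) 1 / (χ : G → ℂ) 1
        rw [if_pos rfl, one_mul, div_self (irr_one_ne_zero χ.2)]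
      · intro b _ hb
        show (if b = 1 then (1 : ℂ) else 0) * (χ : G → ℂ) b = 0
        rw [if_neg hb, zero_mul]
      · intro h
        exact absurd (Finset.mem_univ _) h
  add_mem' := by
    rintro u v ⟨f, hf1, hf2, hf3⟩ ⟨f', hf1', hf2', hf3'⟩
    refine ⟨f + f', ?_, fun g hg => ?_, fun χ => ?_⟩
    · intro g h
      show f (h * g * h⁻¹) + f' (h * g * h⁻¹) = f g + f' g
      rw [hf1 g h, hf1' g h]
    · rw [Pi.add_apply, hf2 g hg, hf2' g hg, add_zero]
    · rw [Pi.add_apply, hf3, hf3', ← add_div, ← Finset.sum_add_distrib]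
      congr 1
      refine Finset.sum_congr rfl (fun g _ => ?_)
      rw [Pi.add_apply, add_mul]
  zero_mem' := by
    refine ⟨0, fun g h => rfl, fun g _ => rfl, fun χ => ?_⟩
    simp
  neg_mem' := by
    rintro u ⟨f, hf1, hf2, hf3⟩
    refine ⟨-f, ?_, fun g hg => ?_, fun χ => ?_⟩
    · intro g h
      show -f (h * g * h⁻¹) = -f g
      rw [hf1 g h]
    · rw [Pi.neg_apply, hf2 g hg, neg_zero]
    · rw [Pi.neg_apply, hf3, ← neg_div, ← Finset.sum_neg_distrib]
      congr 1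
      refine Finset.sum_congr rfl (fun g _ => ?_)
      rw [Pi.neg_apply, neg_mul]

theorem N_smul {G : Type u} [Group G] [Fintype G] {N : Subgroup G}
    {u : Cfsg.IrrCharacter G → ℂ} (hu : u ∈ Nring G N) (c : ℂ) :
    c • u ∈ Nring G N := by
  obtain ⟨f, hf1, hf2, hf3⟩ := hu
  refine ⟨c • f, ?_, fun g hg => ?_, fun χ => ?_⟩
  · intro g h
    show c * f (h * g * h⁻¹) = c * f g
    rw [hf1 g h]
  · rw [Pi.smul_apply, hf2 g hg, smul_zero]
  · rw [Pi.smul_apply, hf3, smul_eq_mul, ← mul_div_assoc, Finset.mul_sum]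
    congr 1
    refine Finset.sum_congr rfl (fun g _ => ?_)
    rw [Pi.smul_apply, smul_eq_mul, mul_assoc]

theorem N_class {G : Type u} [Group G] [Fintype G] {N : Subgroup G} [hN : N.Normal] (g : G)
    (hg : g ∈ N) :
    (fun χ : Cfsg.IrrCharacter G => Cfsg.centralChar (χ : G → ℂ) g) ∈ Nring G N := by
  classical
  refine ⟨fun x => if IsConj g x then 1 else 0, ?_, ?_, ?_⟩
  · intro x h
    have e : IsConj g (h * x * h⁻¹) ↔ IsConj g x := by
      constructor
      · intro h1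
        exact h1.trans (isConj_iff.mpr ⟨h⁻¹, by simp [mul_assoc]⟩)
      · intro h1
        exact h1.trans (isConj_iff.mpr ⟨h, rfl⟩)
    show (if IsConj g (h * x * h⁻¹) then (1 : ℂ) else 0) = if IsConj g x then 1 else 0
    simp only [e]
  · intro x hx
    show (if IsConj g x then (1 : ℂ) else 0) = 0
    rw [if_neg]
    intro hc
    obtain ⟨c, hc⟩ := isConj_iff.mp hc
    exact hx (hc ▸ hN.conj_mem g hg c)
  · intro χ
    exact cc_eq_sum (χ : G → ℂ) (char_classFun (isCharacter_of_irr χ.2)) g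

theorem supp_of_closed {G : Type u} [Group G] [Fintype G] (N : Subgroup G) [hN : N.Normal]
    (A : Set (Cfsg.IrrCharacter G))
    (hA : ∀ χ ∈ A, ∀ ψ : Cfsg.IrrCharacter G,
      (∀ n ∈ N, Cfsg.centralChar (χ : G → ℂ) n = Cfsg.centralChar (ψ : G → ℂ) n) → ψ ∈ A)
    (g : G) (hg : g ∉ N) : Cfsg.blockCoeff A g = 0 := by
  classical
  have _fi : Fintype (Cfsg.IrrCharacter G) := Fintype.ofFinite _
  have hind := indicator_mem (Nring G N) A (by
    intro χ₁ ψ h1 h2
    have h3 : ∃ n ∈ N, Cfsg.centralChar (χ₁ : G → ℂ) n ≠ Cfsg.centralChar (ψ : G → ℂ) n := by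
      by_contra hcon
      push Not at hcon
      exact h2 (hA χ₁ h1 ψ hcon)
    obtain ⟨n, hn, hne⟩ := h3
    have hd0 : Cfsg.centralChar (χ₁ : G → ℂ) n - Cfsg.centralChar (ψ : G → ℂ) n ≠ 0 :=
      sub_ne_zero.mpr hne
    have h4 : (fun χ : Cfsg.IrrCharacter G => Cfsg.centralChar (χ : G → ℂ) n) -
        (Cfsg.centralChar (ψ : G → ℂ) n) • (1 : Cfsg.IrrCharacter G → ℂ) ∈ Nring G N :=
      (Nring G N).sub_mem (N_class n hn) (N_smul (Nring G N).one_mem _)
    refine ⟨_, N_smul h4 (Cfsg.centralChar (χ₁ : G → ℂ) n - Cfsg.centralChar (ψ : G → ℂ) n)⁻¹,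
      ?_, ?_⟩
    · simp only [Pi.smul_apply, Pi.sub_apply, Pi.one_apply, smul_eq_mul, mul_one]
      exact inv_mul_cancel₀ hd0
    · simp only [Pi.smul_apply, Pi.sub_apply, Pi.one_apply, smul_eq_mul, mul_one, sub_self,
        mul_zero])
  obtain ⟨f, hf1, hf2, hf3⟩ := hind
  have key : f - Cfsg.blockCoeff A = 0 := by
    apply class_fun_eq_zero
    · intro g k
      show f (k * g * k⁻¹) - Cfsg.blockCoeff A (k * g * k⁻¹) = f g - Cfsg.blockCoeff A g
      rw [hf1 g k, blockCoeff_classFun A g k]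
    · intro χ hχ
      have h1 : (if (⟨χ, hχ⟩ : Cfsg.IrrCharacter G) ∈ A then (1 : ℂ) else 0) =
          (∑ g : G, f g * χ g) / χ 1 := hf3 ⟨χ, hχ⟩
      have h2 := blockCoeff_om A ⟨χ, hχ⟩
      have h3 : (⟨χ, hχ⟩ : Cfsg.IrrCharacter G).1 = χ := rfl
      rw [h3] at h2
      have hne := irr_one_ne_zero hχ
      have h4 : ∑ g : G, f g * χ g = ∑ g : G, Cfsg.blockCoeff A g * χ g := by
        rw [h2]
        by_cases h5 : (⟨χ, hχ⟩ : Cfsg.IrrCharacter G) ∈ A
        · rw [if_pos h5] at h1 ⊢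
          field_simp at h1
          exact h1.symm
        · rw [if_neg h5] at h1 ⊢
          have h6 := h1.symm
          rw [div_eq_zero_iff] at h6
          rcases h6 with h6 | h6
          · exact h6
          · exact absurd h6 hne
      have h5 : ∀ g : G, (f - Cfsg.blockCoeff A) g * χ g =
          f g * χ g - Cfsg.blockCoeff A g * χ g := by
        intro g
        rw [Pi.sub_apply, sub_mul]
      rw [Finset.sum_congr rfl (fun g _ => h5 g), Finset.sum_sub_distrib, h4, sub_self]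
  have h1 := congrFun key g
  rw [Pi.sub_apply, Pi.zero_apply, sub_eq_zero] at h1
  rw [← h1]
  exact hf2 g hg

end Cfsg.Agent.Lib.Helper3.BlkSupp
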