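import Mathlib
import Cfsg.Prelude.Def_Characters
import Cfsg.Prelude.Def_Blocks
import Cfsg.Agent.Lib.Helper3.Char
import Cfsg.Agent.Lib.Helper3.CharCore
import Cfsg.Agent.Lib.Helper3.CharArith
import Cfsg.Agent.Lib.Helper3.CharInt
import Cfsg.Agent.Lib.Helper3.CharInd
import Cfsg.Agent.Lib.Helper3.CharBrauer4
import Cfsg.Agent.Lib.Helper3.CharBrauer5
import Cfsg.Agent.Lib.Helper3.BlkOsima
import Cfsg.Agent.Lib.Helper3.BlkOrth4

open Cfsg
open Cfsg.Agent.Lib.Helper3.Char Cfsg.Agent.Lib.Helper3.CharCore Cfsg.Agent.Lib.Helper3.CharArith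
open Cfsg.Agent.Lib.Helper3.CharInt Cfsg.Agent.Lib.Helper3.CharInd
open Cfsg.Agent.Lib.Helper3.CharBrauer4 Cfsg.Agent.Lib.Helper3.CharBrauer5
open Cfsg.Agent.Lib.Helper3.BlkOsima Cfsg.Agent.Lib.Helper3.BlkOrth4
open scoped ComplexConjugate

universe u

namespace Cfsg.Agent.Lib.Helper3.BlkTilde

theorem gen_int_inner {G : Type u} [Group G] [Fintype G] {f ψ : G → ℂ}
    (hf : Cfsg.IsGeneralizedCharacter G f) (hψ : Cfsg.IsIrrCharacter G ψ) :
    ∃ n : ℤ, Cfsg.classInner f ψ = (n : ℂ) := by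
  obtain ⟨a, b, ha, hb, rfl⟩ := hf
  obtain ⟨n1, h1⟩ := inner_char_nat ha (isCharacter_of_irr hψ)
  obtain ⟨n2, h2⟩ := inner_char_nat hb (isCharacter_of_irr hψ)
  refine ⟨(n1 : ℤ) - (n2 : ℤ), ?_⟩
  rw [classInner_sub_left, h1, h2]
  push_cast
  rfl

theorem gen_of_int {G : Type u} [Group G] [Fintype G] {f : G → ℂ}
    (hf : Cfsg.IsClassFunction G f)
    (h : ∀ ψ : Cfsg.IrrCharacter G, ∃ n : ℤ, Cfsg.classInner f (ψ : G → ℂ) = (n : ℂ)) :
    Cfsg.IsGeneralizedCharacter G f := by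
  classical
  have _fi : Fintype (Cfsg.IrrCharacter G) := Fintype.ofFinite _
  rw [class_fun_expand f hf]
  apply gen_finset_sum
  intro ψ _
  obtain ⟨n, hn⟩ := h ψ
  rw [hn]
  exact gen_zsmul (gen_of_char (isCharacter_of_irr ψ.2)) n

theorem tilde_classFun {G : Type u} [Group G] (p : ℕ) (c : ℂ) {χ : G → ℂ}
    (hχ : Cfsg.IsClassFunction G χ) :
    Cfsg.IsClassFunction G (fun x : G => if p ∣ orderOf x then (0 : ℂ) else c * χ x) := by
  intro g h
  have h1 : orderOf (h * g * h⁻¹) = orderOf g := by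
    have h2 := MulEquiv.orderOf_eq (MulAut.conj h) g
    rw [MulAut.conj_apply] at h2
    exact h2
  show (if p ∣ orderOf (h * g * h⁻¹) then (0 : ℂ) else c * χ (h * g * h⁻¹)) =
    if p ∣ orderOf g then (0 : ℂ) else c * χ g
  rw [h1, hχ g h]

theorem tilde_inner {G : Type u} [Group G] [Fintype G] (p : ℕ) (c : ℂ) (χ ψ : G → ℂ) :
    Cfsg.classInner (fun x : G => if p ∣ orderOf x then (0 : ℂ) else c * χ x) ψ =
      c * ((Nat.card G : ℂ)⁻¹ *
        ∑ x : G, (if p ∣ orderOf x then 0 else χ x * conj (ψ x))) := by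
  unfold Cfsg.classInner
  have h1 : ∀ x : G, (if p ∣ orderOf x then (0 : ℂ) else c * χ x) * conj (ψ x) =
      c * (if p ∣ orderOf x then 0 else χ x * conj (ψ x)) := by
    intro x
    split_ifs
    · rw [zero_mul, mul_zero]
    · rw [mul_assoc]
  rw [Finset.sum_congr rfl (fun x _ => h1 x), ← Finset.mul_sum]
  ring

theorem tilde_int {G : Type u} [Group G] [Fintype G] (p : ℕ) (hp : p.Prime)
    (χ ψ : Cfsg.IrrCharacter G) :
    ∃ n : ℤ, ((p ^ (Nat.card G).factorization p : ℕ) : ℂ) * ((Nat.card G : ℂ)⁻¹ *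
        ∑ x : G, (if p ∣ orderOf x then 0 else (χ : G → ℂ) x * conj ((ψ : G → ℂ) x))) =
          (n : ℂ) := by
  obtain ⟨n, hn⟩ := gen_int_inner (preg_gen p hp (χ : G → ℂ) (isCharacter_of_irr χ.2)) ψ.2
  rw [tilde_inner] at hn
  exact ⟨n, hn⟩

theorem tilde_dvd {G : Type u} [Group G] [Fintype G] (p : ℕ) (hp : p.Prime)
    (χ ψ : Cfsg.IrrCharacter G) (d : ℕ) (hd : (χ : G → ℂ) 1 = (d : ℂ)) (n : ℤ)
    (hn : ((p ^ (Nat.card G).factorization p : ℕ) : ℂ) * ((Nat.card G : ℂ)⁻¹ *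
        ∑ x : G, (if p ∣ orderOf x then 0 else (χ : G → ℂ) x * conj ((ψ : G → ℂ) x))) =
          (n : ℂ)) :
    ((p ^ d.factorization p : ℕ) : ℤ) ∣ n := by
  classical
  have hG0 : Nat.card G ≠ 0 := Nat.card_pos.ne'
  have hGc : (Nat.card G : ℂ) ≠ 0 := by exact_mod_cast hG0
  have hd0 : d ≠ 0 := by
    intro h0
    rw [h0, Nat.cast_zero] at hd
    exact irr_one_ne_zero χ.2 hd
  have hdc : (d : ℂ) ≠ 0 := by exact_mod_cast hd0
  obtain ⟨k, ρ, hirr, hρ⟩ := χ.2
  have _i : ρ.IsIrreducible := hirr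
  have hfr : (Module.finrank ℂ (Fin k → ℂ) : ℂ) = (d : ℂ) := by
    rw [← hd, ← hρ, Representation.char_one]
  have hA := central_integral_gen ρ
    (fun x : G => if p ∣ orderOf x then (0 : ℂ) else conj ((ψ : G → ℂ) x))
    (by
      have h1 := tilde_classFun p 1 (χ := fun x => conj ((ψ : G → ℂ) x)) (by
        intro g h
        show conj ((ψ : G → ℂ) (h * g * h⁻¹)) = conj ((ψ : G → ℂ) g)
        rw [char_classFun (isCharacter_of_irr ψ.2) g h])
      intro g h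
      have h2 := h1 g h
      simp only [one_mul] at h2
      exact h2)
    (by
      intro g
      split_ifs
      · exact isIntegral_zero
      · have h1 := char_isIntegral (isCharacter_of_irr ψ.2) g⁻¹
        rw [char_inv (isCharacter_of_irr ψ.2)] at h1
        exact h1)
  rw [hfr, hρ] at hA
  have hsum : ∑ x : G, (if p ∣ orderOf x then (0 : ℂ) else conj ((ψ : G → ℂ) x)) *
      (χ : G → ℂ) x =
      ∑ x : G, (if p ∣ orderOf x then 0 else (χ : G → ℂ) x * conj ((ψ : G → ℂ) x)) := by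
    refine Finset.sum_congr rfl (fun x _ => ?_)
    split_ifs
    · rw [zero_mul]
    · rw [mul_comm]
  rw [hsum] at hA
  obtain ⟨m', hm'⟩ := Nat.ordProj_dvd (Nat.card G) p
  have hcop : Nat.Coprime p m' := by
    have h1 := Nat.coprime_ordCompl hp hG0
    have h2 : Nat.card G / p ^ (Nat.card G).factorization p = m' :=
      Nat.div_eq_of_eq_mul_right (pow_pos hp.pos _) hm'
    rw [h2] at h1
    exact h1
  have hm'c : (Nat.card G : ℂ) = ((p ^ (Nat.card G).factorization p : ℕ) : ℂ) * (m' : ℂ) := by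
    exact_mod_cast congrArg (Nat.cast : ℕ → ℂ) hm'
  have hpa : ((p ^ (Nat.card G).factorization p : ℕ) : ℂ) ≠ 0 := by
    exact_mod_cast (pow_pos hp.pos _).ne'
  have hm'0 : (m' : ℂ) ≠ 0 := by
    intro h0
    rw [h0, mul_zero] at hm'c
    exact hGc hm'c
  have hAeq : (∑ x : G, (if p ∣ orderOf x then 0 else (χ : G → ℂ) x * conj ((ψ : G → ℂ) x))) /
      (d : ℂ) = ((n * (m' : ℤ) : ℤ) : ℂ) / (d : ℂ) := by
    congr 1
    push_cast
    rw [← hn, hm'c]
    field_simp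
  rw [hAeq] at hA
  have hAq : IsIntegral ℤ (((n * (m' : ℤ) : ℤ) : ℚ) / (d : ℚ)) := by
    have h1 : ((((n * (m' : ℤ) : ℤ) : ℚ) / (d : ℚ) : ℚ) : ℂ) =
        ((n * (m' : ℤ) : ℤ) : ℂ) / (d : ℂ) := by
      push_cast
      rfl
    rw [← h1] at hA
    exact (isIntegral_algebraMap_iff (algebraMap ℚ ℂ).injective).mp hA
  obtain ⟨z, hz⟩ := IsIntegrallyClosed.isIntegral_iff.mp hAq
  have hz2 : n * (m' : ℤ) = (d : ℤ) * z := by
    have hdq : (d : ℚ) ≠ 0 := by exact_mod_cast hd0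
    have h1 : ((n * (m' : ℤ) : ℤ) : ℚ) = (d : ℚ) * (z : ℚ) := by
      have h2 : (algebraMap ℤ ℚ) z = (z : ℚ) := rfl
      rw [h2] at hz
      rw [hz]
      field_simp
    exact_mod_cast h1
  have h3 : ((p ^ d.factorization p : ℕ) : ℤ) ∣ n * (m' : ℤ) := by
    rw [hz2]
    exact Dvd.dvd.mul_right (Int.natCast_dvd_natCast.mpr (Nat.ordProj_dvd d p)) z
  have h4 : IsCoprime ((p ^ d.factorization p : ℕ) : ℤ) (m' : ℤ) := by
    rw [Int.isCoprime_iff_gcd_eq_one, Int.gcd_natCast_natCast]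
    exact Nat.Coprime.pow_left _ hcop
  exact h4.dvd_of_dvd_mul_right h3

theorem tilde_zero {p : ℕ} {M : Ideal AlgInt} (hM : IsPModular p M) {G : Type u} [Group G]
    [Fintype G] (χ ψ : Cfsg.IrrCharacter G)
    (h : ¬ Cfsg.SameBlock M (χ : G → ℂ) (ψ : G → ℂ)) (c : ℂ) :
    c * ((Nat.card G : ℂ)⁻¹ *
      ∑ x : G, (if p ∣ orderOf x then 0 else (χ : G → ℂ) x * conj ((ψ : G → ℂ) x))) = 0 := by
  classical
  have _fi : Fintype (Cfsg.IrrCharacter G) := Fintype.ofFinite _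
  rw [diff_block_orth hM χ ψ h, mul_zero, mul_zero]

theorem gen_vanish_dvd {G : Type u} [Group G] [Fintype G] (p : ℕ) [hp : Fact p.Prime]
    {η : G → ℂ} (hη : Cfsg.IsGeneralizedCharacter G η)
    (hv : ∀ x : G, p ∣ orderOf x → η x = 0) :
    ∃ z : ℤ, η 1 = (z : ℂ) * ((p ^ (Nat.card G).factorization p : ℕ) : ℂ) := by
  classical
  obtain ⟨P⟩ : Nonempty (Sylow p G) := inferInstance
  have _fP : Fintype (P : Subgroup G) := Fintype.ofFinite _
  have h1 := gen_restrict (P : Subgroup G) hη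
  obtain ⟨z, hz⟩ := gen_int_inner h1 (isIrr_one (P : Subgroup G))
  refine ⟨z, ?_⟩
  unfold Cfsg.classInner at hz
  have hPc : Nat.card (P : Subgroup G) = p ^ (Nat.card G).factorization p :=
    Sylow.card_eq_multiplicity P
  have hP0 : (Nat.card (P : Subgroup G) : ℂ) ≠ 0 := by exact_mod_cast Nat.card_pos.ne'
  rw [Finset.sum_eq_single (1 : (P : Subgroup G))] at hz
  · simp only [map_one, mul_one, Subgroup.coe_one] at hz
    rw [← hPc, ← hz]
    field_simp
  · intro h _ hne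
    have h2 : p ∣ orderOf (h : G) := by
      rw [Subgroup.orderOf_coe]
      obtain ⟨k, hk⟩ := P.isPGroup' h
      have h3 : orderOf h ∣ p ^ k := orderOf_dvd_of_pow_eq_one hk
      obtain ⟨j, -, hj⟩ := (Nat.dvd_prime_pow hp.out).mp h3
      rw [hj]
      have hj0 : j ≠ 0 := by
        intro h0
        rw [h0, pow_zero, orderOf_eq_one_iff] at hj
        exact hne hj
      exact dvd_pow_self p hj0
    show η (h : G) * conj ((fun _ : (P : Subgroup G) => (1 : ℂ)) h) = 0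
    rw [hv _ h2, zero_mul]
  · intro h
    exact absurd (Finset.mem_univ _) h

end Cfsg.Agent.Lib.Helper3.BlkTilde
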