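import Mathlib
import Cfsg.Prelude.Def_Characters
import Cfsg.Prelude.Def_Blocks
import Cfsg.Agent.Lib.Helper3.Char
import Cfsg.Agent.Lib.Helper3.CharCore
import Cfsg.Agent.Lib.Helper3.CharArith
import Cfsg.Agent.Lib.Helper3.CharInt
import Cfsg.Agent.Lib.Helper3.CharInd
import Cfsg.Agent.Lib.Helper3.CharBrauer4
import Cfsg.Agent.Lib.Helper3.CharBrauer5
import Cfsg.Agent.Lib.Helper3.BlkLocal
import Cfsg.Agent.Lib.Helper3.BlkOsima
import Cfsg.Agent.Lib.Helper3.BlkOrth2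
import Cfsg.Agent.Lib.Helper3.BlkOrth4
import Cfsg.Agent.Lib.Helper3.BlkTilde

open Cfsg
open Cfsg.Agent.Lib.Helper3.Char Cfsg.Agent.Lib.Helper3.CharCore Cfsg.Agent.Lib.Helper3.CharArith
open Cfsg.Agent.Lib.Helper3.CharInt Cfsg.Agent.Lib.Helper3.CharInd
open Cfsg.Agent.Lib.Helper3.CharBrauer4 Cfsg.Agent.Lib.Helper3.CharBrauer5
open Cfsg.Agent.Lib.Helper3.BlkLocal
open Cfsg.Agent.Lib.Helper3.BlkOsima Cfsg.Agent.Lib.Helper3.BlkOrth2
open Cfsg.Agent.Lib.Helper3.BlkOrth4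
open Cfsg.Agent.Lib.Helper3.BlkTilde
open scoped ComplexConjugate

universe u

namespace Cfsg.Agent.Lib.Helper3.BlkTilde2

theorem int_mem_iff {p : ℕ} {M : Ideal AlgInt} (hM : IsPModular p M) (n : ℤ) :
    MemLocalIdeal M (n : ℂ) ↔ (p : ℤ) ∣ n := by
  have hMp := hM.2.1.isPrime
  rcases Int.natAbs_eq n with h | h
  · have h1 : (n : ℂ) = ((n.natAbs : ℕ) : ℂ) := by
      conv_lhs => rw [h]
      exact Int.cast_natCast _
    rw [h1, li_nat_iff hM, Int.natCast_dvd]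
  · have h1 : (n : ℂ) = -((n.natAbs : ℕ) : ℂ) := by
      conv_lhs => rw [h]
      rw [Int.cast_neg, Int.cast_natCast]
    rw [h1, Int.natCast_dvd, ← li_nat_iff hM]
    constructor
    · intro h2
      have h3 := li_neg h2
      rwa [neg_neg] at h3
    · intro h2
      exact li_neg h2

theorem li_pow_dvd {p : ℕ} {M : Ideal AlgInt} (hM : IsPModular p M) :
    ∀ (β : ℕ) (n : ℤ), MemLocalIdeal M ((n : ℂ) / (p : ℂ) ^ β) →
      ((p ^ (β + 1) : ℕ) : ℤ) ∣ n := by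
  have hMp := hM.2.1.isPrime
  have hp := hM.1
  have hpc : (p : ℂ) ≠ 0 := by exact_mod_cast hp.ne_zero
  intro β
  induction β with
  | zero =>
    intro n h
    rw [pow_zero, div_one] at h
    have h1 := (int_mem_iff hM n).mp h
    simpa using h1
  | succ β ih =>
    intro n h
    have h1 : MemLocalIdeal M ((n : ℂ) / (p : ℂ) ^ (β + 1) * (((p ^ (β + 1) : ℕ) : AlgInt) : ℂ)) :=
      li_mul_right hMp h (lr_int hMp _)
    have h2 : (n : ℂ) / (p : ℂ) ^ (β + 1) * (((p ^ (β + 1) : ℕ) : AlgInt) : ℂ) = (n : ℂ) := by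
      push_cast
      field_simp
    rw [h2] at h1
    obtain ⟨m, hm⟩ := (int_mem_iff hM n).mp h1
    have h3 : (n : ℂ) / (p : ℂ) ^ (β + 1) = (m : ℂ) / (p : ℂ) ^ β := by
      rw [hm]
      push_cast
      field_simp
      ring
    rw [h3] at h
    obtain ⟨k, hk⟩ := ih m h
    refine ⟨k, ?_⟩
    rw [hm, hk]
    push_cast
    ring

theorem li_rat_iff {p : ℕ} {M : Ideal AlgInt} (hM : IsPModular p M) (n : ℤ) (d : ℕ)
    (hd : d ≠ 0) :
    MemLocalIdeal M ((n : ℂ) / (d : ℂ)) ↔ ((p ^ (d.factorization p + 1) : ℕ) : ℤ) ∣ n := by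
  have hMp := hM.2.1.isPrime
  have hp := hM.1
  have hpc : (p : ℂ) ≠ 0 := by exact_mod_cast hp.ne_zero
  have hdc : (d : ℂ) ≠ 0 := by exact_mod_cast hd
  have h1 := Nat.ordProj_mul_ordCompl_eq_self d p
  have h2 := Nat.not_dvd_ordCompl hp hd
  obtain ⟨d', hd'⟩ : ∃ d' : ℕ, d' = d / p ^ d.factorization p := ⟨_, rfl⟩
  rw [← hd'] at h1 h2
  have hd'c : (d' : ℂ) ≠ 0 := by
    intro h0
    have h3 : d' = 0 := by exact_mod_cast h0
    rw [h3] at h2
    exact h2 (dvd_zero p)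
  have h4 : (d : ℂ) = (p : ℂ) ^ d.factorization p * (d' : ℂ) := by
    exact_mod_cast congrArg (Nat.cast : ℕ → ℂ) h1.symm
  constructor
  · intro h
    apply li_pow_dvd hM
    have h5 : MemLocalIdeal M ((n : ℂ) / (d : ℂ) * (((d' : ℕ) : AlgInt) : ℂ)) :=
      li_mul_right hMp h (lr_int hMp _)
    have h6 : (n : ℂ) / (d : ℂ) * (((d' : ℕ) : AlgInt) : ℂ) =
        (n : ℂ) / (p : ℂ) ^ d.factorization p := by
      rw [h4]
      push_cast
      field_simp
    rw [h6] at h5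
    exact h5
  · rintro ⟨k, hk⟩
    have h5 : (n : ℂ) / (d : ℂ) = ((p : ℕ) : ℂ) * ((((k : ℤ) : AlgInt) : ℂ) * ((d' : ℕ) : ℂ)⁻¹) := by
      rw [hk, h4]
      push_cast
      field_simp
      ring
    rw [h5]
    exact li_mul_right hMp ((li_nat_iff hM p).mpr dvd_rfl)
      (lr_mul hMp (lr_int hMp _) (lr_nat_inv hM h2))

theorem tilde_conj {G : Type u} [Group G] [Fintype G] (p : ℕ) (χ ψ : G → ℂ) (n : ℤ)
    (hn : ((p ^ (Nat.card G).factorization p : ℕ) : ℂ) * ((Nat.card G : ℂ)⁻¹ *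
        ∑ x : G, (if p ∣ orderOf x then 0 else χ x * conj (ψ x))) = (n : ℂ)) :
    ((p ^ (Nat.card G).factorization p : ℕ) : ℂ) * ((Nat.card G : ℂ)⁻¹ *
        ∑ x : G, (if p ∣ orderOf x then 0 else ψ x * conj (χ x))) = (n : ℂ) := by
  have h1 := congrArg conj hn
  rw [map_mul, map_mul, map_inv₀, map_natCast, map_natCast, map_sum, map_intCast] at h1
  rw [← h1]
  congr 2
  refine Finset.sum_congr rfl (fun x _ => ?_)
  split_ifs
  · rw [map_zero]
  · rw [map_mul, Complex.conj_conj, mul_comm]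

theorem tilde_diff_li {p : ℕ} {M : Ideal AlgInt} (hM : IsPModular p M) {G : Type u} [Group G]
    [Fintype G] (χ ψ ψ' : Cfsg.IrrCharacter G)
    (h : Cfsg.SameBlock M (ψ : G → ℂ) (ψ' : G → ℂ)) (n n' : ℤ)
    (hn : ((p ^ (Nat.card G).factorization p : ℕ) : ℂ) * ((Nat.card G : ℂ)⁻¹ *
        ∑ x : G, (if p ∣ orderOf x then 0 else (χ : G → ℂ) x * conj ((ψ : G → ℂ) x))) = (n : ℂ))
    (hn' : ((p ^ (Nat.card G).factorization p : ℕ) : ℂ) * ((Nat.card G : ℂ)⁻¹ *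
        ∑ x : G, (if p ∣ orderOf x then 0 else (χ : G → ℂ) x * conj ((ψ' : G → ℂ) x))) =
          (n' : ℂ)) :
    MemLocalIdeal M ((n : ℂ) / (ψ : G → ℂ) 1 - (n' : ℂ) / (ψ' : G → ℂ) 1) := by
  classical
  have _k : Fintype (ConjClasses G) := Fintype.ofFinite _
  have hMp := hM.2.1.isPrime
  have hp := hM.1
  have hG0 : Nat.card G ≠ 0 := Nat.card_pos.ne'
  have hGc : (Nat.card G : ℂ) ≠ 0 := by exact_mod_cast hG0
  obtain ⟨f, hf⟩ : ∃ f : G → ℂ, f = fun x : G => if p ∣ orderOf x then (0 : ℂ) else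
      conj ((χ : G → ℂ) x) := ⟨_, rfl⟩
  have hfc : Cfsg.IsClassFunction G f := by
    have h1 := tilde_classFun p 1 (χ := fun x => conj ((χ : G → ℂ) x)) (by
      intro g k
      show conj ((χ : G → ℂ) (k * g * k⁻¹)) = conj ((χ : G → ℂ) g)
      rw [char_classFun (isCharacter_of_irr χ.2) g k])
    intro g k
    have h2 := h1 g k
    simp only [one_mul] at h2
    rw [hf]
    exact h2
  have hfi : ∀ g, IsIntegral ℤ (f g) := by
    intro g
    rw [hf]
    show IsIntegral ℤ (if p ∣ orderOf g then (0 : ℂ) else conj ((χ : G → ℂ) g))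
    split_ifs
    · exact isIntegral_zero
    · have h1 := char_isIntegral (isCharacter_of_irr χ.2) g⁻¹
      rw [char_inv (isCharacter_of_irr χ.2)] at h1
      exact h1
  obtain ⟨m', hm'⟩ := Nat.ordProj_dvd (Nat.card G) p
  have hcop : ¬ p ∣ m' := by
    have h1 := Nat.not_dvd_ordCompl hp hG0
    have h2 : Nat.card G / p ^ (Nat.card G).factorization p = m' :=
      Nat.div_eq_of_eq_mul_right (pow_pos hp.pos _) hm'
    rw [h2] at h1
    exact h1
  have hm'c : (Nat.card G : ℂ) = ((p ^ (Nat.card G).factorization p : ℕ) : ℂ) * (m' : ℂ) := by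
    exact_mod_cast congrArg (Nat.cast : ℕ → ℂ) hm'
  have hpa : ((p ^ (Nat.card G).factorization p : ℕ) : ℂ) ≠ 0 := by
    exact_mod_cast (pow_pos hp.pos _).ne'
  have hm'0 : (m' : ℂ) ≠ 0 := by
    intro h0
    rw [h0, mul_zero] at hm'c
    exact hGc hm'c
  have hS : ∀ (φ : Cfsg.IrrCharacter G) (k : ℤ),
      ((p ^ (Nat.card G).factorization p : ℕ) : ℂ) * ((Nat.card G : ℂ)⁻¹ *
        ∑ x : G, (if p ∣ orderOf x then 0 else (χ : G → ℂ) x * conj ((φ : G → ℂ) x))) = (k : ℂ) →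
      (∑ g : G, f g * (φ : G → ℂ) g) / (φ : G → ℂ) 1 = (m' : ℂ) * ((k : ℂ) / (φ : G → ℂ) 1) := by
    intro φ k hk
    have h1 := tilde_conj p _ _ k hk
    have h2 : ∑ g : G, f g * (φ : G → ℂ) g =
        ∑ x : G, (if p ∣ orderOf x then 0 else (φ : G → ℂ) x * conj ((χ : G → ℂ) x)) := by
      refine Finset.sum_congr rfl (fun x _ => ?_)
      rw [hf]
      show (if p ∣ orderOf x then (0 : ℂ) else conj ((χ : G → ℂ) x)) * (φ : G → ℂ) x = _
      split_ifs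
      · rw [zero_mul]
      · rw [mul_comm]
    rw [h2, ← h1, hm'c]
    field_simp
  have h1 := om_classes f hfc (ψ : G → ℂ) (char_classFun (isCharacter_of_irr ψ.2))
  have h2 := om_classes f hfc (ψ' : G → ℂ) (char_classFun (isCharacter_of_irr ψ'.2))
  rw [hS ψ n hn] at h1
  rw [hS ψ' n' hn'] at h2
  have h3 : MemLocalIdeal M ((m' : ℂ) * ((n : ℂ) / (ψ : G → ℂ) 1) -
      (m' : ℂ) * ((n' : ℂ) / (ψ' : G → ℂ) 1)) := by
    rw [h1, h2, ← Finset.sum_sub_distrib]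
    apply li_sum hMp
    intro C _
    rw [← mul_sub]
    exact li_mul_left hMp (lr_of_isIntegral hMp (hfi _)) (h _)
  have h4 := li_mul_right hMp h3 (lr_nat_inv hM hcop)
  have h5 : ((m' : ℂ) * ((n : ℂ) / (ψ : G → ℂ) 1) -
      (m' : ℂ) * ((n' : ℂ) / (ψ' : G → ℂ) 1)) * (m' : ℂ)⁻¹ =
      (n : ℂ) / (ψ : G → ℂ) 1 - (n' : ℂ) / (ψ' : G → ℂ) 1 := by
    field_simp
  rw [h5] at h4
  exact h4

theorem tilde_unit {p : ℕ} [hpf : Fact p.Prime] {M : Ideal AlgInt} (hM : IsPModular p M)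
    {G : Type u} [Group G] [Fintype G] (B : Set (Cfsg.IrrCharacter G)) (hB : Cfsg.IsPBlock M B)
    (χ : Cfsg.IrrCharacter G) (hχ : χ ∈ B) (d : ℕ) (hd : (χ : G → ℂ) 1 = (d : ℂ))
    (hmin : ∀ ψ ∈ B, d.factorization p ≤ (Cfsg.charDegree (ψ : G → ℂ)).factorization p)
    (n : ℤ)
    (hn : ((p ^ (Nat.card G).factorization p : ℕ) : ℂ) * ((Nat.card G : ℂ)⁻¹ *
        ∑ x : G, (if p ∣ orderOf x then 0 else (χ : G → ℂ) x * conj ((χ : G → ℂ) x))) = (n : ℂ)) :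
    ¬ MemLocalIdeal M ((n : ℂ) / (d : ℂ)) := by
  classical
  intro hli
  have hMp := hM.2.1.isPrime
  have hp := hM.1
  have hpc : (p : ℂ) ≠ 0 := by exact_mod_cast hp.ne_zero
  have hd0 : d ≠ 0 := by
    intro h0
    rw [h0, Nat.cast_zero] at hd
    exact irr_one_ne_zero χ.2 hd
  have hall : ∀ ψ : Cfsg.IrrCharacter G, ∃ k : ℤ,
      ((p ^ (Nat.card G).factorization p : ℕ) : ℂ) * ((Nat.card G : ℂ)⁻¹ *
        ∑ x : G, (if p ∣ orderOf x then 0 else (χ : G → ℂ) x * conj ((ψ : G → ℂ) x))) =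
          ((p ^ (d.factorization p + 1) : ℕ) : ℂ) * (k : ℂ) := by
    intro ψ
    obtain ⟨nψ, hnψ⟩ := tilde_int p hp χ ψ
    by_cases hψ : ψ ∈ B
    · have hsb : Cfsg.SameBlock M (χ : G → ℂ) (ψ : G → ℂ) := by
        obtain ⟨χ₁, rfl⟩ := hB
        exact sb_trans hMp (sb_symm hχ) hψ
      have h1 := tilde_diff_li hM χ χ ψ hsb n nψ hn hnψ
      rw [hd] at h1
      have h2 := li_sub hMp hli h1
      rw [sub_sub_cancel] at h2
      obtain ⟨dψ, hdψ0, hdψ⟩ := irr_one_pos ψ.2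
      rw [hdψ] at h2
      obtain ⟨k, hk⟩ := (li_rat_iff hM nψ dψ hdψ0.ne').mp h2
      have h3 := hmin ψ hψ
      rw [charDegree_eq hdψ] at h3
      obtain ⟨j, hj⟩ := pow_dvd_pow p (Nat.succ_le_succ h3)
      refine ⟨(j : ℤ) * k, ?_⟩
      rw [hnψ, hk]
      have h4 : ((p ^ (dψ.factorization p + 1) : ℕ) : ℤ) =
          ((p ^ (d.factorization p + 1) : ℕ) : ℤ) * (j : ℤ) := by
        exact_mod_cast congrArg (Nat.cast : ℕ → ℤ) hj
      rw [h4]
      push_cast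
      ring
    · refine ⟨0, ?_⟩
      have h1 : ¬ Cfsg.SameBlock M (χ : G → ℂ) (ψ : G → ℂ) := by
        intro h
        apply hψ
        obtain ⟨χ₁, rfl⟩ := hB
        exact sb_trans hMp hχ h
      rw [tilde_zero hM χ ψ h1]
      simp
  have hgen : Cfsg.IsGeneralizedCharacter G (fun x : G => if p ∣ orderOf x then (0 : ℂ) else
      (((p ^ (Nat.card G).factorization p : ℕ) : ℂ) / ((p ^ (d.factorization p + 1) : ℕ) : ℂ)) *
        (χ : G → ℂ) x) := by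
    apply gen_of_int (tilde_classFun p _ (char_classFun (isCharacter_of_irr χ.2)))
    intro ψ
    obtain ⟨k, hk⟩ := hall ψ
    refine ⟨k, ?_⟩
    rw [tilde_inner, div_mul_eq_mul_div, hk]
    have h1 : ((p ^ (d.factorization p + 1) : ℕ) : ℂ) ≠ 0 := by
      exact_mod_cast (pow_pos hp.pos _).ne'
    field_simp
  obtain ⟨z, hz⟩ := gen_vanish_dvd p hgen (fun x hx => if_pos hx)
  have h1 : ((p ^ (Nat.card G).factorization p : ℕ) : ℂ) /
      ((p ^ (d.factorization p + 1) : ℕ) : ℂ) * (d : ℂ) =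
      (z : ℂ) * ((p ^ (Nat.card G).factorization p : ℕ) : ℂ) := by
    rw [← hd, ← hz, if_neg]
    rw [orderOf_one]
    exact hp.not_dvd_one
  have h2 : (d : ℂ) = ((z * ((p ^ (d.factorization p + 1) : ℕ) : ℤ) : ℤ) : ℂ) := by
    push_cast at h1 ⊢
    have h3 := pow_ne_zero ((Nat.card G).factorization p) hpc
    have h4 := pow_ne_zero (d.factorization p + 1) hpc
    field_simp at h1
    linear_combination h1
  have h3 : (d : ℤ) = z * ((p ^ (d.factorization p + 1) : ℕ) : ℤ) := by exact_mod_cast h2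
  have h4 : p ^ (d.factorization p + 1) ∣ d :=
    Int.natCast_dvd_natCast.mp ⟨z, by rw [h3]; ring⟩
  exact Nat.pow_succ_factorization_not_dvd hd0 hp h4

end Cfsg.Agent.Lib.Helper3.BlkTilde2
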