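import Mathlib
import Cfsg.Prelude.Def_Characters
import Cfsg.Prelude.Def_Blocks
import Cfsg.Agent.Lib.Helper3.Char
import Cfsg.Agent.Lib.Helper3.CharCore
import Cfsg.Agent.Lib.Helper3.CharArith
import Cfsg.Agent.Lib.Helper3.CharInt
import Cfsg.Agent.Lib.Helper3.CharInd
import Cfsg.Agent.Lib.Helper3.BlkLocal
import Cfsg.Agent.Lib.Helper3.BlkOsima
import Cfsg.Agent.Lib.Helper3.BlkOrth2
import Cfsg.Agent.Lib.Helper3.BlkOrth4
import Cfsg.Agent.Lib.Helper3.BlkTilde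
import Cfsg.Agent.Lib.Helper3.BlkTilde2

open Cfsg
open Cfsg.Agent.Lib.Helper3.Char Cfsg.Agent.Lib.Helper3.CharCore Cfsg.Agent.Lib.Helper3.CharArith
open Cfsg.Agent.Lib.Helper3.CharInt Cfsg.Agent.Lib.Helper3.CharInd
open Cfsg.Agent.Lib.Helper3.BlkLocal
open Cfsg.Agent.Lib.Helper3.BlkOsima Cfsg.Agent.Lib.Helper3.BlkOrth2
open Cfsg.Agent.Lib.Helper3.BlkOrth4
open Cfsg.Agent.Lib.Helper3.BlkTilde Cfsg.Agent.Lib.Helper3.BlkTilde2
open scoped ComplexConjugate

universe u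

namespace Cfsg.Agent.Lib.Helper3.BlkTilde3

theorem ind_om {G : Type u} [Group G] [Fintype G] [Fintype (ConjClasses G)] (H : Subgroup G)
    [Fintype H] (f : G → ℂ) (hf : Cfsg.IsClassFunction G f) (ξ : H → ℂ) :
    (∑ h : H, f (h : G) * ξ h) / ξ 1 =
      ∑ C : ConjClasses G, f (Quotient.out C) *
        Cfsg.inducedCentralChar H ξ (Quotient.out C) := by
  classical
  have h1 : ∀ g : G, Cfsg.inducedCentralChar H ξ g =
      ∑ h : H, if IsConj g (h : G) then ξ h / ξ 1 else 0 := by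
    intro g
    unfold Cfsg.inducedCentralChar
    rw [finsum_mem_ite]
    rfl
  simp only [h1, Finset.mul_sum]
  rw [Finset.sum_comm, Finset.sum_div]
  refine Finset.sum_congr rfl (fun h _ => ?_)
  rw [Finset.sum_eq_single (ConjClasses.mk (h : G))]
  · have h2 : IsConj (Quotient.out (ConjClasses.mk (h : G))) (h : G) := by
      rw [← ConjClasses.mk_eq_mk_iff_isConj]
      exact Quotient.out_eq _
    rw [if_pos h2]
    obtain ⟨c, hc⟩ := isConj_iff.mp h2
    have h3 := hf (Quotient.out (ConjClasses.mk (h : G))) c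
    rw [hc] at h3
    rw [← h3]
    ring
  · intro C _ hC
    rw [if_neg, mul_zero]
    intro h4
    apply hC
    rw [← Quotient.out_eq C]
    exact ConjClasses.mk_eq_mk_iff_isConj.mpr h4
  · intro h5
    exact absurd (Finset.mem_univ _) h5

theorem ind_om_li {M : Ideal AlgInt} (hMp : M.IsPrime) {G : Type u} [Group G] [Fintype G]
    (H : Subgroup G) [Fintype H] (b : Set (Cfsg.IrrCharacter H)) (B : Set (Cfsg.IrrCharacter G))
    (hind : Cfsg.IsInducedBlock M H b B) (f : G → ℂ) (hf : Cfsg.IsClassFunction G f)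
    (hlr : ∀ g, MemLocalRing M (f g)) (ξ : Cfsg.IrrCharacter H) (hξ : ξ ∈ b)
    (χ : Cfsg.IrrCharacter G) (hχ : χ ∈ B) :
    MemLocalIdeal M ((∑ h : H, f (h : G) * (ξ : H → ℂ) h) / (ξ : H → ℂ) 1 -
      (∑ g : G, f g * (χ : G → ℂ) g) / (χ : G → ℂ) 1) := by
  classical
  have _k : Fintype (ConjClasses G) := Fintype.ofFinite _
  rw [ind_om H f hf, om_classes f hf (χ : G → ℂ) (char_classFun (isCharacter_of_irr χ.2)),
    ← Finset.sum_sub_distrib]
  apply li_sum hMp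
  intro C _
  rw [← mul_sub]
  exact li_mul_left hMp (hlr _) (hind.2.2 ξ hξ χ hχ _)

theorem lr_rat_dvd {p : ℕ} {M : Ideal AlgInt} (hM : IsPModular p M) (n : ℤ) (d : ℕ)
    (hd : d ≠ 0) (h : MemLocalRing M ((n : ℂ) / (d : ℂ))) :
    ((p ^ d.factorization p : ℕ) : ℤ) ∣ n := by
  have hMp := hM.2.1.isPrime
  have h1 : MemLocalIdeal M ((((p : ℤ) * n : ℤ) : ℂ) / (d : ℂ)) := by
    have h2 := li_mul_right hMp ((li_nat_iff hM p).mpr dvd_rfl) h
    have h3 : ((p : ℕ) : ℂ) * ((n : ℂ) / (d : ℂ)) = (((p : ℤ) * n : ℤ) : ℂ) / (d : ℂ) := by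
      push_cast
      ring
    rwa [h3] at h2
  obtain ⟨k, hk⟩ := (li_rat_iff hM _ d hd).mp h1
  refine ⟨k, ?_⟩
  have hp0 : (p : ℤ) ≠ 0 := by exact_mod_cast hM.1.ne_zero
  apply mul_left_cancel₀ hp0
  rw [hk]
  push_cast
  ring

theorem conjf_classFun {G : Type u} [Group G] [Finite G] (p : ℕ) (χ : Cfsg.IrrCharacter G) :
    Cfsg.IsClassFunction G (fun x : G => if p ∣ orderOf x then (0 : ℂ) else
      conj ((χ : G → ℂ) x)) := by
  have h1 := tilde_classFun p 1 (χ := fun x => conj ((χ : G → ℂ) x)) (by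
    intro g k
    show conj ((χ : G → ℂ) (k * g * k⁻¹)) = conj ((χ : G → ℂ) g)
    rw [char_classFun (isCharacter_of_irr χ.2) g k])
  intro g k
  have h2 := h1 g k
  simp only [one_mul] at h2
  exact h2

theorem conjf_integral {G : Type u} [Group G] [Finite G] (p : ℕ) (χ : Cfsg.IrrCharacter G)
    (g : G) : IsIntegral ℤ (if p ∣ orderOf g then (0 : ℂ) else conj ((χ : G → ℂ) g)) := by
  split_ifs
  · exact isIntegral_zero
  · have h1 := char_isIntegral (isCharacter_of_irr χ.2) g⁻¹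
    rw [char_inv (isCharacter_of_irr χ.2)] at h1
    exact h1

theorem conjf_om {p : ℕ} (hp : p.Prime) {G : Type u} [Group G] [Fintype G]
    (χ φ : Cfsg.IrrCharacter G) (k : ℤ)
    (hk : ((p ^ (Nat.card G).factorization p : ℕ) : ℂ) * ((Nat.card G : ℂ)⁻¹ *
        ∑ x : G, (if p ∣ orderOf x then 0 else (χ : G → ℂ) x * conj ((φ : G → ℂ) x))) =
          (k : ℂ)) :
    (∑ g : G, (if p ∣ orderOf g then (0 : ℂ) else conj ((χ : G → ℂ) g)) * (φ : G → ℂ) g) /
      (φ : G → ℂ) 1 =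
      ((Nat.card G / p ^ (Nat.card G).factorization p : ℕ) : ℂ) * ((k : ℂ) / (φ : G → ℂ) 1) := by
  have hG0 : Nat.card G ≠ 0 := Nat.card_pos.ne'
  have hGc : (Nat.card G : ℂ) ≠ 0 := by exact_mod_cast hG0
  have hm' := (Nat.ordProj_mul_ordCompl_eq_self (Nat.card G) p).symm
  have hm'c : (Nat.card G : ℂ) = ((p ^ (Nat.card G).factorization p : ℕ) : ℂ) *
      ((Nat.card G / p ^ (Nat.card G).factorization p : ℕ) : ℂ) := by
    exact_mod_cast congrArg (Nat.cast : ℕ → ℂ) hm'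
  have hpa : ((p ^ (Nat.card G).factorization p : ℕ) : ℂ) ≠ 0 := by
    exact_mod_cast (pow_pos hp.pos _).ne'
  have hm'0 : ((Nat.card G / p ^ (Nat.card G).factorization p : ℕ) : ℂ) ≠ 0 := by
    intro h0
    rw [h0, mul_zero] at hm'c
    exact hGc hm'c
  have h1 := tilde_conj p _ _ k hk
  have h2 : ∑ g : G, (if p ∣ orderOf g then (0 : ℂ) else conj ((χ : G → ℂ) g)) * (φ : G → ℂ) g =
      ∑ x : G, (if p ∣ orderOf x then 0 else (φ : G → ℂ) x * conj ((χ : G → ℂ) x)) := by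
    refine Finset.sum_congr rfl (fun x _ => ?_)
    split_ifs
    · rw [zero_mul]
    · rw [mul_comm]
  rw [h2, ← h1]
  generalize ((Nat.card G / p ^ (Nat.card G).factorization p : ℕ) : ℂ) = m at hm'c hm'0 ⊢
  rw [hm'c]
  field_simp

end Cfsg.Agent.Lib.Helper3.BlkTilde3
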