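import Mathlib
import Cfsg.Prelude.Def_Characters
import Cfsg.Agent.Lib.Helper3.Char
import Cfsg.Agent.Lib.Helper3.CharCore
import Cfsg.Agent.Lib.Helper3.CharInd
import Cfsg.Agent.Lib.Helper3.CharArith
import Cfsg.Agent.Lib.Helper3.CharBrauer4
import Cfsg.Agent.Lib.Helper3.CharBrauer5
import Cfsg.Agent.Lib.Helper3.CharTable
import Cfsg.Agent.Lib.Helper3.CharKer
import Cfsg.Agent.Lib.Helper3.CharMono
import Cfsg.Agent.Lib.Helper3.CharNormal
import Cfsg.Agent.Lib.Helper3.CharInt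

open Cfsg
open Cfsg.Agent.Lib.Helper3.Char Cfsg.Agent.Lib.Helper3.CharCore Cfsg.Agent.Lib.Helper3.CharInd
open Cfsg.Agent.Lib.Helper3.CharArith
open Cfsg.Agent.Lib.Helper3.CharBrauer4 Cfsg.Agent.Lib.Helper3.CharBrauer5
open Cfsg.Agent.Lib.Helper3.CharTable Cfsg.Agent.Lib.Helper3.CharKer Cfsg.Agent.Lib.Helper3.CharMono
open Cfsg.Agent.Lib.Helper3.CharNormal Cfsg.Agent.Lib.Helper3.CharInt
open scoped ComplexConjugate

universe u

namespace Cfsg.Agent.Lib.Helper3.BrSuz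

theorem pow_hom {E : Type*} [Group E] [Finite E] {q : ℕ} (hq : q.Prime)
    (hel : Cfsg.IsElementary q E) (n b m : ℕ) (hcop : n.Coprime b)
    (hcard : Nat.card E ∣ n * b) (hm1 : m ≡ 1 [MOD n]) (hmb : b ∣ m) (e₁ e₂ : E) :
    (e₁ * e₂) ^ m = e₁ ^ m * e₂ ^ m := by
  have key : ∀ p : ℕ, p.Prime → ¬ p ∣ orderOf ((e₁ * e₂) ^ m * (e₁ ^ m * e₂ ^ m)⁻¹) := by
    intro p hp
    obtain ⟨K, hKn, hKc, j, hj⟩ := elem_pcomp hp hq hel
    rw [← preg_iff hp K hKc hj]
    have hQ : ∀ u v : E ⧸ K, (u * v) ^ m = u ^ m * v ^ m := by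
      have hcQ : Nat.card (E ⧸ K) = p ^ j := by
        rw [← Subgroup.index_eq_card]
        exact hj
      have hdQ : p ^ j ∣ n * b := by
        rw [← hj]
        exact (Subgroup.index_dvd_card K).trans hcard
      by_cases hpn : p ∣ n
      · have h1 : (p ^ j).Coprime b := by
          apply Nat.Coprime.pow_left
          exact Nat.Coprime.coprime_dvd_left hpn hcop
        have h2 : p ^ j ∣ n := h1.dvd_of_dvd_mul_right hdQ
        have h3 : ∀ u : E ⧸ K, u ^ m = u := by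
          intro u
          have h4 : orderOf u ∣ n := by
            have h5 : orderOf u ∣ Nat.card (E ⧸ K) := orderOf_dvd_natCard u
            rw [hcQ] at h5
            exact h5.trans h2
          have h6 : m ≡ 1 [MOD orderOf u] := hm1.of_dvd h4
          have h7 := pow_eq_pow_iff_modEq.mpr h6
          rw [pow_one] at h7
          exact h7
        intro u v
        rw [h3, h3, h3]
      · have h1 : (p ^ j).Coprime n := by
          apply Nat.Coprime.pow_left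
          exact (Nat.Prime.coprime_iff_not_dvd hp).mpr hpn
        have h2 : p ^ j ∣ b := h1.dvd_of_dvd_mul_left hdQ
        have h3 : ∀ u : E ⧸ K, u ^ m = 1 := by
          intro u
          have h5 : orderOf u ∣ Nat.card (E ⧸ K) := orderOf_dvd_natCard u
          rw [hcQ] at h5
          exact orderOf_dvd_iff_pow_eq_one.mp ((h5.trans h2).trans hmb)
        intro u v
        rw [h3, h3, h3, one_mul]
    rw [← QuotientGroup.eq_one_iff]
    have h8 := hQ (e₁ : E ⧸ K) (e₂ : E ⧸ K)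
    rw [QuotientGroup.mk_mul, QuotientGroup.mk_inv, QuotientGroup.mk_pow, QuotientGroup.mk_mul,
      QuotientGroup.mk_mul, QuotientGroup.mk_pow, QuotientGroup.mk_pow, h8, mul_inv_cancel]
  have h9 : orderOf ((e₁ * e₂) ^ m * (e₁ ^ m * e₂ ^ m)⁻¹) = 1 :=
    Nat.eq_one_iff_not_exists_prime_dvd.mpr key
  rw [orderOf_eq_one_iff] at h9
  exact mul_inv_eq_one.mp h9

theorem elem_conj {G : Type u} [Group G] [Finite G] (H : Subgroup G)
    (hHall : Nat.Coprime (Nat.card H) H.index)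
    (helem : ∀ (E : Subgroup G) (p : ℕ), p.Prime → Cfsg.IsElementary p E →
      Nat.card E ∣ Nat.card H → ∃ g : G, E.map (MulAut.conj g).toMonoidHom ≤ H)
    (m : ℕ) (hm1 : m ≡ 1 [MOD Nat.card H]) (hmb : H.index ∣ m)
    (E : Subgroup G) (q : ℕ) (hq : q.Prime) (hel : Cfsg.IsElementary q E) :
    ∃ t : G, ∀ e ∈ E, t * e ^ m * t⁻¹ ∈ H := by
  have hcardG : Nat.card G = Nat.card H * H.index := (Subgroup.card_mul_index H).symm
  have hcardE : Nat.card E ∣ Nat.card H * H.index := by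
    rw [← hcardG]
    exact Subgroup.card_subgroup_dvd_card E
  let pm : ↥E →* ↥E := MonoidHom.mk' (fun e => e ^ m)
    (fun e₁ e₂ => pow_hom hq hel _ _ m hHall hcardE hm1 hmb e₁ e₂)
  let f : ↥E →* G := E.subtype.comp pm
  have hf : ∀ e : ↥E, f e = (e : G) ^ m := fun e => rfl
  have hRn : ∀ r ∈ f.range, r ^ (Nat.card H) = 1 := by
    rintro r ⟨e, rfl⟩
    rw [hf, ← pow_mul]
    have h1 : Nat.card G ∣ m * Nat.card H := by
      rw [hcardG, mul_comm]
      exact Nat.mul_dvd_mul_right hmb _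
    exact orderOf_dvd_iff_pow_eq_one.mp ((orderOf_dvd_natCard _).trans h1)
  have hRcard : Nat.card f.range ∣ Nat.card H := by
    have h1 : (Nat.card f.range).Coprime H.index := by
      apply Nat.coprime_of_dvd
      intro p hp hpR hpb
      have _fp : Fact p.Prime := ⟨hp⟩
      obtain ⟨r, hr⟩ := exists_prime_orderOf_dvd_card' (G := ↥f.range) p hpR
      have h2 : (r : G) ^ Nat.card H = 1 := hRn r r.2
      have h3 : p ∣ Nat.card H := by
        rw [← hr, ← Subgroup.orderOf_coe]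
        exact orderOf_dvd_of_pow_eq_one h2
      have h4 : p ∣ 1 := by
        have h5 := Nat.dvd_gcd h3 hpb
        rwa [Nat.Coprime.gcd_eq_one hHall] at h5
      exact hp.one_lt.ne' (Nat.dvd_one.mp h4)
    have h2 : Nat.card f.range ∣ Nat.card H * H.index := by
      rw [← hcardG]
      exact Subgroup.card_subgroup_dvd_card _
    exact h1.dvd_of_dvd_mul_right h2
  have hRel : Cfsg.IsElementary q ↥f.range := by
    obtain ⟨x, hx, hxc, k, hk⟩ := hel
    refine ⟨f.rangeRestrict x, ?_, ?_, ?_⟩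
    · rw [Subgroup.mem_center_iff]
      rintro ⟨r, e, rfl⟩
      apply Subtype.ext
      show f e * f x = f x * f e
      rw [← map_mul, ← map_mul, Subgroup.mem_center_iff.mp hx e]
    · have h1 : orderOf (f.rangeRestrict x) ∣ orderOf x := orderOf_map_dvd _ x
      exact Nat.Coprime.coprime_dvd_left h1 hxc
    · have h1 : Subgroup.zpowers (f.rangeRestrict x) =
          (Subgroup.zpowers x).map f.rangeRestrict := (MonoidHom.map_zpowers _ x).symm
      have h2 : ((Subgroup.zpowers x).map f.rangeRestrict).index ∣ (Subgroup.zpowers x).index :=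
        Subgroup.index_map_dvd _ f.rangeRestrict_surjective
      rw [hk] at h2
      obtain ⟨i, _, hi⟩ := (Nat.dvd_prime_pow hq).mp h2
      exact ⟨i, by rw [h1, hi]⟩
  obtain ⟨t, ht⟩ := helem f.range q hq hRel hRcard
  refine ⟨t, fun e he => ?_⟩
  have h1 : (MulAut.conj t).toMonoidHom (f ⟨e, he⟩) ∈ f.range.map (MulAut.conj t).toMonoidHom :=
    Subgroup.mem_map_of_mem _ ⟨⟨e, he⟩, rfl⟩
  have h2 := ht h1
  rw [hf] at h2
  exact h2

theorem cyc_elem {G : Type u} [Group G] [Finite G] (g : G) :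
    ∃ q : ℕ, q.Prime ∧ Cfsg.IsElementary q ↥(Subgroup.zpowers g) := by
  obtain ⟨q, hq1, hq⟩ := Nat.exists_infinite_primes (Nat.card G + 1)
  refine ⟨q, hq, ⟨g, Subgroup.mem_zpowers g⟩, ?_, ?_, 0, ?_⟩
  · rw [Subgroup.mem_center_iff]
    rintro ⟨z, hz⟩
    obtain ⟨k, rfl⟩ := Subgroup.mem_zpowers_iff.mp hz
    apply Subtype.ext
    show g ^ k * g = g * g ^ k
    exact (Commute.self_zpow g k).symm.eq
  · rw [Subgroup.orderOf_mk]
    apply Nat.Coprime.symm
    rw [Nat.Prime.coprime_iff_not_dvd hq]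
    intro hdvd
    have h1 : q ≤ orderOf g := Nat.le_of_dvd (orderOf_pos g) hdvd
    have h2 : orderOf g ≤ Nat.card G := orderOf_le_card
    omega
  · rw [pow_zero, Subgroup.index_eq_one, eq_top_iff]
    rintro ⟨z, hz⟩ _
    obtain ⟨k, rfl⟩ := Subgroup.mem_zpowers_iff.mp hz
    rw [Subgroup.mem_zpowers_iff]
    exact ⟨k, Subtype.ext (by simp)⟩

theorem conj_into {G : Type u} [Group G] [Finite G] (H : Subgroup G)
    (hHall : Nat.Coprime (Nat.card H) H.index)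
    (helem : ∀ (E : Subgroup G) (p : ℕ), p.Prime → Cfsg.IsElementary p E →
      Nat.card E ∣ Nat.card H → ∃ g : G, E.map (MulAut.conj g).toMonoidHom ≤ H)
    (m : ℕ) (hm1 : m ≡ 1 [MOD Nat.card H]) (hmb : H.index ∣ m) (g : G) :
    ∃ x : ↥H, IsConj (g ^ m) (x : G) := by
  obtain ⟨q, hq, hel⟩ := cyc_elem g
  obtain ⟨t, ht⟩ := elem_conj H hHall helem m hm1 hmb (Subgroup.zpowers g) q hq hel
  refine ⟨⟨t * g ^ m * t⁻¹, ht g (Subgroup.mem_zpowers g)⟩, ?_⟩
  exact isConj_iff.mpr ⟨t, rfl⟩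

theorem eval_eq {G : Type u} [Group G] (H : Subgroup G)
    (hfus : ∀ x ∈ H, ∀ y ∈ H, IsConj x y → ∃ h ∈ H, h * x * h⁻¹ = y)
    {θ : ↥H → ℂ} (hθ : Cfsg.IsClassFunction ↥H θ) (x y : ↥H) (hxy : IsConj (x : G) (y : G)) :
    θ x = θ y := by
  obtain ⟨h, hh, e⟩ := hfus x x.2 y y.2 hxy
  have h1 : y = ⟨h, hh⟩ * x * ⟨h, hh⟩⁻¹ := Subtype.ext e.symm
  rw [h1]
  exact (hθ x ⟨h, hh⟩).symm

theorem tilde_elem {G : Type u} [Group G] [Finite G] (H : Subgroup G)
    (hHall : Nat.Coprime (Nat.card H) H.index)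
    (hfus : ∀ x ∈ H, ∀ y ∈ H, IsConj x y → ∃ h ∈ H, h * x * h⁻¹ = y)
    (helem : ∀ (E : Subgroup G) (p : ℕ), p.Prime → Cfsg.IsElementary p E →
      Nat.card E ∣ Nat.card H → ∃ g : G, E.map (MulAut.conj g).toMonoidHom ≤ H)
    (m : ℕ) (hm1 : m ≡ 1 [MOD Nat.card H]) (hmb : H.index ∣ m)
    (xg : G → ↥H) (hxg : ∀ g, IsConj (g ^ m) (xg g : G))
    {θ : ↥H → ℂ} (hθ : Cfsg.IsCharacter ↥H θ) (E : Subgroup G) (q : ℕ) (hq : q.Prime)
    (hel : Cfsg.IsElementary q E) :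
    Cfsg.IsCharacter ↥E (fun e : ↥E => θ (xg (e : G))) := by
  obtain ⟨t, ht⟩ := elem_conj H hHall helem m hm1 hmb E q hq hel
  have hcardG : Nat.card G = Nat.card H * H.index := (Subgroup.card_mul_index H).symm
  have hcardE : Nat.card E ∣ Nat.card H * H.index := by
    rw [← hcardG]
    exact Subgroup.card_subgroup_dvd_card E
  let F : ↥E →* ↥H := MonoidHom.mk' (fun e => ⟨t * (e : G) ^ m * t⁻¹, ht e e.2⟩) (by
    intro e₁ e₂
    apply Subtype.ext
    have h1 := pow_hom hq hel _ _ m hHall hcardE hm1 hmb e₁ e₂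
    have h2 : ((e₁ * e₂ : ↥E) : G) ^ m = (e₁ : G) ^ m * (e₂ : G) ^ m := by
      have h3 := congrArg (Subtype.val) h1
      exact h3
    show t * ((e₁ * e₂ : ↥E) : G) ^ m * t⁻¹ = (t * (e₁ : G) ^ m * t⁻¹) * (t * (e₂ : G) ^ m * t⁻¹)
    rw [h2]
    group)
  have h1 : (fun e : ↥E => θ (xg (e : G))) = θ ∘ F := by
    funext e
    exact eval_eq H hfus (char_classFun hθ) _ _
      ((hxg e).symm.trans (isConj_iff.mpr ⟨t, rfl⟩))
  rw [h1]
  exact comp_isCharacter F hθ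

theorem tilde_cf {G : Type u} [Group G] (H : Subgroup G)
    (hfus : ∀ x ∈ H, ∀ y ∈ H, IsConj x y → ∃ h ∈ H, h * x * h⁻¹ = y)
    (m : ℕ) (xg : G → ↥H) (hxg : ∀ g, IsConj (g ^ m) (xg g : G))
    {θ : ↥H → ℂ} (hθ : Cfsg.IsClassFunction ↥H θ) :
    Cfsg.IsClassFunction G (fun g : G => θ (xg g)) := by
  intro g k
  apply eval_eq H hfus hθ
  have h1 := hxg (k * g * k⁻¹)
  have h2 := hxg g
  have h3 : (k * g * k⁻¹) ^ m = k * g ^ m * k⁻¹ := conj_pow
  have h4 : IsConj (g ^ m) ((k * g * k⁻¹) ^ m) := by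
    rw [h3]
    exact isConj_iff.mpr ⟨k, rfl⟩
  exact h1.symm.trans (h4.symm.trans h2)

theorem tilde_gen {G : Type u} [Group G] [Finite G] (H : Subgroup G)
    (hHall : Nat.Coprime (Nat.card H) H.index)
    (hfus : ∀ x ∈ H, ∀ y ∈ H, IsConj x y → ∃ h ∈ H, h * x * h⁻¹ = y)
    (helem : ∀ (E : Subgroup G) (p : ℕ), p.Prime → Cfsg.IsElementary p E →
      Nat.card E ∣ Nat.card H → ∃ g : G, E.map (MulAut.conj g).toMonoidHom ≤ H)
    (m : ℕ) (hm1 : m ≡ 1 [MOD Nat.card H]) (hmb : H.index ∣ m)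
    (xg : G → ↥H) (hxg : ∀ g, IsConj (g ^ m) (xg g : G))
    {θ : ↥H → ℂ} (hθ : Cfsg.IsCharacter ↥H θ) :
    Cfsg.IsGeneralizedCharacter G (fun g : G => θ (xg g)) := by
  have _fg : Fintype G := Fintype.ofFinite G
  apply brauer_gen _ (tilde_cf H hfus m xg hxg (char_classFun hθ))
  intro E p hp hel
  exact gen_of_char (tilde_elem H hHall hfus helem m hm1 hmb xg hxg hθ E p hp hel)

theorem tilde_on {G : Type u} [Group G] [Finite G] (H : Subgroup G)
    (hfus : ∀ x ∈ H, ∀ y ∈ H, IsConj x y → ∃ h ∈ H, h * x * h⁻¹ = y)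
    (m : ℕ) (hm1 : m ≡ 1 [MOD Nat.card H])
    (xg : G → ↥H) (hxg : ∀ g, IsConj (g ^ m) (xg g : G))
    {θ : ↥H → ℂ} (hθ : Cfsg.IsClassFunction ↥H θ) (h : ↥H) : θ (xg (h : G)) = θ h := by
  apply eval_eq H hfus hθ
  have h1 := hxg (h : G)
  have h2 : (h : G) ^ m = (h : G) := by
    have h3 : orderOf (h : G) ∣ Nat.card H := Subgroup.orderOf_dvd_natCard H h.2
    have h4 : m ≡ 1 [MOD orderOf (h : G)] := hm1.of_dvd h3
    have h5 := pow_eq_pow_iff_modEq.mpr h4
    rw [pow_one] at h5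
    exact h5
  rw [h2] at h1
  exact h1.symm

theorem gen_inner_int {G : Type u} [Group G] [Fintype G] {f ψ : G → ℂ}
    (hf : Cfsg.IsGeneralizedCharacter G f) (hψ : Cfsg.IsIrrCharacter G ψ) :
    ∃ n : ℤ, Cfsg.classInner f ψ = (n : ℂ) := by
  obtain ⟨a, b, ha, hb, rfl⟩ := hf
  obtain ⟨n1, h1⟩ := inner_char_nat ha (isCharacter_of_irr hψ)
  obtain ⟨n2, h2⟩ := inner_char_nat hb (isCharacter_of_irr hψ)
  refine ⟨(n1 : ℤ) - (n2 : ℤ), ?_⟩
  have h3 : a - b = a + (-1 : ℂ) • b := by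
    rw [neg_one_smul, sub_eq_add_neg]
  rw [h3, classInner_add_left, classInner_smul_left, h1, h2]
  push_cast
  ring

theorem irr_of_gen_norm_one {G : Type u} [Group G] [Fintype G] {ψ : G → ℂ}
    (hψ : Cfsg.IsGeneralizedCharacter G ψ) (hn : Cfsg.classInner ψ ψ = 1)
    (d : ℕ) (hd : 0 < d) (h1 : ψ 1 = (d : ℂ)) : Cfsg.IsIrrCharacter G ψ := by
  classical
  have _fi : Fintype (Cfsg.IrrCharacter G) := Fintype.ofFinite _
  have hcf := gen_classFun hψ
  choose c hc using fun χ : Cfsg.IrrCharacter G => gen_inner_int hψ χ.2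
  have hp := parseval ψ ψ hcf
  have hc' : ∀ χ : Cfsg.IrrCharacter G, Cfsg.classInner (χ : G → ℂ) ψ = (c χ : ℂ) := by
    intro χ
    rw [classInner_conj_symm, hc χ, map_intCast]
  have hsum : ∑ χ : Cfsg.IrrCharacter G, (c χ) ^ 2 = 1 := by
    have h2 : ((∑ χ : Cfsg.IrrCharacter G, (c χ) ^ 2 : ℤ) : ℂ) = 1 := by
      rw [← hn, hp, Int.cast_sum]
      refine Finset.sum_congr rfl (fun χ _ => ?_)
      rw [hc χ, hc' χ, Int.cast_pow, pow_two]
    exact_mod_cast h2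
  have hex : ∃ χ0 : Cfsg.IrrCharacter G, c χ0 ≠ 0 := by
    by_contra hcon
    simp only [not_exists, not_not] at hcon
    have h2 : ∑ χ : Cfsg.IrrCharacter G, (c χ) ^ 2 = 0 :=
      Finset.sum_eq_zero (fun χ _ => by rw [hcon χ]; ring)
    rw [hsum] at h2
    exact one_ne_zero h2
  obtain ⟨χ0, hχ0⟩ := hex
  have h7 : 1 ≤ (c χ0) ^ 2 := by
    have h8 : 0 < (c χ0) ^ 2 := by positivity
    linarith
  have hothers : ∀ χ : Cfsg.IrrCharacter G, χ ≠ χ0 → c χ = 0 := by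
    intro χ hne
    have h5 : (c χ0) ^ 2 + (c χ) ^ 2 ≤ ∑ χ : Cfsg.IrrCharacter G, (c χ) ^ 2 := by
      have h6 := Finset.sum_le_sum_of_subset_of_nonneg (Finset.subset_univ {χ0, χ})
        (f := fun i : Cfsg.IrrCharacter G => (c i) ^ 2) (fun i _ _ => sq_nonneg (c i))
      rwa [Finset.sum_pair hne.symm] at h6
    rw [hsum] at h5
    have h8 : (c χ) ^ 2 ≤ 0 := by linarith
    exact pow_eq_zero_iff (two_ne_zero) |>.mp (le_antisymm h8 (sq_nonneg _))
  have hc0sq : (c χ0) ^ 2 = 1 := by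
    rw [← hsum, Finset.sum_eq_single χ0 (fun χ _ hne => by rw [hothers χ hne]; ring)
      (fun h => absurd (Finset.mem_univ _) h)]
  have hexp : ψ = (c χ0 : ℂ) • (χ0 : G → ℂ) := by
    have e := class_fun_expand ψ hcf
    rw [Finset.sum_eq_single χ0 (fun χ _ hne => by rw [hc χ, hothers χ hne]; simp)
      (fun h => absurd (Finset.mem_univ _) h), hc χ0] at e
    exact e
  obtain ⟨n0, hn0, hn0'⟩ := irr_one_pos χ0.2
  have hval : (d : ℂ) = (c χ0 : ℂ) * (n0 : ℂ) := by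
    rw [← h1, hexp, Pi.smul_apply, smul_eq_mul, hn0']
  have hval' : (d : ℤ) = c χ0 * (n0 : ℤ) := by exact_mod_cast hval
  have hcpos : c χ0 = 1 := by
    have h9 : (c χ0 - 1) * (c χ0 + 1) = 0 := by
      have h10 : (c χ0 - 1) * (c χ0 + 1) = (c χ0) ^ 2 - 1 := by ring
      rw [h10, hc0sq]
      ring
    rcases mul_eq_zero.mp h9 with h10 | h10
    · linarith
    · exfalso
      have h11 : c χ0 = -1 := by linarith
      rw [h11] at hval'
      have h12 : (0 : ℤ) < (d : ℤ) := by exact_mod_cast hd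
      have h13 : (0 : ℤ) < (n0 : ℤ) := by exact_mod_cast hn0
      linarith
  rw [hexp, hcpos]
  have h14 : (((1 : ℤ) : ℂ)) • (χ0 : G → ℂ) = (χ0 : G → ℂ) := by
    rw [Int.cast_one, one_smul]
  rw [h14]
  exact χ0.2

theorem tilde_inner_one {G : Type u} [Group G] [Fintype G] (H : Subgroup G) [Fintype ↥H]
    (hHall : Nat.Coprime (Nat.card H) H.index)
    (hfus : ∀ x ∈ H, ∀ y ∈ H, IsConj x y → ∃ h ∈ H, h * x * h⁻¹ = y)
    (helem : ∀ (E : Subgroup G) (p : ℕ), p.Prime → Cfsg.IsElementary p E →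
      Nat.card E ∣ Nat.card H → ∃ g : G, E.map (MulAut.conj g).toMonoidHom ≤ H)
    (m : ℕ) (hm1 : m ≡ 1 [MOD Nat.card H]) (hmb : H.index ∣ m)
    (xg : G → ↥H) (hxg : ∀ g, IsConj (g ^ m) (xg g : G))
    (θ : Cfsg.IrrCharacter ↥H) :
    Cfsg.classInner (fun g : G => (θ : ↥H → ℂ) (xg g)) (fun _ => (1 : ℂ)) =
      Cfsg.classInner (θ : ↥H → ℂ) (fun _ => (1 : ℂ)) := by
  classical
  have _fi : Fintype (Cfsg.IrrCharacter ↥H) := Fintype.ofFinite _
  have hG0 : (Nat.card G : ℂ) ≠ 0 := by exact_mod_cast Nat.card_pos.ne'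
  have hH0 : (Nat.card H : ℂ) ≠ 0 := by exact_mod_cast Nat.card_pos.ne'
  have hz : ∀ φ : Cfsg.IrrCharacter ↥H, ∃ z : ℤ,
      Cfsg.classInner (fun g : G => (φ : ↥H → ℂ) (xg g)) (fun _ => (1 : ℂ)) = (z : ℂ) :=
    fun φ => gen_inner_int (tilde_gen H hHall hfus helem m hm1 hmb xg hxg
      (isCharacter_of_irr φ.2)) (isIrr_one G)
  choose z hz using hz
  have hμ : ∀ x : ↥H, ∑ φ : Cfsg.IrrCharacter ↥H, (z φ : ℂ) * conj ((φ : ↥H → ℂ) x) =
      (Nat.card G : ℂ)⁻¹ * ∑ g : G, (Nat.card {y : ↥H // y * xg g * y⁻¹ = x} : ℂ) := by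
    intro x
    have h1 : ∀ φ : Cfsg.IrrCharacter ↥H, (z φ : ℂ) * conj ((φ : ↥H → ℂ) x) =
        (Nat.card G : ℂ)⁻¹ * ∑ g : G, (φ : ↥H → ℂ) (xg g) * conj ((φ : ↥H → ℂ) x) := by
      intro φ
      rw [← hz φ]
      unfold Cfsg.classInner
      rw [mul_assoc, Finset.sum_mul]
      congr 1
      refine Finset.sum_congr rfl (fun g _ => ?_)
      rw [map_one, mul_one]
    rw [Finset.sum_congr rfl (fun φ _ => h1 φ), ← Finset.mul_sum, Finset.sum_comm]
    congr 1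
    refine Finset.sum_congr rfl (fun g _ => ?_)
    exact column_orth (xg g) x
  have hμint : ∀ x : ↥H, IsIntegral ℤ
      (∑ φ : Cfsg.IrrCharacter ↥H, (z φ : ℂ) * conj ((φ : ↥H → ℂ) x)) := by
    intro x
    refine IsIntegral.sum _ (fun φ _ => ?_)
    exact IsIntegral.mul (isIntegral_intCast (z φ))
      (map_isIntegral_int (starRingEnd ℂ) (char_isIntegral (isCharacter_of_irr φ.2) x))
  have hk : ∀ x : ↥H, ∃ k : ℕ, 1 ≤ k ∧
      ∑ φ : Cfsg.IrrCharacter ↥H, (z φ : ℂ) * conj ((φ : ↥H → ℂ) x) = (k : ℂ) := by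
    intro x
    have h1 := hμint x
    rw [hμ x, ← Nat.cast_sum] at h1
    have h2 : (Nat.card G : ℂ)⁻¹ * ((∑ g : G, Nat.card {y : ↥H // y * xg g * y⁻¹ = x} : ℕ) : ℂ) =
        ((∑ g : G, Nat.card {y : ↥H // y * xg g * y⁻¹ = x} : ℕ) : ℂ) / (Nat.card G : ℂ) := by
      rw [div_eq_mul_inv, mul_comm]
    rw [h2] at h1
    obtain ⟨k, hk⟩ := nat_dvd_of_isIntegral_div _ _ Nat.card_pos.ne' h1
    refine ⟨k, ?_, ?_⟩
    · have h3 : 1 ≤ ∑ g : G, Nat.card {y : ↥H // y * xg g * y⁻¹ = x} := by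
        have h4 : 1 ≤ Nat.card {y : ↥H // y * xg (x : G) * y⁻¹ = x} := by
          have h5 : IsConj ((xg (x : G) : ↥H) : G) (x : G) := by
            have h6 := hxg (x : G)
            have h7 : (x : G) ^ m = (x : G) := by
              have h8 : orderOf (x : G) ∣ Nat.card H := Subgroup.orderOf_dvd_natCard H x.2
              have h9 : m ≡ 1 [MOD orderOf (x : G)] := hm1.of_dvd h8
              have h10 := pow_eq_pow_iff_modEq.mpr h9
              rw [pow_one] at h10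
              exact h10
            rw [h7] at h6
            exact h6.symm
          obtain ⟨h, hh, e⟩ := hfus _ (xg (x : G)).2 _ x.2 h5
          have h11 : Nonempty {y : ↥H // y * xg (x : G) * y⁻¹ = x} :=
            ⟨⟨⟨h, hh⟩, Subtype.ext e⟩⟩
          exact Nat.card_pos
        exact h4.trans (Finset.single_le_sum (f := fun g : G =>
          Nat.card {y : ↥H // y * xg g * y⁻¹ = x}) (fun g _ => Nat.zero_le _)
          (Finset.mem_univ (x : G)))
      rw [hk] at h3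
      rcases Nat.eq_zero_or_pos k with h12 | h12
      · rw [h12, mul_zero] at h3
        exact absurd h3 (by norm_num)
      · exact h12
    · rw [hμ x, ← Nat.cast_sum, hk]
      push_cast
      field_simp
  choose k hk1 hk using hk
  have hsumk : ∑ x : ↥H, k x = Nat.card H := by
    have h1 : ((∑ x : ↥H, k x : ℕ) : ℂ) = (Nat.card H : ℂ) := by
      rw [Nat.cast_sum, Finset.sum_congr rfl (fun x _ => (hk x).symm),
        Finset.sum_congr rfl (fun x _ => hμ x), ← Finset.mul_sum, Finset.sum_comm]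
      have h2 : ∀ g : G, ∑ x : ↥H, (Nat.card {y : ↥H // y * xg g * y⁻¹ = x} : ℂ) =
          (Nat.card H : ℂ) := by
        intro g
        rw [← Nat.cast_sum]
        congr 1
        have h3 : ∀ x : ↥H, Nat.card {y : ↥H // y * xg g * y⁻¹ = x} =
            (Finset.univ.filter (fun y : ↥H => y * xg g * y⁻¹ = x)).card := by
          intro x
          rw [Nat.card_eq_fintype_card, Fintype.card_subtype]
        rw [Finset.sum_congr rfl (fun x _ => h3 x),
          ← Finset.card_eq_sum_card_fiberwise (f := fun y : ↥H => y * xg g * y⁻¹)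
            (s := Finset.univ) (t := Finset.univ) (fun y _ => Finset.mem_univ _),
          Finset.card_univ, Nat.card_eq_fintype_card]
      rw [Finset.sum_congr rfl (fun g _ => h2 g), Finset.sum_const, Finset.card_univ,
        ← Nat.card_eq_fintype_card, nsmul_eq_mul]
      field_simp
    exact_mod_cast h1
  have hkone : ∀ x : ↥H, k x = 1 := by
    have h1 : ∑ x : ↥H, (k x - 1) = 0 := by
      have h2 : ∑ x : ↥H, (k x - 1) + ∑ _x : ↥H, 1 = ∑ x : ↥H, k x := by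
        rw [← Finset.sum_add_distrib]
        refine Finset.sum_congr rfl (fun x _ => ?_)
        exact Nat.sub_add_cancel (hk1 x)
      rw [hsumk, Finset.sum_const, Finset.card_univ, ← Nat.card_eq_fintype_card, smul_eq_mul,
        mul_one] at h2
      omega
    intro x
    have h3 := (Finset.sum_eq_zero_iff.mp h1) x (Finset.mem_univ x)
    have h4 := hk1 x
    omega
  rw [hz θ]
  have h1 : ∑ x : ↥H, (∑ φ : Cfsg.IrrCharacter ↥H, (z φ : ℂ) * conj ((φ : ↥H → ℂ) x)) *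
      (θ : ↥H → ℂ) x = ∑ x : ↥H, (θ : ↥H → ℂ) x := by
    refine Finset.sum_congr rfl (fun x _ => ?_)
    rw [hk x, hkone x, Nat.cast_one, one_mul]
  have h2 : ∑ x : ↥H, (∑ φ : Cfsg.IrrCharacter ↥H, (z φ : ℂ) * conj ((φ : ↥H → ℂ) x)) *
      (θ : ↥H → ℂ) x = (Nat.card H : ℂ) * (z θ : ℂ) := by
    have h3 : ∀ x : ↥H, (∑ φ : Cfsg.IrrCharacter ↥H, (z φ : ℂ) * conj ((φ : ↥H → ℂ) x)) *
        (θ : ↥H → ℂ) x = ∑ φ : Cfsg.IrrCharacter ↥H, (z φ : ℂ) *
          ((θ : ↥H → ℂ) x * conj ((φ : ↥H → ℂ) x)) := by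
      intro x
      rw [Finset.sum_mul]
      refine Finset.sum_congr rfl (fun φ _ => ?_)
      ring
    rw [Finset.sum_congr rfl (fun x _ => h3 x), Finset.sum_comm]
    have h4 : ∀ φ : Cfsg.IrrCharacter ↥H, ∑ x : ↥H, (z φ : ℂ) *
        ((θ : ↥H → ℂ) x * conj ((φ : ↥H → ℂ) x)) =
        (Nat.card H : ℂ) * ((z φ : ℂ) * Cfsg.classInner (θ : ↥H → ℂ) (φ : ↥H → ℂ)) := by
      intro φ
      unfold Cfsg.classInner
      rw [← Finset.mul_sum]
      field_simp
    rw [Finset.sum_congr rfl (fun φ _ => h4 φ), ← Finset.mul_sum]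
    congr 1
    rw [Finset.sum_eq_single θ]
    · rw [irr_orthonormal θ.2 θ.2, if_pos rfl, mul_one]
    · intro φ _ hne
      have h5 : ¬ ((θ : ↥H → ℂ) = (φ : ↥H → ℂ)) := fun h => hne (Subtype.ext h).symm
      rw [irr_orthonormal θ.2 φ.2, if_neg h5, mul_zero]
    · intro h
      exact absurd (Finset.mem_univ _) h
  unfold Cfsg.classInner
  have h5 : ∑ x : ↥H, (θ : ↥H → ℂ) x * conj ((fun _ : ↥H => (1 : ℂ)) x) =
      ∑ x : ↥H, (θ : ↥H → ℂ) x := by
    refine Finset.sum_congr rfl (fun x _ => ?_)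
    rw [map_one, mul_one]
  rw [h5, ← h1, h2]
  field_simp

theorem tilde_inner_cf {G : Type u} [Group G] [Fintype G] (H : Subgroup G) [Fintype ↥H]
    (hHall : Nat.Coprime (Nat.card H) H.index)
    (hfus : ∀ x ∈ H, ∀ y ∈ H, IsConj x y → ∃ h ∈ H, h * x * h⁻¹ = y)
    (helem : ∀ (E : Subgroup G) (p : ℕ), p.Prime → Cfsg.IsElementary p E →
      Nat.card E ∣ Nat.card H → ∃ g : G, E.map (MulAut.conj g).toMonoidHom ≤ H)
    (m : ℕ) (hm1 : m ≡ 1 [MOD Nat.card H]) (hmb : H.index ∣ m)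
    (xg : G → ↥H) (hxg : ∀ g, IsConj (g ^ m) (xg g : G))
    (α : ↥H → ℂ) (hα : Cfsg.IsClassFunction ↥H α) :
    Cfsg.classInner (fun g : G => α (xg g)) (fun _ => (1 : ℂ)) =
      Cfsg.classInner α (fun _ => (1 : ℂ)) := by
  classical
  have _fi : Fintype (Cfsg.IrrCharacter ↥H) := Fintype.ofFinite _
  have e := class_fun_expand α hα
  have h1 : (fun g : G => α (xg g)) = ∑ φ : Cfsg.IrrCharacter ↥H,
      Cfsg.classInner α (φ : ↥H → ℂ) • (fun g : G => (φ : ↥H → ℂ) (xg g)) := by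
    funext g
    have h2 := congrFun e (xg g)
    rw [Finset.sum_apply] at h2
    rw [Finset.sum_apply]
    exact h2
  have h3 : Cfsg.classInner α (fun _ => (1 : ℂ)) = ∑ φ : Cfsg.IrrCharacter ↥H,
      Cfsg.classInner α (φ : ↥H → ℂ) * Cfsg.classInner (φ : ↥H → ℂ) (fun _ => (1 : ℂ)) :=
    parseval α _ hα
  rw [h1, classInner_sum_left, h3]
  refine Finset.sum_congr rfl (fun φ _ => ?_)
  rw [classInner_smul_left, tilde_inner_one H hHall hfus helem m hm1 hmb xg hxg φ]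

theorem tilde_norm {G : Type u} [Group G] [Fintype G] (H : Subgroup G) [Fintype ↥H]
    (hHall : Nat.Coprime (Nat.card H) H.index)
    (hfus : ∀ x ∈ H, ∀ y ∈ H, IsConj x y → ∃ h ∈ H, h * x * h⁻¹ = y)
    (helem : ∀ (E : Subgroup G) (p : ℕ), p.Prime → Cfsg.IsElementary p E →
      Nat.card E ∣ Nat.card H → ∃ g : G, E.map (MulAut.conj g).toMonoidHom ≤ H)
    (m : ℕ) (hm1 : m ≡ 1 [MOD Nat.card H]) (hmb : H.index ∣ m)
    (xg : G → ↥H) (hxg : ∀ g, IsConj (g ^ m) (xg g : G))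
    (θ : Cfsg.IrrCharacter ↥H) :
    Cfsg.classInner (fun g : G => (θ : ↥H → ℂ) (xg g)) (fun g : G => (θ : ↥H → ℂ) (xg g)) = 1 := by
  have hcf := char_classFun (isCharacter_of_irr θ.2)
  have hα : Cfsg.IsClassFunction ↥H (fun x : ↥H => (θ : ↥H → ℂ) x * conj ((θ : ↥H → ℂ) x)) := by
    intro x h
    show (θ : ↥H → ℂ) (h * x * h⁻¹) * conj ((θ : ↥H → ℂ) (h * x * h⁻¹)) =
      (θ : ↥H → ℂ) x * conj ((θ : ↥H → ℂ) x)
    rw [hcf x h]
  have h1 := tilde_inner_cf H hHall hfus helem m hm1 hmb xg hxg _ hα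
  have h2 : ∀ (K : Type u) [Group K] [Fintype K] (f : K → ℂ),
      Cfsg.classInner (fun x : K => f x * conj (f x)) (fun _ => (1 : ℂ)) = Cfsg.classInner f f := by
    intro K _ _ f
    unfold Cfsg.classInner
    congr 1
    refine Finset.sum_congr rfl (fun x _ => ?_)
    rw [map_one, mul_one]
  rw [h2 ↥H] at h1
  rw [← h2 G, h1, irr_orthonormal θ.2 θ.2, if_pos rfl]

theorem brauer_suzuki {G : Type u} [Group G] [Finite G] (H : Subgroup G)
    (hHall : Nat.Coprime (Nat.card H) H.index)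
    (hfus : ∀ x ∈ H, ∀ y ∈ H, IsConj x y → ∃ h ∈ H, h * x * h⁻¹ = y)
    (helem : ∀ (E : Subgroup G) (p : ℕ), p.Prime → Cfsg.IsElementary p E →
      Nat.card E ∣ Nat.card H → ∃ g : G, E.map (MulAut.conj g).toMonoidHom ≤ H) :
    ∃ K : Subgroup G, K.Normal ∧ K ⊔ H = ⊤ ∧ K ⊓ H = ⊥ := by
  classical
  have _fg : Fintype G := Fintype.ofFinite G
  have _fh : Fintype ↥H := Fintype.ofFinite _
  have _fi : Fintype (Cfsg.IrrCharacter ↥H) := Fintype.ofFinite _
  obtain ⟨m, hm1, hm0⟩ := Nat.chineseRemainder hHall 1 0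
  have hmb : H.index ∣ m := Nat.modEq_zero_iff_dvd.mp hm0
  choose xg hxg using conj_into H hHall helem m hm1 hmb
  have hcardG : Nat.card G = Nat.card H * H.index := (Subgroup.card_mul_index H).symm
  have hirr : ∀ θ : Cfsg.IrrCharacter ↥H,
      Cfsg.IsIrrCharacter G (fun g : G => (θ : ↥H → ℂ) (xg g)) := by
    intro θ
    obtain ⟨d, hd, hd1⟩ := irr_one_pos θ.2
    refine irr_of_gen_norm_one (tilde_gen H hHall hfus helem m hm1 hmb xg hxg
      (isCharacter_of_irr θ.2)) (tilde_norm H hHall hfus helem m hm1 hmb xg hxg θ) d hd ?_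
    have h1 := tilde_on H hfus m hm1 xg hxg (char_classFun (isCharacter_of_irr θ.2)) (1 : ↥H)
    rw [Subgroup.coe_one] at h1
    exact h1.trans hd1
  have hx1 : ∀ g : G, g ^ m = 1 → xg g = 1 := by
    intro g hg
    have h1 := hxg g
    rw [hg, isConj_one_right] at h1
    exact Subtype.ext h1
  choose Kθ hKn hKmem using fun θ : Cfsg.IrrCharacter ↥H =>
    exists_ker (isCharacter_of_irr (hirr θ))
  refine ⟨⨅ θ, Kθ θ, Subgroup.normal_iInf_normal hKn, ?_, ?_⟩
  · have hpow : ∀ g : G, g ^ Nat.card H ∈ ⨅ θ, Kθ θ := by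
      intro g
      rw [Subgroup.mem_iInf]
      intro θ
      rw [hKmem θ]
      have h1 : (g ^ Nat.card H) ^ m = 1 := by
        rw [← pow_mul]
        have h2 : Nat.card G ∣ Nat.card H * m := by
          rw [hcardG]
          exact Nat.mul_dvd_mul_left _ hmb
        exact orderOf_dvd_iff_pow_eq_one.mp ((orderOf_dvd_natCard _).trans h2)
      show (θ : ↥H → ℂ) (xg (g ^ Nat.card H)) = (θ : ↥H → ℂ) (xg 1)
      rw [hx1 _ h1, hx1 1 (one_pow m)]
    have hcop : ((⨅ θ, Kθ θ).index).Coprime H.index := by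
      apply Nat.coprime_of_dvd
      intro p hp hpN hpb
      have _fp : Fact p.Prime := ⟨hp⟩
      have _nn : (⨅ θ, Kθ θ).Normal := Subgroup.normal_iInf_normal hKn
      rw [Subgroup.index_eq_card] at hpN
      obtain ⟨u, hu⟩ := exists_prime_orderOf_dvd_card' (G := G ⧸ (⨅ θ, Kθ θ)) p hpN
      obtain ⟨g, rfl⟩ := QuotientGroup.mk_surjective u
      have h2 : ((g : G ⧸ (⨅ θ, Kθ θ))) ^ Nat.card H = 1 := by
        rw [← QuotientGroup.mk_pow, QuotientGroup.eq_one_iff]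
        exact hpow g
      have h3 : p ∣ Nat.card H := by
        rw [← hu]
        exact orderOf_dvd_of_pow_eq_one h2
      have h4 : p ∣ 1 := by
        have h5 := Nat.dvd_gcd h3 hpb
        rwa [Nat.Coprime.gcd_eq_one hHall] at h5
      exact hp.one_lt.ne' (Nat.dvd_one.mp h4)
    rw [← Subgroup.index_eq_one]
    have h6 : ((⨅ θ, Kθ θ) ⊔ H).index ∣ (⨅ θ, Kθ θ).index := Subgroup.index_dvd_of_le le_sup_left
    have h7 : ((⨅ θ, Kθ θ) ⊔ H).index ∣ H.index := Subgroup.index_dvd_of_le le_sup_right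
    have h8 := Nat.dvd_gcd h6 h7
    rw [Nat.Coprime.gcd_eq_one hcop] at h8
    exact Nat.dvd_one.mp h8
  · rw [eq_bot_iff]
    intro h hh
    obtain ⟨hhN, hhH⟩ := Subgroup.mem_inf.mp hh
    rw [Subgroup.mem_iInf] at hhN
    rw [Subgroup.mem_bot]
    by_contra hne
    have hval : ∀ θ : Cfsg.IrrCharacter ↥H, (θ : ↥H → ℂ) ⟨h, hhH⟩ = (θ : ↥H → ℂ) 1 := by
      intro θ
      have h1 := (hKmem θ h).mp (hhN θ)
      have h2 := tilde_on H hfus m hm1 xg hxg (char_classFun (isCharacter_of_irr θ.2)) ⟨h, hhH⟩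
      have h3 := tilde_on H hfus m hm1 xg hxg (char_classFun (isCharacter_of_irr θ.2)) (1 : ↥H)
      rw [Subgroup.coe_one] at h3
      have h4 : (θ : ↥H → ℂ) (xg h) = (θ : ↥H → ℂ) (xg 1) := h1
      rw [← h2, ← h3]
      exact h4
    have hne' : (⟨h, hhH⟩ : ↥H) ≠ 1 := fun h0 => hne (congrArg Subtype.val h0)
    have h5 := delta_one (G := ↥H) (⟨h, hhH⟩ : ↥H)
    rw [if_neg hne'] at h5
    have h6 := delta_one (G := ↥H) (1 : ↥H)
    rw [if_pos rfl] at h6
    rw [Finset.sum_congr rfl (fun θ _ => by rw [hval θ])] at h5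
    rw [h5] at h6
    have hH0 : (Nat.card H : ℂ) ≠ 0 := by exact_mod_cast Nat.card_pos.ne'
    exact hH0 h6.symm

end Cfsg.Agent.Lib.Helper3.BrSuz
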