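import Mathlib
import Cfsg.Prelude.Def_Characters
import Cfsg.Agent.Lib.Helper3.Char
import Cfsg.Agent.Lib.Helper3.CharCore
import Cfsg.Agent.Lib.Helper3.CharInd
import Cfsg.Agent.Lib.Helper3.CharArith
import Cfsg.Agent.Lib.Helper3.CharPermInd
import Cfsg.Agent.Lib.Helper3.CharBrauer3
import Cfsg.Agent.Lib.Helper3.CharBrauer4
import Cfsg.Agent.Lib.Helper3.CharBrauer5
import Cfsg.Agent.Lib.Helper3.BrSuz

open Cfsg
open Cfsg.Agent.Lib.Helper3.Char Cfsg.Agent.Lib.Helper3.CharCore Cfsg.Agent.Lib.Helper3.CharInd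
open Cfsg.Agent.Lib.Helper3.CharArith Cfsg.Agent.Lib.Helper3.CharPermInd
open Cfsg.Agent.Lib.Helper3.CharBrauer3
open Cfsg.Agent.Lib.Helper3.CharBrauer4 Cfsg.Agent.Lib.Helper3.CharBrauer5
open Cfsg.Agent.Lib.Helper3.BrSuz
open scoped ComplexConjugate

universe u

namespace Cfsg.Agent.Lib.Helper3.BrInt

theorem brauer_int {G : Type u} [Group G] [Fintype G] (ϑ : G → ℂ) (hϑ : Cfsg.IsClassFunction G ϑ)
    (hE : ∀ (E : Subgroup G) [Fintype ↥E] (p : ℕ), p.Prime → Cfsg.IsElementary p E →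
      ∀ ψ : ↥E → ℂ, Cfsg.IsCharacter ↥E ψ → ∀ χ : G → ℂ, Cfsg.IsCharacter G χ →
      IsIntegral ℤ (Cfsg.classInner (fun e : ↥E => ψ e * ϑ e) (fun e : ↥E => χ e)))
    (χ : G → ℂ) (hχ : Cfsg.IsCharacter G χ) : IsIntegral ℤ (Cfsg.classInner ϑ χ) := by
  classical
  obtain ⟨l, h1, h2⟩ := InG_one (G := G)
  have h3 : ϑ = (fun _ : G => (1 : ℂ)) * ϑ := by
    funext g
    simp
  have h4 : ∀ l' : List ((E : Subgroup G) × ((E → ℂ) × ℤ)),
      (∀ t ∈ l', (∃ p : ℕ, p.Prime ∧ Cfsg.IsElementary p t.1) ∧ Cfsg.IsCharacter t.1 t.2.1) →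
      IsIntegral ℤ (Cfsg.classInner
        ((l'.map fun t => (t.2.2 : ℂ) • Cfsg.indFun t.1 t.2.1).sum * ϑ) χ) := by
    intro l'
    induction l' with
    | nil =>
      intro _
      rw [List.map_nil, List.sum_nil, zero_mul, classInner_zero_left]
      exact isIntegral_zero
    | cons a t ih =>
      intro hl
      rw [List.map_cons, List.sum_cons, add_mul, classInner_add_left]
      refine IsIntegral.add ?_ (ih (fun s hs => hl s (List.mem_cons_of_mem _ hs)))
      obtain ⟨⟨p, hp, hel⟩, hc⟩ := hl a List.mem_cons_self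
      rw [smul_mul_assoc, classInner_smul_left, ind_mul a.1 a.2.1 ϑ hϑ]
      have _fE : Fintype ↥a.1 := Fintype.ofFinite _
      rw [frobenius a.1 _ χ (char_classFun hχ)]
      exact IsIntegral.mul (isIntegral_intCast _) (hE a.1 p hp hel a.2.1 hc χ hχ)
  rw [h3, h2]
  exact h4 l h1

theorem sec_elem {G : Type u} [Group G] [Fintype G] (m n : ℕ) (hmn : Nat.card G = m * n)
    (hcop : Nat.Coprime m n) (k : ℕ) (hk1 : k ≡ 1 [MOD n]) (hkm : m ∣ k) (g : G)
    (E : Subgroup G) [Fintype ↥E] (q : ℕ) (hq : q.Prime) (hel : Cfsg.IsElementary q E)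
    (ψ : ↥E → ℂ) (hψ : Cfsg.IsCharacter ↥E ψ) (χ : G → ℂ) (hχ : Cfsg.IsCharacter G χ)
    (ϑ : G → ℂ) (hϑ1 : ∀ x : G, IsConj (x ^ k) g → ϑ x = n)
    (hϑ0 : ∀ x : G, ¬ IsConj (x ^ k) g → ϑ x = 0) :
    IsIntegral ℤ (Cfsg.classInner (fun e : ↥E => ψ e * ϑ e) (fun e : ↥E => χ e)) := by
  classical
  have hϑ : ∀ x : G, ϑ x = if IsConj (x ^ k) g then (n : ℂ) else 0 := by
    intro x
    by_cases h : IsConj (x ^ k) g
    · rw [if_pos h]
      exact hϑ1 x h
    · rw [if_neg h]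
      exact hϑ0 x h
  have hrw : (fun e : ↥E => ψ e * ϑ e) =
      (fun e : ↥E => ψ e * (if IsConj ((e : G) ^ k) g then (n : ℂ) else 0)) := by
    funext e
    rw [hϑ]
  rw [hrw]
  have hcardE : Nat.card E ∣ n * m := by
    rw [mul_comm, ← hmn]
    exact Subgroup.card_subgroup_dvd_card E
  let pm : ↥E →* ↥E := MonoidHom.mk' (fun e => e ^ k)
    (fun e₁ e₂ => pow_hom hq hel n m k hcop.symm hcardE hk1 hkm e₁ e₂)
  have _fR : Fintype ↥pm.range := Fintype.ofFinite _
  have _fiR : Fintype (Cfsg.IrrCharacter ↥pm.range) := Fintype.ofFinite _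
  have hRn : ∀ r : ↥pm.range, r ^ n = 1 := by
    rintro ⟨r, e, rfl⟩
    apply Subtype.ext
    show (e ^ k) ^ n = 1
    rw [← pow_mul]
    have h1 : Nat.card ↥E ∣ k * n := by
      refine hcardE.trans ?_
      rw [mul_comm]
      exact Nat.mul_dvd_mul_right hkm n
    exact orderOf_dvd_iff_pow_eq_one.mp ((orderOf_dvd_natCard e).trans h1)
  have hRcard : Nat.card ↥pm.range ∣ n := by
    have h1 : (Nat.card ↥pm.range).Coprime m := by
      apply Nat.coprime_of_dvd
      intro p hp hpR hpm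
      have _fp : Fact p.Prime := ⟨hp⟩
      obtain ⟨r, hr⟩ := exists_prime_orderOf_dvd_card' (G := ↥pm.range) p hpR
      have h3 : p ∣ n := by
        rw [← hr]
        exact orderOf_dvd_of_pow_eq_one (hRn r)
      have h5 := Nat.dvd_gcd hpm h3
      rw [Nat.Coprime.gcd_eq_one hcop] at h5
      exact hp.one_lt.ne' (Nat.dvd_one.mp h5)
    have h2 : Nat.card ↥pm.range ∣ n * m := (Subgroup.card_subgroup_dvd_card _).trans hcardE
    exact h1.dvd_of_dvd_mul_right h2
  obtain ⟨j, hj⟩ := hRcard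
  let β : ↥pm.range → ℂ := fun y => if IsConj (((y : ↥E) : G)) g then (n : ℂ) else 0
  have hβcf : Cfsg.IsClassFunction ↥pm.range β := by
    intro y h
    have h1 : IsConj ((((h * y * h⁻¹ : ↥pm.range) : ↥E) : G)) g ↔ IsConj (((y : ↥E) : G)) g := by
      have h2 : IsConj (((y : ↥E) : G)) ((((h * y * h⁻¹ : ↥pm.range) : ↥E) : G)) :=
        isConj_iff.mpr ⟨((h : ↥E) : G), by simp⟩
      exact ⟨fun h3 => h2.trans h3, fun h3 => h2.symm.trans h3⟩
    show (if IsConj ((((h * y * h⁻¹ : ↥pm.range) : ↥E) : G)) g then (n : ℂ) else 0) =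
      if IsConj (((y : ↥E) : G)) g then (n : ℂ) else 0
    rw [if_congr h1 rfl rfl]
  have e := class_fun_expand β hβcf
  have h1 : (fun e' : ↥E => ψ e' * (if IsConj ((e' : G) ^ k) g then (n : ℂ) else 0)) =
      ∑ ξ : Cfsg.IrrCharacter ↥pm.range, Cfsg.classInner β (ξ : ↥pm.range → ℂ) •
        (fun e' : ↥E => ψ e' * (ξ : ↥pm.range → ℂ) (pm.rangeRestrict e')) := by
    funext e'
    have h2 := congrFun e (pm.rangeRestrict e')
    rw [Finset.sum_apply] at h2
    rw [Finset.sum_apply]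
    have h3 : β (pm.rangeRestrict e') = if IsConj ((e' : G) ^ k) g then (n : ℂ) else 0 := rfl
    rw [← h3, h2, Finset.mul_sum]
    refine Finset.sum_congr rfl (fun ξ _ => ?_)
    simp only [Pi.smul_apply, smul_eq_mul]
    ring
  rw [h1, classInner_sum_left]
  refine IsIntegral.sum _ (fun ξ _ => ?_)
  rw [classInner_smul_left]
  refine IsIntegral.mul ?_ ?_
  · unfold Cfsg.classInner
    have h5 : ∀ y : ↥pm.range, β y * conj ((ξ : ↥pm.range → ℂ) y) =
        (n : ℂ) * (if IsConj (((y : ↥E) : G)) g then conj ((ξ : ↥pm.range → ℂ) y) else 0) := by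
      intro y
      show (if IsConj (((y : ↥E) : G)) g then (n : ℂ) else 0) * conj ((ξ : ↥pm.range → ℂ) y) = _
      split_ifs <;> ring
    rw [Finset.sum_congr rfl (fun y _ => h5 y), ← Finset.mul_sum, ← mul_assoc]
    have h6 : (Nat.card ↥pm.range : ℂ)⁻¹ * (n : ℂ) = (j : ℂ) := by
      have h7 : (Nat.card ↥pm.range : ℂ) ≠ 0 := by exact_mod_cast Nat.card_pos.ne'
      rw [hj]
      push_cast
      field_simp
    rw [h6]
    refine IsIntegral.mul (isIntegral_natCast j) (IsIntegral.sum _ (fun y _ => ?_))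
    split_ifs
    · exact map_isIntegral_int (starRingEnd ℂ) (char_isIntegral (isCharacter_of_irr ξ.2) y)
    · exact isIntegral_zero
  · have hc1 : Cfsg.IsCharacter ↥E
        (fun e' : ↥E => ψ e' * (ξ : ↥pm.range → ℂ) (pm.rangeRestrict e')) :=
      isCharacter_mul hψ (comp_isCharacter pm.rangeRestrict (isCharacter_of_irr ξ.2))
    have hc2 : Cfsg.IsCharacter ↥E (fun e' : ↥E => χ e') := comp_isCharacter E.subtype hχ
    obtain ⟨N, hN⟩ := inner_char_nat hc1 hc2
    rw [hN]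
    exact isIntegral_natCast N

end Cfsg.Agent.Lib.Helper3.BrInt
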