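import Mathlib
import Cfsg.Prelude.Def_Characters
import Cfsg.Prelude.Def_CharExt
import Cfsg.Agent.Lib.Helper3.Char
import Cfsg.Agent.S0153

set_option autoImplicit false

namespace Cfsg.Agent.Lib.Helper3.CharDet

open Cfsg.Agent.Lib.Helper3.Char

universe v w

theorem det_eq_of_char {G : Type v} [Group G] [Finite G] {n m : ℕ}
    (ρ : Representation ℂ G (Fin n → ℂ)) (σ : Representation ℂ G (Fin m → ℂ))
    (h : ρ.character = σ.character) (g : G) : LinearMap.det (ρ g) = LinearMap.det (σ g) := by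
  classical
  have _i : Fintype G := Fintype.ofFinite G
  obtain ⟨e⟩ := Cfsg.Agent.S0153.equiv_of_char n (Fin n → ℂ) (Fin m → ℂ) ρ σ
    (Module.finrank_fin_fun ℂ) h
  have h1 : σ g = (e.toLinearEquiv : (Fin n → ℂ) →ₗ[ℂ] (Fin m → ℂ)) ∘ₗ ρ g ∘ₗ
      (e.toLinearEquiv.symm : (Fin m → ℂ) →ₗ[ℂ] (Fin n → ℂ)) := by
    have h2 := e.toIntertwiningMap.isIntertwining' g
    apply LinearMap.ext
    intro v
    have h3 : e.toLinearEquiv (ρ g (e.toLinearEquiv.symm v)) =
        σ g (e.toLinearEquiv (e.toLinearEquiv.symm v)) :=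
      LinearMap.congr_fun h2 (e.toLinearEquiv.symm v)
    rw [LinearEquiv.apply_symm_apply] at h3
    exact h3.symm
  rw [h1, LinearMap.det_conj]

theorem detChar_eq {G : Type v} [Group G] [Finite G] {n : ℕ}
    (ρ : Representation ℂ G (Fin n → ℂ)) :
    Cfsg.detChar ρ.character = fun g => LinearMap.det (ρ g) := by
  have h : Cfsg.IsCharacter G ρ.character := ⟨n, ρ, rfl⟩
  unfold Cfsg.detChar
  rw [dif_pos h]
  funext g
  exact det_eq_of_char _ ρ (Classical.choose_spec (Classical.choose_spec h)) g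

noncomputable def detHom {G : Type v} [Group G] {n : ℕ} (ρ : Representation ℂ G (Fin n → ℂ)) : G →* ℂˣ :=
  (LinearMap.det.comp ρ).toHomUnits

theorem detHom_apply {G : Type v} [Group G] {n : ℕ} (ρ : Representation ℂ G (Fin n → ℂ))
    (g : G) : ((detHom ρ g : ℂˣ) : ℂ) = LinearMap.det (ρ g) := rfl

theorem detChar_hom {G : Type v} [Group G] [Finite G] {χ : G → ℂ}
    (hχ : Cfsg.IsCharacter G χ) : ∃ D : G →* ℂˣ, Cfsg.detChar χ = fun g => (D g : ℂ) := by
  obtain ⟨n, ρ, rfl⟩ := hχ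
  exact ⟨detHom ρ, detChar_eq ρ⟩

theorem detChar_comp {G : Type v} {K : Type w} [Group G] [Finite G] [Group K] [Finite K]
    (α : K →* G) {χ : G → ℂ} (hχ : Cfsg.IsCharacter G χ) :
    Cfsg.detChar (χ ∘ α) = Cfsg.detChar χ ∘ α := by
  obtain ⟨n, ρ, rfl⟩ := hχ
  have h1 : ρ.character ∘ α =
      Representation.character (ρ.comp α : Representation ℂ K (Fin n → ℂ)) := rfl
  rw [h1, detChar_eq, detChar_eq]
  rfl

theorem detChar_twist {G : Type v} [Group G] [Finite G] (B : G →* ℂˣ) {n : ℕ}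
    (ρ : Representation ℂ G (Fin n → ℂ)) :
    Cfsg.detChar ((fun g => (B g : ℂ)) * ρ.character) =
      fun g => (B g : ℂ) ^ n * LinearMap.det (ρ g) := by
  let Ξ : Representation ℂ G (Fin n → ℂ) :=
    { toFun := fun γ => ((B γ : ℂˣ) : ℂ) • ρ γ
      map_one' := by rw [map_one, map_one, Units.val_one, one_smul]
      map_mul' := fun a b => by rw [map_mul, map_mul, Units.val_mul, smul_mul_smul_comm] }
  have h1 : (fun g => (B g : ℂ)) * ρ.character = Ξ.character := by
    funext g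
    show (B g : ℂ) * LinearMap.trace ℂ _ (ρ g) = LinearMap.trace ℂ _ (((B g : ℂˣ) : ℂ) • ρ g)
    rw [map_smul, smul_eq_mul]
  rw [h1, detChar_eq]
  funext g
  show LinearMap.det (((B g : ℂˣ) : ℂ) • ρ g) = _
  rw [LinearMap.det_smul, Module.finrank_fin_fun]

end Cfsg.Agent.Lib.Helper3.CharDet
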