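import Mathlib
import Cfsg.Prelude.Def_Characters
import Cfsg.Agent.Lib.Helper3.CharTable

set_option autoImplicit false

namespace Cfsg.Agent.Lib.Helper3.CharReg

open scoped ComplexConjugate
open Cfsg.Agent.Lib.Helper3.Char Cfsg.Agent.Lib.Helper3.CharCore Cfsg.Agent.Lib.Helper3.CharTable

universe v

theorem regular_char {G : Type v} [Group G] [Fintype G] [DecidableEq G] (g : G) :
    (Representation.leftRegular ℂ G).character g = if g = 1 then (Nat.card G : ℂ) else 0 := by
  unfold Representation.character
  rw [LinearMap.trace_eq_matrix_trace ℂ (MonoidAlgebra.basis G ℂ), Matrix.trace]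
  have h1 : ∀ i : G, Matrix.diag (LinearMap.toMatrix (MonoidAlgebra.basis G ℂ)
      (MonoidAlgebra.basis G ℂ) (Representation.leftRegular ℂ G g)) i =
      if g = 1 then (1 : ℂ) else 0 := by
    intro i
    rw [Matrix.diag_apply, LinearMap.toMatrix_apply, MonoidAlgebra.basis_apply,
      Representation.ofMulAction_single]
    change (MonoidAlgebra.single (g • i) (1 : ℂ)).coeff i = _
    rw [MonoidAlgebra.coeff_single, Finsupp.single_apply]
    have e : (g • i = i) ↔ g = 1 := by
      rw [smul_eq_mul]
      exact mul_eq_right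
    simp only [e]
  rw [Finset.sum_congr rfl (fun i _ => h1 i)]
  split_ifs with hg
  · rw [Finset.sum_const, Finset.card_univ, nsmul_eq_mul, mul_one, Fintype.card_eq_nat_card]
  · simp

theorem regular_char_expand {G : Type v} [Group G] [Fintype G]
    [Fintype (Cfsg.IrrCharacter G)] :
    (Representation.leftRegular ℂ G).character =
      ∑ χ : Cfsg.IrrCharacter G, (χ : G → ℂ) 1 • (χ : G → ℂ) := by
  classical
  have hcard : (Nat.card G : ℂ) ≠ 0 := by exact_mod_cast Nat.card_pos.ne'
  have hcf : Cfsg.IsClassFunction G (Representation.leftRegular ℂ G).character :=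
    char_classFun (isCharacter_of_rep _)
  have h1 := class_fun_expand _ hcf
  have h2 : ∀ χ : Cfsg.IrrCharacter G,
      Cfsg.classInner (Representation.leftRegular ℂ G).character χ = (χ : G → ℂ) 1 := by
    intro χ
    unfold Cfsg.classInner
    simp only [regular_char]
    rw [Finset.sum_eq_single (1 : G)]
    · rw [if_pos rfl, ← mul_assoc, inv_mul_cancel₀ hcard, one_mul]
      obtain ⟨n, -, hn⟩ := irr_one_pos χ.2
      rw [hn]
      simp
    · intro b _ hb
      rw [if_neg hb, zero_mul]
    · intro h
      exact absurd (Finset.mem_univ _) h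
  rw [h1]
  refine Finset.sum_congr rfl (fun χ _ => ?_)
  rw [h2 χ]

end Cfsg.Agent.Lib.Helper3.CharReg
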