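import Mathlib
import Cfsg.Prelude.Def_Characters
import Cfsg.Prelude.Def_Transfer
import Cfsg.Agent.Lib.Helper3.Char
import Cfsg.Agent.Lib.Helper3.CharCore
import Cfsg.Agent.Lib.Helper3.CharTable
import Cfsg.Agent.Lib.Helper3.CharInd
import Cfsg.Agent.Lib.Helper3.CharKer
import Cfsg.Agent.Lib.Helper3.CharLinear
import Cfsg.Agent.Lib.Helper3.CharProj
import Cfsg.Agent.Lib.Helper3.CharCliff
import Cfsg.Agent.Lib.Helper3.CharDeg

set_option autoImplicit false

open Cfsg
open Cfsg.Agent.Lib.Helper3.Char Cfsg.Agent.Lib.Helper3.CharCore Cfsg.Agent.Lib.Helper3.CharTable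
open Cfsg.Agent.Lib.Helper3.CharInd Cfsg.Agent.Lib.Helper3.CharKer
open Cfsg.Agent.Lib.Helper3.CharLinear Cfsg.Agent.Lib.Helper3.CharProj
open Cfsg.Agent.Lib.Helper3.CharCliff Cfsg.Agent.Lib.Helper3.CharDeg
open scoped ComplexConjugate

universe u

namespace Cfsg.Agent.Lib.Helper3.Extra

theorem center_norm {P : Type u} [Group P] [Finite P] {d : ℕ}
    (ρ : Representation ℂ P (Fin d → ℂ)) [hirr : ρ.IsIrreducible] (z : P)
    (hz : z ∈ Subgroup.center P) : ∃ a : ℂ, ρ z = a • LinearMap.id ∧ ‖a‖ = 1 := by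
  obtain ⟨a, ha⟩ := central_scalar ρ z hz
  refine ⟨a, ha, ?_⟩
  have hs : IsSimpleModule (MonoidAlgebra ℂ P) ρ.asModule := inferInstance
  have hnt : Nontrivial ρ.asModule := IsSimpleModule.nontrivial (MonoidAlgebra ℂ P) ρ.asModule
  have hnt' : Nontrivial (Fin d → ℂ) := hnt
  obtain ⟨v, hv⟩ := exists_ne (0 : Fin d → ℂ)
  have hk : 0 < orderOf z := orderOf_pos z
  have h1 : ρ (z ^ orderOf z) = (a ^ orderOf z) • LinearMap.id := by
    rw [map_pow, ha]
    ext w
    simp [smul_pow]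
  rw [pow_orderOf_eq_one, map_one] at h1
  have h2 : v = a ^ orderOf z • v := by
    have := congrArg (fun f : (Fin d → ℂ) →ₗ[ℂ] (Fin d → ℂ) => f v) h1
    simpa using this
  have h3 : a ^ orderOf z = 1 := by
    by_contra hne
    have h4 : (a ^ orderOf z - 1) • v = 0 := by rw [sub_smul, one_smul, ← h2, sub_self]
    rcases smul_eq_zero.mp h4 with h5 | h5
    · exact hne (sub_eq_zero.mp h5)
    · exact hv h5
  exact Complex.norm_eq_one_of_pow_eq_one h3 hk.ne'

theorem extra_vanish {P : Type u} [Group P] [Finite P] (p : ℕ) [Fact p.Prime]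
    (hP : Cfsg.IsExtraspecial p P) {χ : P → ℂ} (hχ : Cfsg.IsIrrCharacter P χ)
    (z₀ : P) (hz₀ : z₀ ∈ Subgroup.center P) (hne : χ z₀ ≠ χ 1) (g : P)
    (hg : g ∉ Subgroup.center P) : χ g = 0 := by
  obtain ⟨d, ρ, hirr, rfl⟩ := hχ
  have _i : ρ.IsIrreducible := hirr
  have hx : ∃ x : P, x * g ≠ g * x := by
    by_contra hcon
    apply hg
    rw [Subgroup.mem_center_iff]
    intro x
    by_contra h2
    exact hcon ⟨x, h2⟩
  obtain ⟨x, hx⟩ := hx
  have hzc : x * g * x⁻¹ * g⁻¹ ∈ Subgroup.center P := by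
    rw [← hP.1.2.2, commutator_def]
    exact Subgroup.commutator_mem_commutator (Subgroup.mem_top x) (Subgroup.mem_top g)
  have hz1 : x * g * x⁻¹ * g⁻¹ ≠ 1 := by
    intro h
    apply hx
    have e : x * g = (x * g * x⁻¹ * g⁻¹) * (g * x) := by group
    rw [e, h, one_mul]
  obtain ⟨a, ha⟩ := central_scalar ρ _ hzc
  have h1 : ρ.character (x * g * x⁻¹) = a * ρ.character g := by
    have e : x * g * x⁻¹ = (x * g * x⁻¹ * g⁻¹) * g := by group
    rw [e]
    show LinearMap.trace ℂ _ (ρ ((x * g * x⁻¹ * g⁻¹) * g)) = a * LinearMap.trace ℂ _ (ρ g)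
    rw [map_mul, ha]
    have e2 : (a • (LinearMap.id : (Fin d → ℂ) →ₗ[ℂ] (Fin d → ℂ))) * ρ g = a • ρ g := by
      ext w
      simp
    rw [e2, map_smul, smul_eq_mul]
  have h2 : ρ.character (x * g * x⁻¹) = ρ.character g := Representation.char_conj ρ g x
  have ha1 : a ≠ 1 := by
    rintro rfl
    apply hne
    have hzp := zpowers_eq_top_of_prime_card (G := Subgroup.center P) hP.2
      (g := ⟨_, hzc⟩) (by intro h; exact hz1 (congrArg Subtype.val h))
    have hmem : (⟨z₀, hz₀⟩ : Subgroup.center P) ∈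
        Subgroup.zpowers (⟨_, hzc⟩ : Subgroup.center P) := by
      rw [hzp]
      exact Subgroup.mem_top _
    obtain ⟨k, hk⟩ := Subgroup.mem_zpowers_iff.mp hmem
    have hk' : (x * g * x⁻¹ * g⁻¹) ^ k = z₀ := by
      have := congrArg Subtype.val hk
      simpa using this
    have hzk : x * g * x⁻¹ * g⁻¹ ∈ MonoidHom.ker ρ := by
      rw [MonoidHom.mem_ker, ha, one_smul]
      rfl
    have h3 : z₀ ∈ MonoidHom.ker ρ := by
      rw [← hk']
      exact Subgroup.zpow_mem _ hzk k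
    have h4 : ρ z₀ = 1 := MonoidHom.mem_ker.mp h3
    have h5 : ρ 1 = 1 := map_one ρ
    show LinearMap.trace ℂ _ (ρ z₀) = LinearMap.trace ℂ _ (ρ 1)
    rw [h4, h5]
  rw [h1] at h2
  have h5 : (a - 1) * ρ.character g = 0 := by rw [sub_mul, one_mul, h2, sub_self]
  rcases mul_eq_zero.mp h5 with h6 | h6
  · exact absurd (sub_eq_zero.mp h6) ha1
  · exact h6

theorem extra_degree {P : Type u} [Group P] [Fintype P] (p n : ℕ) [Fact p.Prime]
    (hP : Cfsg.IsExtraspecial p P) (hcard : Nat.card P = p ^ (2 * n + 1)) {χ : P → ℂ}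
    (hχ : Cfsg.IsIrrCharacter P χ)
    (hv : ∀ g : P, g ∉ Subgroup.center P → χ g = 0) : χ 1 = (p : ℂ) ^ n := by
  classical
  have hp : p.Prime := Fact.out
  have hin := irr_inner_self hχ
  obtain ⟨d, ρ, hirr, rfl⟩ := hχ
  have _i : ρ.IsIrreducible := hirr
  have hd : ρ.character 1 = (d : ℂ) := by
    rw [Representation.char_one, Module.finrank_fin_fun]
  have hterm : ∀ g : P, ρ.character g * conj (ρ.character g) =
      (if g ∈ Subgroup.center P then (1 : ℂ) else 0) * (d : ℂ) ^ 2 := by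
    intro g
    by_cases hg : g ∈ Subgroup.center P
    · rw [if_pos hg, one_mul]
      obtain ⟨a, ha, hna⟩ := center_norm ρ g hg
      have e : ρ.character g = a * (d : ℂ) := by
        show LinearMap.trace ℂ _ (ρ g) = _
        rw [ha, map_smul, smul_eq_mul, LinearMap.trace_id, Module.finrank_fin_fun]
      rw [e, map_mul, Complex.conj_natCast]
      have e2 : a * conj a = 1 := by
        rw [Complex.mul_conj, Complex.normSq_eq_norm_sq, hna]
        simp
      calc a * (d : ℂ) * (conj a * (d : ℂ)) = (a * conj a) * (d : ℂ) ^ 2 := by ring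
        _ = (d : ℂ) ^ 2 := by rw [e2, one_mul]
    · rw [if_neg hg, zero_mul, hv g hg, zero_mul]
  unfold Cfsg.classInner at hin
  rw [Finset.sum_congr rfl (fun g _ => hterm g), ← Finset.sum_mul, Finset.sum_boole] at hin
  have hc : (Finset.univ.filter (fun g : P => g ∈ Subgroup.center P)).card = p := by
    rw [← hP.2, Nat.card_eq_fintype_card, Fintype.card_subtype]
  rw [hc, hcard] at hin
  have hp0 : (p : ℂ) ≠ 0 := by exact_mod_cast hp.ne_zero
  have h1 : (p : ℂ) * (d : ℂ) ^ 2 = (p : ℂ) ^ (2 * n + 1) := by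
    have h2 : ((p ^ (2 * n + 1) : ℕ) : ℂ) ≠ 0 := by
      exact_mod_cast (pow_pos hp.pos _).ne'
    have h3 := (inv_mul_eq_one₀ h2).mp hin
    rw [← h3]
    push_cast
    ring
  have h4 : p * d ^ 2 = p * (p ^ n) ^ 2 := by
    have h5 : ((p * d ^ 2 : ℕ) : ℂ) = ((p * (p ^ n) ^ 2 : ℕ) : ℂ) := by
      push_cast
      rw [h1]
      ring
    exact_mod_cast h5
  have h6 : d ^ 2 = (p ^ n) ^ 2 := Nat.eq_of_mul_eq_mul_left hp.pos h4
  have h7 : d = p ^ n := Nat.pow_left_injective (by norm_num : (2 : ℕ) ≠ 0) h6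
  rw [hd, h7]
  push_cast
  rfl

theorem extra_linear {P : Type u} [Group P] [Finite P] (p : ℕ) [Fact p.Prime]
    (hP : Cfsg.IsExtraspecial p P) (χ : Cfsg.IrrCharacter P)
    (hker : ∀ z ∈ Subgroup.center P, (χ : P → ℂ) z = (χ : P → ℂ) 1) :
    (χ : P → ℂ) 1 = 1 := by
  classical
  have _fg : Fintype P := Fintype.ofFinite P
  have _fi : Fintype (Cfsg.IrrCharacter P) := Fintype.ofFinite _
  have hdeg : ∀ ψ : Cfsg.IrrCharacter P, ∃ n : ℕ, 0 < n ∧ (ψ : P → ℂ) 1 = (n : ℂ) :=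
    fun ψ => irr_one_pos ψ.2
  choose dg hdpos hdeq using hdeg
  have h1 := sum_sq_ker (G := P) (Subgroup.center P)
  have h2 : ∀ ψ : Cfsg.IrrCharacter P,
      (if (∀ u ∈ Subgroup.center P, (ψ : P → ℂ) u = (ψ : P → ℂ) 1) then (ψ : P → ℂ) 1 ^ 2
        else 0) =
      (((if (∀ u ∈ Subgroup.center P, (ψ : P → ℂ) u = (ψ : P → ℂ) 1) then dg ψ ^ 2
        else 0 : ℕ)) : ℂ) := by
    intro ψ
    split_ifs
    · rw [hdeq ψ]
      push_cast
      rfl
    · simp
  rw [Finset.sum_congr rfl (fun ψ _ => h2 ψ), ← Nat.cast_sum,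
    ← Subgroup.card_mul_index (Subgroup.center P)] at h1
  have h3 : (Subgroup.center P).index = ∑ ψ : Cfsg.IrrCharacter P,
      (if (∀ u ∈ Subgroup.center P, (ψ : P → ℂ) u = (ψ : P → ℂ) 1) then dg ψ ^ 2 else 0) := by
    have h4 : Nat.card (Subgroup.center P) * (Subgroup.center P).index =
        Nat.card (Subgroup.center P) * ∑ ψ : Cfsg.IrrCharacter P,
          (if (∀ u ∈ Subgroup.center P, (ψ : P → ℂ) u = (ψ : P → ℂ) 1) then dg ψ ^ 2
            else 0) := by
      exact_mod_cast h1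
    exact Nat.eq_of_mul_eq_mul_left Nat.card_pos h4
  have h5 : (Subgroup.center P).index =
      ∑ ψ : Cfsg.IrrCharacter P, (if dg ψ = 1 then 1 else 0) := by
    rw [← hP.1.2.2, ← card_hom_units, ← card_linear, Finset.sum_boole,
      Nat.card_eq_fintype_card, Fintype.card_subtype]
    congr 1
    apply Finset.filter_congr
    intro ψ _
    rw [hdeq ψ]
    exact_mod_cast Iff.rfl
  have hlin : ∀ ψ : Cfsg.IrrCharacter P, dg ψ = 1 →
      ∀ u ∈ Subgroup.center P, (ψ : P → ℂ) u = (ψ : P → ℂ) 1 := by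
    intro ψ h u hu
    have h1' : (ψ : P → ℂ) 1 = 1 := by
      rw [hdeq ψ, h]
      simp
    obtain ⟨lam, hlam⟩ := hom_of_deg_one (isCharacter_of_irr ψ.2) h1'
    have hu' : u ∈ lam.ker :=
      Abelianization.commutator_subset_ker lam (by rw [hP.1.2.2]; exact hu)
    rw [hlam]
    show (lam u : ℂ) = (lam 1 : ℂ)
    rw [MonoidHom.mem_ker.mp hu', map_one]
  have hle : ∀ ψ ∈ (Finset.univ : Finset (Cfsg.IrrCharacter P)),
      (if dg ψ = 1 then 1 else 0) ≤
      (if (∀ u ∈ Subgroup.center P, (ψ : P → ℂ) u = (ψ : P → ℂ) 1) then dg ψ ^ 2 else 0) := by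
    intro ψ _
    by_cases h : dg ψ = 1
    · rw [if_pos h, if_pos (hlin ψ h), h]
      norm_num
    · rw [if_neg h]
      exact Nat.zero_le _
  have heq := (Finset.sum_eq_sum_iff_of_le hle).mp (h5.symm.trans h3)
  have h6 := heq χ (Finset.mem_univ χ)
  rw [if_pos hker] at h6
  have h7 : dg χ = 1 := by
    by_contra h
    rw [if_neg h] at h6
    have h8 := hdpos χ
    have h9 : 0 < dg χ ^ 2 := by positivity
    omega
  rw [hdeq χ, h7]
  simp

end Cfsg.Agent.Lib.Helper3.Extra
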