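import Mathlib
import Cfsg.Prelude.Def_Solvable
import Cfsg.Prelude.Def_Local
import Cfsg.Agent.Lib.Helper3.Core

set_option autoImplicit false

open Cfsg.Agent.Lib.Helper3.Core

namespace Cfsg.Agent.Lib.Helper3.GrpHH

theorem central_coprime_step {G : Type*} [Group G] [Finite G] (p : ℕ) [hp : Fact p.Prime]
    (hcore : Cfsg.pPrimeCore p G = ⊥) (L Z1 : Subgroup G) [hLn : L.Normal] [hZn : Z1.Normal]
    (_hZL : Z1 ≤ L) (hZp : IsPGroup p Z1) (hcent : ∀ z ∈ Z1, ∀ x ∈ L, z * x = x * z)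
    (hcop : (Z1.relIndex L).Coprime p) : L ≤ Z1 := by
  have hZ'n : (Z1.subgroupOf L).Normal := Subgroup.normal_subgroupOf
  have hZ'p : IsPGroup p (Z1.subgroupOf L) := hZp.comap_subtype
  obtain ⟨a, ha⟩ := IsPGroup.iff_card.mp hZ'p
  have hcop' : Nat.Coprime (Nat.card (Z1.subgroupOf L)) (Z1.subgroupOf L).index := by
    rw [ha]
    exact Nat.Coprime.pow_left a (Nat.Coprime.symm hcop)
  obtain ⟨K', hK'⟩ := Subgroup.exists_right_complement'_of_coprime hcop'
  have hcardK : Nat.card K' = (Z1.subgroupOf L).index := by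
    have h1 := hK'.card_mul_card
    have h2 := Subgroup.card_mul_index (Z1.subgroupOf L)
    rw [← h2] at h1
    exact Nat.eq_of_mul_eq_mul_left Nat.card_pos h1
  have hKcop : (Nat.card K').Coprime p := by
    rw [hcardK]
    exact hcop
  have hKchar : ∀ y : L, y ∈ K' ↔ ¬ p ∣ orderOf y := by
    intro y
    constructor
    · intro hy hdvd
      have h1 : orderOf (⟨y, hy⟩ : K') = orderOf y := Subgroup.orderOf_mk _ _
      have h2 := orderOf_dvd_natCard (⟨y, hy⟩ : K')
      rw [h1] at h2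
      exact (Nat.Prime.coprime_iff_not_dvd hp.out).mp hKcop.symm (hdvd.trans h2)
    · intro hy
      obtain ⟨⟨z, k⟩, hzk⟩ := hK'.2 y
      have hzk' : (z : L) * (k : L) = y := hzk
      have hzc : ∀ x : L, (z : L) * x = x * (z : L) := by
        intro x
        apply Subtype.ext
        have hz : ((z : L) : G) ∈ Z1 := Subgroup.mem_subgroupOf.mp z.2
        exact hcent _ hz _ x.2
      have hpow : y ^ (Nat.card K') = (z : L) ^ (Nat.card K') := by
        rw [← hzk', (show Commute (z : L) (k : L) from hzc _).mul_pow]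
        have h1 : (k : L) ^ (Nat.card K') = 1 := by
          rw [← Subgroup.coe_pow, pow_card_eq_one']
          rfl
        rw [h1, mul_one]
      obtain ⟨j, hj⟩ := hZ'p z
      have hj' : (z : L) ^ (p ^ j) = 1 := by
        have h3 := congrArg (fun t : (Z1.subgroupOf L) => (t : L)) hj
        simpa using h3
      have h4 : orderOf ((z : L) ^ (Nat.card K')) ∣ orderOf y := by
        rw [← hpow]
        exact orderOf_pow_dvd _
      have h5 : orderOf ((z : L) ^ (Nat.card K')) ∣ p ^ j := by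
        apply orderOf_dvd_of_pow_eq_one
        rw [← pow_mul, mul_comm, pow_mul, hj', one_pow]
      have h6 : orderOf ((z : L) ^ (Nat.card K')) = 1 := by
        obtain ⟨i, _, hi⟩ := (Nat.dvd_prime_pow hp.out).mp h5
        rcases Nat.eq_zero_or_pos i with h0 | hpos
        · rw [hi, h0, pow_zero]
        · exfalso
          apply hy
          rw [hi] at h4
          exact (dvd_pow_self p hpos.ne').trans h4
      have h7 : (z : L) ^ (Nat.card K') = 1 := orderOf_eq_one_iff.mp h6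
      have h8 : orderOf (z : L) ∣ Nat.card K' := orderOf_dvd_of_pow_eq_one h7
      have h9 : orderOf (z : L) ∣ p ^ j := orderOf_dvd_of_pow_eq_one hj'
      have h10 : orderOf (z : L) = 1 := by
        have h11 : Nat.Coprime (Nat.card K') (p ^ j) := Nat.Coprime.pow_right j hKcop
        exact Nat.eq_one_of_dvd_coprimes h11 h8 h9
      have h12 : (z : L) = 1 := orderOf_eq_one_iff.mp h10
      rw [h12, one_mul] at hzk'
      rw [← hzk']
      exact k.2
  have hKn : (K'.map L.subtype).Normal := by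
    constructor
    intro x hx g
    obtain ⟨y, hy, rfl⟩ := hx
    have hmem : g * (y : G) * g⁻¹ ∈ L := hLn.conj_mem _ y.2 g
    have h1 : orderOf (⟨g * (y : G) * g⁻¹, hmem⟩ : L) = orderOf y := by
      rw [← Subgroup.orderOf_coe, ← Subgroup.orderOf_coe y]
      exact (SemiconjBy.orderOf_eq g (show SemiconjBy g (y : G) (g * (y : G) * g⁻¹) by
        unfold SemiconjBy
        group)).symm
    have h2 : (⟨g * (y : G) * g⁻¹, hmem⟩ : L) ∈ K' := by
      rw [hKchar, h1]
      exact (hKchar y).mp hy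
    exact ⟨⟨g * (y : G) * g⁻¹, hmem⟩, h2, rfl⟩
  have hKcop' : (Nat.card (K'.map L.subtype)).Coprime p := by
    rw [Subgroup.card_subtype L K']
    exact hKcop
  have hKle := le_pPrimeCore (K'.map L.subtype) hKn hKcop'
  rw [hcore] at hKle
  have hK'bot : Nat.card K' = 1 := by
    have h1 : K'.map L.subtype = ⊥ := le_bot_iff.mp hKle
    have h2 := Subgroup.card_subtype L K'
    rw [h1, Subgroup.card_bot] at h2
    exact h2.symm
  have hidx : (Z1.subgroupOf L).index = 1 := by
    rw [← hcardK]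
    exact hK'bot
  have htop : Z1.subgroupOf L = ⊤ := Subgroup.index_eq_one.mp hidx
  exact Subgroup.subgroupOf_eq_top.mp htop

theorem cent_core_le {G : Type*} [Group G] [Finite G] (p : ℕ) [hp : Fact p.Prime]
    (hsolv : Cfsg.IsPSolvable p G) (hcore : Cfsg.pPrimeCore p G = ⊥) :
    Subgroup.centralizer ((Cfsg.pCore p G : Subgroup G) : Set G) ≤ Cfsg.pCore p G := by
  obtain ⟨n, H, h0, hlast, hmono, hnorm, hstep⟩ := hsolv
  have hQn : (Cfsg.pCore p G).Normal := pCore_normal (G := G) p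
  have hQp : IsPGroup p (Cfsg.pCore p G) := pCore_isPGroup (G := G) p
  have hCn : (Subgroup.centralizer ((Cfsg.pCore p G : Subgroup G) : Set G)).Normal :=
    Subgroup.normal_centralizer
  obtain ⟨C, hC⟩ : ∃ C : Subgroup G,
      C = Subgroup.centralizer ((Cfsg.pCore p G : Subgroup G) : Set G) := ⟨_, rfl⟩
  rw [← hC] at hCn ⊢
  have hCmem : ∀ c ∈ C, ∀ q ∈ Cfsg.pCore p G, q * c = c * q := by
    intro c hc q hq
    rw [hC] at hc
    exact Subgroup.mem_centralizer_iff.mp hc q hq
  have key : ∀ k : ℕ, ∀ hk : k < n + 1, C ⊓ H ⟨k, hk⟩ ≤ Cfsg.pCore p G := by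
    intro k
    induction k with
    | zero =>
      intro hk
      have e : (⟨0, hk⟩ : Fin (n + 1)) = 0 := rfl
      rw [e, h0]
      exact inf_le_right.trans bot_le
    | succ k ih =>
      intro hk
      have hk' : k < n + 1 := by omega
      have hkn : k < n := by omega
      have ih' := ih hk'
      have hi := hstep ⟨k, hkn⟩
      have e1 : (⟨k, hkn⟩ : Fin n).castSucc = ⟨k, hk'⟩ := rfl
      have e2 : (⟨k, hkn⟩ : Fin n).succ = ⟨k + 1, hk⟩ := rfl
      rw [e1, e2] at hi
      have hij : H ⟨k, hk'⟩ ≤ H ⟨k + 1, hk⟩ := hmono (Fin.mk_le_mk.mpr (Nat.le_succ k))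
      have hn1 := hnorm ⟨k, hk'⟩
      have hn2 := hnorm ⟨k + 1, hk⟩
      obtain ⟨Hi, hHi⟩ : ∃ Hi : Subgroup G, Hi = H ⟨k, hk'⟩ := ⟨_, rfl⟩
      obtain ⟨Hj, hHj⟩ : ∃ Hj : Subgroup G, Hj = H ⟨k + 1, hk⟩ := ⟨_, rfl⟩
      rw [← hHi] at ih' hi hij hn1
      rw [← hHj] at hi hij hn2 ⊢
      have hLn : (C ⊓ Hj).Normal := Subgroup.normal_inf_normal C Hj
      have hZn : (C ⊓ Hi).Normal := Subgroup.normal_inf_normal C Hi
      have hZL : C ⊓ Hi ≤ C ⊓ Hj := inf_le_inf_left C hij
      have hZp : IsPGroup p ↥(C ⊓ Hi) := hQp.to_le ih'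
      have hrel : (C ⊓ Hi).relIndex (C ⊓ Hj) ∣ Hi.relIndex Hj := by
        have h1 : C ⊓ Hi = Hi ⊓ (C ⊓ Hj) := by
          ext x
          simp only [Subgroup.mem_inf]
          constructor
          · rintro ⟨hc, hi'⟩
            exact ⟨hi', hc, hij hi'⟩
          · rintro ⟨hi', hc, _⟩
            exact ⟨hc, hi'⟩
        rw [h1, Subgroup.inf_relIndex_right,
          ← Subgroup.relIndex_subgroupOf (inf_le_right : C ⊓ Hj ≤ Hj)]
        have h2 : (Hi.subgroupOf Hj).Normal := Subgroup.normal_subgroupOf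
        exact Subgroup.relIndex_dvd_index_of_normal (Hi.subgroupOf Hj) ((C ⊓ Hj).subgroupOf Hj)
      have hcard : Nat.card ↥(C ⊓ Hi) * (C ⊓ Hi).relIndex (C ⊓ Hj) = Nat.card ↥(C ⊓ Hj) := by
        have h0' := Subgroup.relIndex_mul_relIndex ⊥ (C ⊓ Hi) (C ⊓ Hj) bot_le hZL
        rwa [Subgroup.relIndex_bot_left, Subgroup.relIndex_bot_left] at h0'
      rcases hi with ⟨m, hm⟩ | hcop
      · rw [hm] at hrel
        obtain ⟨j, _, hj⟩ := (Nat.dvd_prime_pow hp.out).mp hrel
        obtain ⟨a, ha⟩ := IsPGroup.iff_card.mp hZp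
        rw [ha, hj, ← pow_add] at hcard
        have hLp : IsPGroup p ↥(C ⊓ Hj) := IsPGroup.of_card hcard.symm
        exact le_pCore (C ⊓ Hj) hLn hLp
      · have hcop' : ((C ⊓ Hi).relIndex (C ⊓ Hj)).Coprime p :=
          Nat.Coprime.coprime_dvd_left hrel hcop
        have hcent : ∀ z ∈ C ⊓ Hi, ∀ x ∈ C ⊓ Hj, z * x = x * z := by
          intro z hz x hx
          exact hCmem x (Subgroup.mem_inf.mp hx).1 z (ih' hz)
        exact (central_coprime_step p hcore (C ⊓ Hj) (C ⊓ Hi) hZL hZp hcent hcop').trans ih'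
  have hfin := key n (Nat.lt_succ_self n)
  have e : (⟨n, Nat.lt_succ_self n⟩ : Fin (n + 1)) = Fin.last n := rfl
  rw [e, hlast, inf_top_eq] at hfin
  exact hfin

end Cfsg.Agent.Lib.Helper3.GrpHH
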