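import Mathlib
import Cfsg.Prelude.Def_Characters
import Cfsg.Agent.Lib.Helper3.Char
import Cfsg.Agent.Lib.Helper3.CharCore
import Cfsg.Agent.Lib.Helper3.CharArith
import Cfsg.Agent.Lib.Helper3.CharTable
import Cfsg.Agent.Lib.Helper3.CharInd
import Cfsg.Agent.Lib.Helper3.CharInt
import Cfsg.Agent.Lib.Helper3.CharLinear
import Cfsg.Agent.Lib.Helper3.CharProj
import Cfsg.Agent.Lib.Helper3.CharCliff
import Cfsg.Agent.Lib.Helper3.CharNormal
import Cfsg.Agent.Lib.Helper3.CharDeg
import Cfsg.Agent.S0148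
import Cfsg.Agent.S0855

set_option autoImplicit false

open Cfsg
open Cfsg.Agent.Lib.Helper3.Char Cfsg.Agent.Lib.Helper3.CharCore Cfsg.Agent.Lib.Helper3.CharArith
open Cfsg.Agent.Lib.Helper3.CharTable Cfsg.Agent.Lib.Helper3.CharInd Cfsg.Agent.Lib.Helper3.CharInt
open Cfsg.Agent.Lib.Helper3.CharLinear Cfsg.Agent.Lib.Helper3.CharProj
open Cfsg.Agent.Lib.Helper3.CharCliff Cfsg.Agent.Lib.Helper3.CharNormal
open Cfsg.Agent.Lib.Helper3.CharDeg
open scoped ComplexConjugate
open scoped commutatorElement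

universe u

namespace Cfsg.Agent.Lib.Helper3.ItoConv

def PD (p : ℕ) (G : Type u) [Group G] : Prop :=
  ∀ χ : G → ℂ, Cfsg.IsIrrCharacter G χ → ∀ b : ℕ, χ 1 = (b : ℂ) → ¬ p ∣ b

def NS (p : ℕ) (G : Type u) [Group G] : Prop :=
  ∃ S : Subgroup G, S.Normal ∧ IsPGroup p S ∧ ¬ p ∣ S.index

theorem mem_of_pelement {G : Type u} [Group G] [Finite G] (p : ℕ) (hp : p.Prime)
    (N : Subgroup G) [N.Normal] (hidx : ¬ p ∣ N.index) (z : G) (k : ℕ)
    (hz : z ^ (p ^ k) = 1) : z ∈ N := by
  have h1 : ((QuotientGroup.mk z : G ⧸ N)) ^ (p ^ k) = 1 := by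
    rw [← QuotientGroup.mk_pow, hz]
    rfl
  have h2 : orderOf (QuotientGroup.mk z : G ⧸ N) ∣ p ^ k := orderOf_dvd_of_pow_eq_one h1
  have h3 : orderOf (QuotientGroup.mk z : G ⧸ N) ∣ N.index := orderOf_dvd_natCard _
  have hcop : Nat.Coprime (p ^ k) N.index :=
    Nat.Coprime.pow_left k ((Nat.Prime.coprime_iff_not_dvd hp).mpr hidx)
  have h4 := Nat.dvd_gcd h2 h3
  rw [Nat.Coprime.gcd_eq_one hcop] at h4
  have h5 : (QuotientGroup.mk z : G ⧸ N) = 1 := orderOf_eq_one_iff.mp (Nat.dvd_one.mp h4)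
  exact (QuotientGroup.eq_one_iff z).mp h5

theorem covering {G : Type u} [Group G] [Finite G] (H : Subgroup G)
    (hcov : ∀ g : G, ∃ y : G, y * g * y⁻¹ ∈ H) : H = ⊤ := by
  classical
  have _fg : Fintype G := Fintype.ofFinite G
  have _fq : Fintype (G ⧸ H) := Fintype.ofFinite _
  let A : G ⧸ H → Finset G := fun q =>
    Finset.univ.filter (fun g : G => g ≠ 1 ∧ (q.out)⁻¹ * g * q.out ∈ H)
  have hcover : Finset.univ.erase (1 : G) ⊆ Finset.univ.biUnion A := by
    intro g hg
    have hg1 : g ≠ 1 := (Finset.mem_erase.mp hg).1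
    obtain ⟨y, hy⟩ := hcov g
    rw [Finset.mem_biUnion]
    refine ⟨QuotientGroup.mk y⁻¹, Finset.mem_univ _, ?_⟩
    rw [Finset.mem_filter]
    refine ⟨Finset.mem_univ _, hg1, ?_⟩
    obtain ⟨h, hh⟩ := QuotientGroup.mk_out_eq_mul H y⁻¹
    rw [hh]
    have h1 : (y⁻¹ * (h : G))⁻¹ * g * (y⁻¹ * (h : G)) = (h : G)⁻¹ * (y * g * y⁻¹) * (h : G) := by
      group
    rw [h1]
    exact H.mul_mem (H.mul_mem (H.inv_mem h.2) hy) h.2
  have hHc : ((Finset.univ.filter (fun g : G => g ∈ H)).erase 1).card = Nat.card H - 1 := by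
    rw [Finset.card_erase_of_mem, Nat.card_eq_fintype_card, Fintype.card_subtype]
    rw [Finset.mem_filter]
    exact ⟨Finset.mem_univ _, H.one_mem⟩
  have hAcard : ∀ q : G ⧸ H, (A q).card ≤ Nat.card H - 1 := by
    intro q
    rw [← hHc]
    have hsub : A q ⊆ ((Finset.univ.filter (fun g : G => g ∈ H)).erase 1).image
        (fun h => q.out * h * (q.out)⁻¹) := by
      intro g hg
      rw [Finset.mem_filter] at hg
      rw [Finset.mem_image]
      refine ⟨(q.out)⁻¹ * g * q.out, ?_, by group⟩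
      rw [Finset.mem_erase, Finset.mem_filter]
      refine ⟨?_, Finset.mem_univ _, hg.2.2⟩
      intro h0
      apply hg.2.1
      have h1 : g = q.out * ((q.out)⁻¹ * g * q.out) * (q.out)⁻¹ := by group
      rw [h1, h0]
      group
    exact (Finset.card_le_card hsub).trans Finset.card_image_le
  have h1 : Nat.card G - 1 ≤ H.index * (Nat.card H - 1) := by
    have h2 : (Finset.univ.erase (1 : G)).card = Nat.card G - 1 := by
      rw [Finset.card_erase_of_mem (Finset.mem_univ _), Finset.card_univ, Nat.card_eq_fintype_card]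
    rw [← h2]
    refine (Finset.card_le_card hcover).trans ?_
    refine Finset.card_biUnion_le.trans ?_
    refine (Finset.sum_le_sum (fun q _ => hAcard q)).trans ?_
    rw [Finset.sum_const, Finset.card_univ, smul_eq_mul]
    apply le_of_eq
    congr 1
    rw [Subgroup.index, Nat.card_eq_fintype_card]
  have h3 := H.card_mul_index
  have hc : 1 ≤ Nat.card H := Nat.card_pos
  have hi : 1 ≤ H.index := Nat.pos_of_ne_zero Subgroup.index_ne_zero_of_finite
  have h4 : H.index * (Nat.card H - 1) = Nat.card G - H.index := by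
    rw [Nat.mul_sub, mul_one, mul_comm, h3]
  have h5 : H.index ≤ Nat.card G := by
    rw [← h3]
    exact Nat.le_mul_of_pos_left _ hc
  have h6 : H.index = 1 := by omega
  exact Subgroup.index_eq_one.mp h6

theorem PD_normal {G : Type u} [Group G] [Finite G] (p : ℕ) (M : Subgroup G) (hM : M.Normal)
    (hPD : PD p G) : PD p M := by
  classical
  have _fg : Fintype G := Fintype.ofFinite G
  have _fM : Fintype M := Fintype.ofFinite M
  intro θ hθ a ha hpa
  obtain ⟨χ, b, hχ, hb, hab⟩ := Cfsg.Agent.S0855.deg_dvd_over M hM θ hθ a ha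
  exact hPD χ hχ b hb (dvd_trans hpa hab)

theorem NS_equiv {A B : Type u} [Group A] [Group B] (p : ℕ) (e : A ≃* B) (h : NS p B) :
    NS p A := by
  obtain ⟨S, hSn, hSp, hSi⟩ := h
  refine ⟨S.comap e.toMonoidHom, hSn.comap _, hSp.comap_of_injective _ e.injective, ?_⟩
  rw [Subgroup.index_comap_of_surjective S e.surjective]
  exact hSi

theorem NS_map {G : Type u} [Group G] [Finite G] (p : ℕ) (hp : p.Prime) (M : Subgroup G)
    (hM : M.Normal) (h : NS p M) :
    ∃ P : Subgroup G, P.Normal ∧ P ≤ M ∧ IsPGroup p P ∧ ¬ p ∣ P.relIndex M := by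
  obtain ⟨PM, hPMn, hPMp, hPMi⟩ := h
  refine ⟨PM.map M.subtype, ?_, Subgroup.map_subtype_le PM, hPMp.map M.subtype, ?_⟩
  · constructor
    intro x hx g
    obtain ⟨y, hy, rfl⟩ := Subgroup.mem_map.mp hx
    obtain ⟨k, hk⟩ := hPMp ⟨y, hy⟩
    have hyk : y ^ (p ^ k) = 1 := by
      have h1 := congrArg Subtype.val hk
      exact h1
    have hz : (⟨g * (y : G) * g⁻¹, hM.conj_mem y y.2 g⟩ : M) ^ (p ^ k) = 1 := by
      apply Subtype.ext
      show (g * (y : G) * g⁻¹) ^ (p ^ k) = 1
      rw [conj_pow]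
      have h2 : (y : G) ^ (p ^ k) = 1 := by
        have h3 := congrArg Subtype.val hyk
        exact h3
      rw [h2]
      group
    have hmem := mem_of_pelement p hp PM hPMi _ k hz
    exact Subgroup.mem_map.mpr ⟨_, hmem, rfl⟩
  · have h1 : (PM.map M.subtype).subgroupOf M = PM :=
      Subgroup.comap_map_eq_self_of_injective M.subtype_injective PM
    show ¬ p ∣ ((PM.map M.subtype).subgroupOf M).index
    rw [h1]
    exact hPMi

theorem inv_of_index_p {G : Type u} [Group G] [Fintype G] (p : ℕ) (hp : p.Prime)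
    (N : Subgroup G) (hN : N.Normal) [Fintype N] (hidx : N.index = p) (hPD : PD p G)
    (θ : N → ℂ) (hθ : Cfsg.IsIrrCharacter N θ) (g : G) (n : N) :
    θ ⟨g * n * g⁻¹, hN.conj_mem n n.2 g⟩ = θ n := by
  classical
  have hθc := isCharacter_of_irr hθ
  have hch := Cfsg.Agent.S0148.result N θ hθc
  have hdeg : Cfsg.indFun N θ 1 ≠ 0 := by
    rw [indFun_one]
    apply mul_ne_zero
    · exact_mod_cast (Subgroup.index_ne_zero_of_finite (H := N))
    · exact irr_one_ne_zero hθ
  obtain ⟨Χ, hΧ, hne⟩ := exists_constituent hch hdeg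
  have hΧc := isCharacter_of_irr hΧ
  have hcon : Cfsg.classInner (fun n : N => Χ n) θ ≠ 0 := by
    rw [← frobenius' N θ Χ (char_classFun hΧc)]
    exact hne
  obtain ⟨T, hT⟩ : ∃ T : Subgroup G, ∀ g : G, g ∈ T ↔ cj N hN θ g = θ := by
    refine ⟨{ carrier := {g | cj N hN θ g = θ}
              mul_mem' := ?_
              one_mem' := cj_one N hN θ
              inv_mem' := ?_ }, fun g => Iff.rfl⟩
    · intro a b ha hb
      have ha' : cj N hN θ a = θ := ha
      have hb' : cj N hN θ b = θ := hb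
      show cj N hN θ (a * b) = θ
      rw [← cj_mul, ha', hb']
    · intro a ha
      have ha' : cj N hN θ a = θ := ha
      show cj N hN θ a⁻¹ = θ
      have h1 : cj N hN (cj N hN θ a) a⁻¹ = cj N hN θ a⁻¹ := by rw [ha']
      rw [← h1, cj_mul, mul_inv_cancel, cj_one]
  have hT' : ∀ g : G, g ∈ T ↔ ∀ n : N, θ ⟨g * n * g⁻¹, hN.conj_mem n n.2 g⟩ = θ n := by
    intro g
    rw [hT g]
    constructor
    · intro h n
      exact congrFun h n
    · intro h
      funext n
      exact h n
  have hNT : N ≤ T := by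
    intro k hk
    rw [hT k]
    funext n
    rw [cj_apply]
    exact char_classFun hθc n ⟨k, hk⟩
  have hdo := degree_over N hN θ hθ T hT' Χ hΧ hcon
  obtain ⟨m, hm⟩ := inner_char_nat (comp_isCharacter N.subtype hΧc) hθc
  have hm' : Cfsg.classInner (fun n : N => Χ n) θ = (m : ℂ) := hm
  obtain ⟨a, _, ha⟩ := irr_one_pos hθ
  obtain ⟨b, _, hb⟩ := irr_one_pos hΧ
  rw [hm', ha, hb] at hdo
  have hbnat : b = m * (T.index * a) := by exact_mod_cast hdo
  have hpb := hPD Χ hΧ b hb
  have hTidx : T.index = 1 := by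
    have h1 : T.index ∣ p := by
      rw [← hidx]
      exact Subgroup.index_dvd_of_le hNT
    rcases (Nat.dvd_prime hp).mp h1 with h | h
    · exact h
    · exfalso
      apply hpb
      rw [hbnat, h]
      exact Dvd.dvd.mul_left (Dvd.intro _ rfl) _
  have hTtop : T = ⊤ := Subgroup.index_eq_one.mp hTidx
  have hg : g ∈ T := by
    rw [hTtop]
    trivial
  exact (hT' g).mp hg n

theorem class_inv {G : Type u} [Group G] [Fintype G] (p : ℕ) (hp : p.Prime)
    (N : Subgroup G) (hN : N.Normal) [Fintype N] (hidx : N.index = p) (hPD : PD p G)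
    (m : N) (g : G) :
    ∃ y : N, y * m * y⁻¹ = ⟨g * m * g⁻¹, hN.conj_mem m m.2 g⟩ := by
  classical
  have _fi : Fintype (Cfsg.IrrCharacter N) := Fintype.ofFinite _
  have h1 := column_orth (G := N) m ⟨g * m * g⁻¹, hN.conj_mem m m.2 g⟩
  have h2 := column_orth (G := N) m m
  have h3 : ∀ θ : Cfsg.IrrCharacter N,
      (θ : N → ℂ) m * conj ((θ : N → ℂ) ⟨g * m * g⁻¹, hN.conj_mem m m.2 g⟩) =
      (θ : N → ℂ) m * conj ((θ : N → ℂ) m) := by
    intro θ
    rw [inv_of_index_p p hp N hN hidx hPD (θ : N → ℂ) θ.2 g m]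
  rw [Finset.sum_congr rfl (fun θ _ => h3 θ), h2] at h1
  have h4 : Nat.card {y : N // y * m * y⁻¹ = m} =
      Nat.card {y : N // y * m * y⁻¹ = ⟨g * m * g⁻¹, hN.conj_mem m m.2 g⟩} := by
    exact_mod_cast h1
  have h5 : Nat.card {y : N // y * m * y⁻¹ = m} ≠ 0 := by
    have : Nonempty {y : N // y * m * y⁻¹ = m} := ⟨⟨1, by simp⟩⟩
    exact Nat.card_pos.ne'
  rw [h4] at h5
  obtain ⟨⟨y, hy⟩⟩ := (Nat.card_ne_zero.mp h5).1
  exact ⟨y, hy⟩

theorem normal_sylow_of_index_p {Γ : Type u} [Group Γ] [Finite Γ] (p : ℕ) [hpf : Fact p.Prime]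
    (N : Subgroup Γ) (hN : N.Normal) (hidx : N.index = p) (hcop : ¬ p ∣ Nat.card N)
    (hPD : PD p Γ) : NS p Γ := by
  classical
  have hp : p.Prime := hpf.out
  have _fg : Fintype Γ := Fintype.ofFinite Γ
  have _fN : Fintype N := Fintype.ofFinite N
  obtain ⟨S⟩ : Nonempty (Sylow p Γ) := inferInstance
  have hSp : IsPGroup p (S : Subgroup Γ) := S.isPGroup'
  have hfix : ∀ m : N, ∃ y : N, ∀ s ∈ (S : Subgroup Γ),
      s * ((y * m * y⁻¹ : N) : Γ) * s⁻¹ = ((y * m * y⁻¹ : N) : Γ) := by
    intro m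
    let K : Set Γ := Subtype.val '' (MulAction.orbit (ConjAct N) m)
    have hKmem : ∀ x : Γ, x ∈ K ↔ ∃ y : N, ((y * m * y⁻¹ : N) : Γ) = x := by
      intro x
      constructor
      · rintro ⟨z, ⟨c, hc⟩, rfl⟩
        refine ⟨ConjAct.ofConjAct c, ?_⟩
        rw [← hc]
        rfl
      · rintro ⟨y, rfl⟩
        exact ⟨y * m * y⁻¹, ⟨ConjAct.toConjAct y, rfl⟩, rfl⟩
    have hKcard : Nat.card K ∣ Nat.card N := by
      rw [Nat.card_coe_set_eq, Set.ncard_image_of_injective _ Subtype.val_injective,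
        ← MulAction.index_stabilizer]
      exact Subgroup.index_dvd_card _
    have hclosed : ∀ (s : (S : Subgroup Γ)) (x : K), (s : Γ) * (x : Γ) * (s : Γ)⁻¹ ∈ K := by
      intro s x
      obtain ⟨y, hy⟩ := (hKmem x).mp x.2
      obtain ⟨y', hy'⟩ := class_inv p hp N hN hidx hPD (y * m * y⁻¹) (s : Γ)
      rw [hKmem]
      refine ⟨y' * y, ?_⟩
      have h1 : y' * y * m * (y' * y)⁻¹ = y' * (y * m * y⁻¹) * y'⁻¹ := by group
      rw [h1, hy', ← hy]
    let _act : MulAction (S : Subgroup Γ) K :=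
      { smul := fun s x => ⟨(s : Γ) * (x : Γ) * (s : Γ)⁻¹, hclosed s x⟩
        one_smul := by
          intro x
          apply Subtype.ext
          show ((1 : (S : Subgroup Γ)) : Γ) * (x : Γ) * ((1 : (S : Subgroup Γ)) : Γ)⁻¹ = x
          rw [Subgroup.coe_one]
          group
        mul_smul := by
          intro a b x
          apply Subtype.ext
          show ((a * b : (S : Subgroup Γ)) : Γ) * (x : Γ) * ((a * b : (S : Subgroup Γ)) : Γ)⁻¹ =
            (a : Γ) * ((b : Γ) * (x : Γ) * (b : Γ)⁻¹) * (a : Γ)⁻¹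
          rw [Subgroup.coe_mul]
          group }
    have hpK : ¬ p ∣ Nat.card K := fun h => hcop (dvd_trans h hKcard)
    obtain ⟨x, hx⟩ := hSp.nonempty_fixed_point_of_prime_not_dvd_card K hpK
    obtain ⟨y, hy⟩ := (hKmem x).mp x.2
    refine ⟨y, ?_⟩
    intro s hs
    have h1 := hx ⟨s, hs⟩
    have h2 := congrArg Subtype.val h1
    rw [hy]
    exact h2
  let CN : Subgroup N :=
    { carrier := {n | ∀ s ∈ (S : Subgroup Γ), s * (n : Γ) * s⁻¹ = (n : Γ)}
      mul_mem' := by
        intro a b ha hb s hs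
        have ha' := ha s hs
        have hb' := hb s hs
        rw [Subgroup.coe_mul]
        calc s * ((a : Γ) * (b : Γ)) * s⁻¹ = (s * (a : Γ) * s⁻¹) * (s * (b : Γ) * s⁻¹) := by group
          _ = (a : Γ) * (b : Γ) := by rw [ha', hb']
      one_mem' := by
        intro s _
        rw [Subgroup.coe_one]
        group
      inv_mem' := by
        intro a ha s hs
        have ha' := ha s hs
        rw [Subgroup.coe_inv]
        calc s * (a : Γ)⁻¹ * s⁻¹ = (s * (a : Γ) * s⁻¹)⁻¹ := by group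
          _ = (a : Γ)⁻¹ := by rw [ha'] }
  have hCN : CN = ⊤ := covering CN (fun m => by
    obtain ⟨y, hy⟩ := hfix m
    exact ⟨y, hy⟩)
  have hcent : ∀ n ∈ N, ∀ s ∈ (S : Subgroup Γ), s * n * s⁻¹ = n := by
    intro n hn s hs
    have h1 : (⟨n, hn⟩ : N) ∈ CN := by
      rw [hCN]
      trivial
    exact h1 s hs
  have hNnorm : N ≤ Subgroup.normalizer ((S : Subgroup Γ) : Set Γ) := by
    intro n hn
    rw [Subgroup.mem_normalizer_iff]
    intro h
    constructor
    · intro hh
      have h1 := hcent n hn h hh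
      have h2 : n * h * n⁻¹ = h := by
        calc n * h * n⁻¹ = (h * n * h⁻¹) * h * n⁻¹ := by rw [h1]
          _ = h := by group
      rw [h2]
      exact hh
    · intro hh
      have h1 := hcent n⁻¹ (N.inv_mem hn) (n * h * n⁻¹) hh
      have h2 : n * h * n⁻¹ = h := by
        have h3 : (n * h * n⁻¹) * n⁻¹ = n⁻¹ * (n * h * n⁻¹) := by
          calc (n * h * n⁻¹) * n⁻¹ =
              ((n * h * n⁻¹) * n⁻¹ * (n * h * n⁻¹)⁻¹) * (n * h * n⁻¹) := by group
            _ = n⁻¹ * (n * h * n⁻¹) := by rw [h1]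
        have h4 : n * h * n⁻¹ * n⁻¹ = h * n⁻¹ := by
          rw [h3]
          group
        exact mul_right_cancel h4
      rw [h2] at hh
      exact hh
  have hSnorm : (S : Subgroup Γ) ≤ Subgroup.normalizer ((S : Subgroup Γ) : Set Γ) :=
    Subgroup.le_normalizer
  have hSidx : ¬ p ∣ (S : Subgroup Γ).index := S.not_dvd_index
  have hnidx : (Subgroup.normalizer ((S : Subgroup Γ) : Set Γ)).index = 1 := by
    have h1 : (Subgroup.normalizer ((S : Subgroup Γ) : Set Γ)).index ∣ N.index :=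
      Subgroup.index_dvd_of_le hNnorm
    rw [hidx] at h1
    have h2 : (Subgroup.normalizer ((S : Subgroup Γ) : Set Γ)).index ∣ (S : Subgroup Γ).index :=
      Subgroup.index_dvd_of_le hSnorm
    rcases (Nat.dvd_prime hp).mp h1 with h | h
    · exact h
    · exfalso
      apply hSidx
      rw [h] at h2
      exact h2
  have hSn : (S : Subgroup Γ).Normal :=
    Subgroup.normalizer_eq_top_iff.mp (Subgroup.index_eq_one.mp hnidx)
  exact ⟨S, hSn, hSp, hSidx⟩

theorem NS_of_quot {G : Type u} [Group G] [Finite G] (p : ℕ) [hpf : Fact p.Prime]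
    (M : Subgroup G) (hM : M.Normal) (hidx : M.index = p) (P : Subgroup G) (hP : P.Normal)
    (hPM : P ≤ M) (hPp : IsPGroup p P) (hrel : ¬ p ∣ P.relIndex M) (hPD : PD p G) : NS p G := by
  have hp : p.Prime := hpf.out
  have hf : Function.Surjective (QuotientGroup.mk' P) := QuotientGroup.mk'_surjective P
  have hNn : (M.map (QuotientGroup.mk' P)).Normal := hM.map _ hf
  have hker : (QuotientGroup.mk' P).ker ≤ M := by
    rw [QuotientGroup.ker_mk']
    exact hPM
  have hNidx : (M.map (QuotientGroup.mk' P)).index = p := by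
    rw [Subgroup.index_map_eq M hf hker]
    exact hidx
  have hNcard : ¬ p ∣ Nat.card (M.map (QuotientGroup.mk' P)) := by
    have h1 := (M.map (QuotientGroup.mk' P)).card_mul_index
    have h2 : Nat.card (G ⧸ P) = P.index := rfl
    have h3 := Subgroup.relIndex_mul_index hPM
    rw [hNidx, h2, ← h3, hidx] at h1
    have h4 : Nat.card (M.map (QuotientGroup.mk' P)) = P.relIndex M :=
      Nat.eq_of_mul_eq_mul_right hp.pos h1
    rw [h4]
    exact hrel
  have hPDΓ : PD p (G ⧸ P) := by
    intro χ hχ b hb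
    have h1 := comp_isIrr (QuotientGroup.mk' P) hf hχ
    apply hPD (χ ∘ (QuotientGroup.mk' P)) h1 b
    show χ ((QuotientGroup.mk' P) 1) = b
    rw [map_one]
    exact hb
  obtain ⟨Sb, hSn, hSp, hSi⟩ :=
    normal_sylow_of_index_p p (M.map (QuotientGroup.mk' P)) hNn hNidx hNcard hPDΓ
  refine ⟨Sb.comap (QuotientGroup.mk' P), hSn.comap _, ?_, ?_⟩
  · rintro ⟨g, hg⟩
    obtain ⟨a, ha⟩ := hSp ⟨(QuotientGroup.mk' P) g, hg⟩
    have ha' : (QuotientGroup.mk' P) (g ^ (p ^ a)) = 1 := by
      rw [map_pow]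
      have h1 := congrArg Subtype.val ha
      exact h1
    have hgP : g ^ (p ^ a) ∈ P := (QuotientGroup.eq_one_iff _).mp ha'
    obtain ⟨b, hb⟩ := hPp ⟨g ^ (p ^ a), hgP⟩
    refine ⟨a + b, Subtype.ext ?_⟩
    show g ^ (p ^ (a + b)) = 1
    rw [pow_add, pow_mul]
    have h2 := congrArg Subtype.val hb
    exact h2
  · rw [Subgroup.index_comap_of_surjective _ hf]
    exact hSi

theorem abelian_of_NS {G : Type u} [Group G] [Finite G] (p : ℕ) [hpf : Fact p.Prime]
    (S : Subgroup G) (hS : S.Normal) (hSp : IsPGroup p S) (hPD : PD p G) :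
    ∀ x ∈ S, ∀ y ∈ S, x * y = y * x := by
  classical
  have hp : p.Prime := hpf.out
  have _fg : Fintype G := Fintype.ofFinite G
  have _fS : Fintype S := Fintype.ofFinite S
  have _fi : Fintype (Cfsg.IrrCharacter S) := Fintype.ofFinite _
  obtain ⟨k, hk⟩ := IsPGroup.iff_card.mp hSp
  have hlin : ∀ lam : Cfsg.IrrCharacter S, (lam : S → ℂ) 1 = ((1 : ℕ) : ℂ) := by
    intro lam
    obtain ⟨a, hapos, ha, hadvd⟩ := irr_degree_dvd_card lam.2
    obtain ⟨χ, b, hχ, hb, hab⟩ := Cfsg.Agent.S0855.deg_dvd_over S hS (lam : S → ℂ) lam.2 a ha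
    have hpb := hPD χ hχ b hb
    have hpa : ¬ p ∣ a := fun h => hpb (dvd_trans h hab)
    rw [hk] at hadvd
    obtain ⟨j, _, hj⟩ := (Nat.dvd_prime_pow hp).mp hadvd
    have hj0 : j = 0 := by
      rcases Nat.eq_zero_or_pos j with h0 | hpos
      · exact h0
      · exfalso
        apply hpa
        rw [hj]
        exact dvd_pow_self p hpos.ne'
    rw [ha, hj, hj0, pow_zero]
  have h1 := sum_degree_sq (fun _ : Cfsg.IrrCharacter S => 1) hlin
  have h2 : Nat.card S = Nat.card {χ : Cfsg.IrrCharacter S // (χ : S → ℂ) 1 = 1} := by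
    rw [h1]
    simp only [one_pow, Finset.sum_const, Finset.card_univ, smul_eq_mul, mul_one]
    rw [Nat.card_eq_fintype_card]
    symm
    apply Fintype.card_of_subtype
    intro χ
    simp only [Finset.mem_univ, true_iff]
    have := hlin χ
    rw [this]
    simp
  rw [card_linear, card_hom_units] at h2
  have h3 := (commutator S).card_mul_index
  rw [← h2] at h3
  have h4 : Nat.card (commutator S) = 1 := by
    have hpos : 0 < Nat.card S := Nat.card_pos
    have h5 : Nat.card (commutator S) * Nat.card S = 1 * Nat.card S := by rw [h3, one_mul]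
    exact Nat.eq_of_mul_eq_mul_right hpos h5
  have h5 : commutator S = ⊥ := (Subgroup.card_eq_one).mp h4
  intro x hx y hy
  have h6 : ⁅(⟨x, hx⟩ : S), (⟨y, hy⟩ : S)⁆ ∈ commutator S := by
    rw [commutator_def]
    exact Subgroup.commutator_mem_commutator (Subgroup.mem_top _) (Subgroup.mem_top _)
  rw [h5, Subgroup.mem_bot, commutatorElement_eq_one_iff_mul_comm] at h6
  exact congrArg Subtype.val h6

theorem NS_of_ppow (p : ℕ) [hpf : Fact p.Prime] : ∀ (m : ℕ) (G : Type u) [Group G] [Finite G]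
    (M : Subgroup G), M.Normal → M.index = p ^ m → NS p M → PD p G → NS p G := by
  have hp : p.Prime := hpf.out
  intro m
  induction m with
  | zero =>
    intro G _ _ M hM hidx hNS hPD
    obtain ⟨P, hPn, hPM, hPp, hrel⟩ := NS_map p hp M hM hNS
    rw [pow_zero] at hidx
    have hMtop : M = ⊤ := Subgroup.index_eq_one.mp hidx
    rw [hMtop, Subgroup.relIndex_top_right] at hrel
    exact ⟨P, hPn, hPp, hrel⟩
  | succ m ih =>
    intro G _ _ M hM hidx hNS hPD
    have _hMn : M.Normal := hM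
    have hQcard : Nat.card (G ⧸ M) = p ^ (m + 1) := hidx
    have hQp : IsPGroup p (G ⧸ M) := IsPGroup.of_card hQcard
    have _nil : Group.IsNilpotent (G ⧸ M) := hQp.isNilpotent
    have _nt : Nontrivial (G ⧸ M) := by
      rw [← Finite.one_lt_card_iff_nontrivial, hQcard]
      exact Nat.one_lt_pow (by omega) hp.one_lt
    have hlt := Group.IsSolvable.commutator_lt_top_of_nontrivial (G ⧸ M)
    have hdvd : p ∣ Nat.card ((G ⧸ M) →* ℂˣ) := by
      rw [card_hom_units]
      have h1 : (commutator (G ⧸ M)).index ∣ p ^ (m + 1) := by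
        rw [← hQcard]
        exact Subgroup.index_dvd_card _
      obtain ⟨j, _, hj⟩ := (Nat.dvd_prime_pow hp).mp h1
      rcases Nat.eq_zero_or_pos j with h0 | hpos
      · exfalso
        rw [h0, pow_zero] at hj
        exact (ne_of_lt hlt) (Subgroup.index_eq_one.mp hj)
      · rw [hj]
        exact dvd_pow_self p hpos.ne'
    obtain ⟨Nb, hNbn, hNbi⟩ := Cfsg.Agent.S0855.index_p_sub p hp hdvd
    have hf : Function.Surjective (QuotientGroup.mk' M) := QuotientGroup.mk'_surjective M
    have hG1n : (Nb.comap (QuotientGroup.mk' M)).Normal := hNbn.comap _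
    have hG1i : (Nb.comap (QuotientGroup.mk' M)).index = p := by
      rw [Subgroup.index_comap_of_surjective _ hf]
      exact hNbi
    have hMG1 : M ≤ Nb.comap (QuotientGroup.mk' M) := by
      intro x hx
      rw [Subgroup.mem_comap]
      have h1 : (QuotientGroup.mk' M) x = 1 := (QuotientGroup.eq_one_iff x).mpr hx
      rw [h1]
      exact Nb.one_mem
    generalize Nb.comap (QuotientGroup.mk' M) = G1 at hG1n hG1i hMG1
    have hM'n : (M.subgroupOf G1).Normal := hM.comap G1.subtype
    have hM'i : (M.subgroupOf G1).index = p ^ m := by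
      have h1 := Subgroup.relIndex_mul_index hMG1
      rw [hG1i, hidx, pow_succ] at h1
      exact Nat.eq_of_mul_eq_mul_right hp.pos h1
    have hNS' : NS p (M.subgroupOf G1) := NS_equiv p (Subgroup.subgroupOfEquivOfLe hMG1) hNS
    have hPD1 : PD p G1 := PD_normal p G1 hG1n hPD
    have hNS1 : NS p G1 := ih G1 (M.subgroupOf G1) hM'n hM'i hNS' hPD1
    obtain ⟨P1, hP1n, hP1G1, hP1p, hrel1⟩ := NS_map p hp G1 hG1n hNS1
    exact NS_of_quot p G1 hG1n hG1i P1 hP1n hP1G1 hP1p hrel1 hPD

theorem NS_of_solvable (p : ℕ) [hpf : Fact p.Prime] : ∀ (n : ℕ) (G : Type u) [Group G] [Finite G],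
    Nat.card G = n → Group.IsSolvable G → PD p G → NS p G := by
  have hp : p.Prime := hpf.out
  intro n
  induction n using Nat.strong_induction_on with
  | _ n ih =>
    intro G _ _ hcard hsolv hPD
    by_cases hsub : Subsingleton G
    · refine ⟨⊥, Subgroup.normal_bot, IsPGroup.of_bot, ?_⟩
      rw [Subgroup.index_bot, Nat.card_unique]
      exact hp.one_lt.ne' ∘ Nat.dvd_one.mp
    · have _nt : Nontrivial G := not_subsingleton_iff_nontrivial.mp hsub
      have hlt := Group.IsSolvable.commutator_lt_top_of_nontrivial G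
      have hne1 : (commutator G).index ≠ 1 := fun h => (ne_of_lt hlt) (Subgroup.index_eq_one.mp h)
      obtain ⟨q, hq, hqd⟩ := Nat.exists_prime_and_dvd hne1
      have hdvd : q ∣ Nat.card (G →* ℂˣ) := by
        rw [card_hom_units]
        exact hqd
      obtain ⟨M, hMn, hMi⟩ := Cfsg.Agent.S0855.index_p_sub q hq hdvd
      have hMcard : Nat.card M < n := by
        have h1 := M.card_mul_index
        rw [hMi, hcard] at h1
        have h2 : 0 < Nat.card M := Nat.card_pos
        have h3 := hq.two_le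
        nlinarith
      have hNSM : NS p M := ih (Nat.card M) hMcard M rfl inferInstance (PD_normal p M hMn hPD)
      by_cases hqp : q = p
      · refine NS_of_ppow p 1 G M hMn ?_ hNSM hPD
        rw [hMi, hqp, pow_one]
      · obtain ⟨P, hPn, hPM, hPp, hrel⟩ := NS_map p hp M hMn hNSM
        refine ⟨P, hPn, hPp, ?_⟩
        rw [← Subgroup.relIndex_mul_index hPM, hMi]
        intro h
        rcases (Nat.Prime.dvd_mul hp).mp h with h1 | h1
        · exact hrel h1
        · exact hqp ((Nat.prime_dvd_prime_iff_eq hp hq).mp h1).symm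

theorem NS_of_chain (p : ℕ) [hpf : Fact p.Prime] : ∀ (n : ℕ) (G : Type u) [Group G] [Finite G]
    (H : Fin (n + 1) → Subgroup G), H 0 = ⊥ → H (Fin.last n) = ⊤ → Monotone H →
    (∀ i, (H i).Normal) →
    (∀ i : Fin n, (∃ m : ℕ, (H i.castSucc).relIndex (H i.succ) = p ^ m) ∨
      ((H i.castSucc).relIndex (H i.succ)).Coprime p) → PD p G → NS p G := by
  have hp : p.Prime := hpf.out
  intro n
  induction n with
  | zero =>
    intro G _ _ H h0 hlast _ _ _ _
    have h1 : (⊥ : Subgroup G) = ⊤ := by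
      rw [← h0, ← hlast]
      rfl
    refine ⟨⊥, Subgroup.normal_bot, IsPGroup.of_bot, ?_⟩
    rw [Subgroup.index_bot, ← Subgroup.card_top, ← h1, Subgroup.card_bot]
    exact hp.one_lt.ne' ∘ Nat.dvd_one.mp
  | succ n ih =>
    intro G _ _ H h0 hlast hmono hnorm hfac hPD
    have hMn : (H (Fin.last n).castSucc).Normal := hnorm _
    have hPDM : PD p (H (Fin.last n).castSucc) := PD_normal p _ hMn hPD
    have hNSM : NS p (H (Fin.last n).castSucc) := by
      apply ih (H (Fin.last n).castSucc)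
        (fun i : Fin (n + 1) => (H i.castSucc).subgroupOf (H (Fin.last n).castSucc))
      · show (H (0 : Fin (n + 1)).castSucc).subgroupOf (H (Fin.last n).castSucc) = ⊥
        rw [Fin.castSucc_zero, h0, Subgroup.bot_subgroupOf]
      · show (H (Fin.last n).castSucc).subgroupOf (H (Fin.last n).castSucc) = ⊤
        exact Subgroup.subgroupOf_self _
      · intro i j hij
        exact Subgroup.comap_mono (hmono (Fin.castSucc_le_castSucc_iff.mpr hij))
      · intro i
        exact (hnorm i.castSucc).comap _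
      · intro i
        have hle : H i.succ.castSucc ≤ H (Fin.last n).castSucc :=
          hmono (Fin.castSucc_le_castSucc_iff.mpr (Fin.le_last _))
        have h1 := hfac i.castSucc
        rw [Fin.succ_castSucc] at h1
        show (∃ m : ℕ, ((H i.castSucc.castSucc).subgroupOf (H (Fin.last n).castSucc)).relIndex
            ((H i.succ.castSucc).subgroupOf (H (Fin.last n).castSucc)) = p ^ m) ∨
          (((H i.castSucc.castSucc).subgroupOf (H (Fin.last n).castSucc)).relIndex
            ((H i.succ.castSucc).subgroupOf (H (Fin.last n).castSucc))).Coprime p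
        rw [Subgroup.relIndex_subgroupOf hle]
        exact h1
      · exact hPDM
    have hlastfac := hfac (Fin.last n)
    rw [Fin.succ_last, hlast, Subgroup.relIndex_top_right] at hlastfac
    rcases hlastfac with ⟨m, hm⟩ | hcop
    · exact NS_of_ppow p m G _ hMn hm hNSM hPD
    · obtain ⟨P, hPn, hPM, hPp, hrel⟩ := NS_map p hp _ hMn hNSM
      refine ⟨P, hPn, hPp, ?_⟩
      rw [← Subgroup.relIndex_mul_index hPM]
      intro h
      rcases (Nat.Prime.dvd_mul hp).mp h with h1 | h1
      · exact hrel h1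
      · have h2 := Nat.Coprime.symm hcop
        exact (Nat.Prime.coprime_iff_not_dvd hp).mp h2 h1

end Cfsg.Agent.Lib.Helper3.ItoConv
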