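import Mathlib.GroupTheory.IsPerfect
import Mathlib.GroupTheory.Subgroup.Simple
import Mathlib.GroupTheory.QuotientGroup.Basic
import Mathlib.GroupTheory.Commutator.Basic
import Cfsg.Prelude.Def_CaseTheorems

set_option autoImplicit false

namespace Cfsg.Agent.Lib.Helper3.Quasi

variable {H H' : Type*} [Group H] [Group H']

theorem map_center_equiv (e : H ≃* H') : (Subgroup.center H).map e.toMonoidHom = Subgroup.center H' := by
  ext y
  rw [Subgroup.mem_map]
  constructor
  · rintro ⟨x, hx, rfl⟩
    rw [Subgroup.mem_center_iff] at hx ⊢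
    intro g
    obtain ⟨g', rfl⟩ := e.surjective g
    change e g' * e x = e x * e g'
    rw [← map_mul, ← map_mul, hx g']
  · intro hy
    refine ⟨e.symm y, ?_, by simp⟩
    rw [Subgroup.mem_center_iff] at hy ⊢
    intro g
    apply e.injective
    rw [map_mul, map_mul, e.apply_symm_apply]
    exact hy (e g)

theorem perfect_of_equiv (e : H ≃* H') (h : Group.IsPerfect H) : Group.IsPerfect H' := by
  constructor
  have h1 : commutator H = ⊤ := h.commutator_eq_top
  have h2 : (⊤ : Subgroup H).map e.toMonoidHom = ⊤ := Subgroup.map_top_of_surjective _ e.surjective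
  rw [commutator_def, ← h2, ← Subgroup.map_commutator, ← commutator_def, h1, h2]

theorem quasisimple_of_equiv (e : H ≃* H') (h : Cfsg.IsQuasisimple H) : Cfsg.IsQuasisimple H' := by
  obtain ⟨hp, hs⟩ := h
  refine ⟨perfect_of_equiv e hp, ?_⟩
  have e' : H ⧸ Subgroup.center H ≃* H' ⧸ Subgroup.center H' :=
    QuotientGroup.congr (Subgroup.center H) (Subgroup.center H') e (map_center_equiv e)
  exact e'.symm.isSimpleGroup

end Cfsg.Agent.Lib.Helper3.Quasi
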